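import Cfsg.Agent.H5.Suz.Q
import Cfsg.Agent.H2.SylTab

/-!
The extraspecial group of the hypothesis has minus type.
-/

set_option autoImplicit false
set_option maxRecDepth 100000
set_option linter.unusedVariables false
set_option linter.unusedSectionVars false

namespace Cfsg.H5.Sz

open Cfsg.H6 Subgroup

theorem card_omega : Nat.card (Omega (ZMod 2) (quadFormMinus 2 (ZMod 2) 1 1)) = 25920 := by
  have hc : Nat.card (Cfsg.isometryGroup (ZMod 2) (Cfsg.quadFormMinus 2 (ZMod 2) 1 1)) = 51840 := by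
    rw [← H3.coe_QMinus, H2.card_isom_eq_chainCard _ (H2.QMinus_nondeg (by decide))
      [.inl (.inl 0), .inl (.inr 0), .inl (.inl 1), .inl (.inr 1), .inr 0, .inr 1]
      (by decide) (by rintro ((i | i) | i) <;> fin_cases i <;> simp), H3.coe_QMinus]
    decide +kernel
  have hi : (Omega (ZMod 2) (quadFormMinus 2 (ZMod 2) 1 1)).index = 2 :=
    H3.index_commutator_even (Q := H3.QMinus 2 (ZMod 2) 1 1)
      (H2.nondegenerate_of_ofQuad (H2.QMinus_nondeg (by decide))) (Or.inr (by simp)) (by simp)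
  have := card_mul_index (Omega (ZMod 2) (quadFormMinus 2 (ZMod 2) 1 1))
  rw [hi, hc] at this
  omega

variable {H : Type*} [Group H]

/-- A nondegenerate part of an extraspecial group. -/
structure Nd (Q : Subgroup H) (z : H) (n : ℕ) (P : Subgroup H) : Prop where
  le : P ≤ Q
  zP : z ∈ P
  card : n ≤ Nat.card P
  cen : ∀ g ∈ P, (∀ q ∈ P, bf g q = 0) → g = 1 ∨ g = z

variable [Finite H] {N : ℕ} {Q : Subgroup H} {z : H} (E : ESn N Q z)
include E

theorem Nd.step {n : ℕ} {P : Subgroup H} (h : Nd Q z (4 * n) P) {a b : H} (ha : a ∈ P) (hb : b ∈ P)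
    (hab : bf a b = 1) : Nd Q z n (P ⊓ (centralizer {a} ⊓ centralizer {b})) := by
  have aa : ∀ a : H, bf a a = 0 := fun a => bf_eq_zero.mpr rfl
  have hba : bf b a = 1 := by rwa [bf_symm]
  have mem : ∀ q ∈ P, bf q a = 0 → bf q b = 0 → q ∈ P ⊓ (centralizer {a} ⊓ centralizer {b}) :=
    fun q hq h1 h2 => ⟨hq, mem_centralizer_singleton_iff.mpr (bf_eq_zero.mp h1).symm,
      mem_centralizer_singleton_iff.mpr (bf_eq_zero.mp h2).symm⟩
  have aQ := h.le ha
  have bQ := h.le hb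
  have dec : ∀ q ∈ P, ∃ j < 4, q * ([1, a, b, a * b].getD j 1) ∈
      P ⊓ (centralizer {a} ⊓ centralizer {b}) := by
    intro q hq
    have qQ := h.le hq
    rcases zmod2_cases (bf q a) with h1 | h1 <;> rcases zmod2_cases (bf q b) with h2 | h2
    · exact ⟨0, by norm_num, by simpa using mem q hq h1 h2⟩
    · exact ⟨1, by norm_num, mem (q * a) (mul_mem hq ha) (by rw [E.bf_mul qQ aQ aQ, h1, aa]; rfl)
        (by rw [E.bf_mul qQ aQ bQ, h2, hab]; rfl)⟩
    · exact ⟨2, by norm_num, mem (q * b) (mul_mem hq hb) (by rw [E.bf_mul qQ bQ aQ, h1, hba]; rfl)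
        (by rw [E.bf_mul qQ bQ bQ, h2, aa]; rfl)⟩
    · exact ⟨3, by norm_num, mem (q * (a * b)) (mul_mem hq (mul_mem ha hb))
        (by rw [E.bf_mul qQ (mul_mem aQ bQ) aQ, E.bf_mul aQ bQ aQ, h1, aa, hba]; rfl)
        (by rw [E.bf_mul qQ (mul_mem aQ bQ) bQ, E.bf_mul aQ bQ bQ, h2, aa, hab]; rfl)⟩
  refine ⟨inf_le_left.trans h.le, mem z h.zP (E.bf_z _) (E.bf_z _), ?_, fun g hg k => ?_⟩
  · have hc : Cover (P ⊓ (centralizer {a} ⊓ centralizer {b})) P 4 :=
      ⟨fun j => ([1, a, b, a * b].getD j 1)⁻¹, fun y hy => by simpa only [inv_inv] using dec y hy⟩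
    have := hc.finite_card.2
    have := h.card
    omega
  · refine h.cen g hg.1 fun q hq => ?_
    obtain ⟨j, hj, e⟩ := dec q hq
    have h1 := bf_eq_zero.mp (k _ e)
    have ca : a ∈ centralizer {g} := mem_centralizer_singleton_iff.mpr
      (mem_centralizer_singleton_iff.mp hg.2.1).symm
    have cb : b ∈ centralizer {g} := mem_centralizer_singleton_iff.mpr
      (mem_centralizer_singleton_iff.mp hg.2.2).symm
    have h2 : [1, a, b, a * b].getD j 1 ∈ centralizer {g} := by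
      interval_cases j
      exacts [one_mem _, ca, cb, mul_mem ca cb]
    exact bf_eq_zero.mpr (mem_centralizer_singleton_iff.mp
      ((mul_mem_cancel_right h2).mp (mem_centralizer_singleton_iff.mpr h1)))

theorem Nd.partner {n : ℕ} {P : Subgroup H} (h : Nd Q z n P) {a : H} (ha : a ∈ P) (h1 : a ≠ 1)
    (h2 : a ≠ z) : ∃ b ∈ P, bf a b = 1 := by
  by_contra hc
  push Not at hc
  rcases h.cen a ha fun q hq => (zmod2_cases _).resolve_right (hc q hq) with e | e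
  exacts [h1 e, h2 e]

theorem Nd.pair {n : ℕ} {P : Subgroup H} (h : Nd Q z (n + 3) P) : ∃ a ∈ P, ∃ b ∈ P, bf a b = 1 := by
  by_contra hc
  have : ∀ g : P, g = 1 ∨ g = ⟨z, h.zP⟩ := fun g => by
    by_contra hg
    push Not at hg
    obtain ⟨b, hb, e⟩ := h.partner E g.2 (fun e => hg.1 (Subtype.ext e)) (fun e => hg.2 (Subtype.ext e))
    exact hc ⟨g, g.2, b, hb, e⟩
  have h2 : Nat.card P ≤ 2 := by
    have := Nat.card_le_card_of_surjective (fun b : Bool => if b then (1 : P) else ⟨z, h.zP⟩)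
      fun g => (this g).elim (fun e => ⟨true, e.symm⟩) (fun e => ⟨false, e.symm⟩)
    simpa using this
  have := h.card
  omega

theorem Nd.fix {n : ℕ} {P : Subgroup H} (h : Nd Q z n P) {a b : H} (ha : a ∈ P) (hb : b ∈ P)
    (hab : bf a b = 1) (aa : a * a = 1) : ∃ b ∈ P, bf a b = 1 ∧ b * b = 1 := by
  rcases E.sq b (h.le hb) with e | e
  · exact ⟨b, hb, hab, e⟩
  · refine ⟨a * b, mul_mem ha hb, ?_, ?_⟩
    · rw [bf_symm, E.bf_mul (h.le ha) (h.le hb) (h.le ha), bf_eq_zero.mpr rfl, bf_symm, hab]; rfl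
    · calc a * b * (a * b) = a * (b * a) * b := by group
        _ = a * (z * a) * (b * b) := by rw [E.of_bf_one (h.le ha) (h.le hb) hab]; group
        _ = 1 := by rw [e, E.zc, ← mul_assoc, aa, one_mul, E.zz]

theorem Nd.invol {P : Subgroup H} (h : Nd Q z 32 P) :
    ∃ a ∈ P, ∃ b ∈ P, bf a b = 1 ∧ a * a = 1 ∧ b * b = 1 := by
  obtain ⟨a, ha, b, hb, hab⟩ := Nd.pair E (n := 29) h
  suffices ∃ a ∈ P, ∃ b ∈ P, bf a b = 1 ∧ a * a = 1 by
    obtain ⟨a, ha, b, hb, hab, aa⟩ := this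
    obtain ⟨b, hb, hab, bb⟩ := h.fix E ha hb hab aa
    exact ⟨a, ha, b, hb, hab, aa, bb⟩
  rcases E.sq a (h.le ha) with e | e
  · exact ⟨a, ha, b, hb, hab, e⟩
  obtain ⟨c, hc, d, hd, hcd⟩ := Nd.pair E (n := 5) (Nd.step E (n := 8) h ha hb hab)
  rcases E.sq c (h.le hc.1) with e' | e'
  · exact ⟨c, hc.1, d, hd.1, hcd, e'⟩
  have ca := mem_centralizer_singleton_iff.mp hc.2.1
  refine ⟨a * c, mul_mem ha hc.1, b, hb, ?_, ?_⟩
  · rw [E.bf_mul (h.le ha) (h.le hc.1) (h.le hb), hab,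
      bf_eq_zero.mpr (mem_centralizer_singleton_iff.mp hc.2.2).symm]
    rfl
  · calc a * c * (a * c) = a * (c * a) * c := by group
      _ = a * a * (c * c) := by rw [ca]; group
      _ = 1 := by rw [e, e', E.zz]

omit E in
theorem no_plus (E : ESn 128 Q z) (hc : Nat.card H = 3317760) {a0 a1 a2 b0 b1 b2 : H}
    (R : He.PQ7.Rel a0 a1 a2 b0 b1 b2 z) (m : ∀ g ∈ [a0, a1, a2, b0, b1, b2], g ∈ Q) : False := by
  obtain ⟨φ, h1, h2, h3, h4, h5, h6, h7⟩ := He.Q.exists_hom R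
  simp only [List.forall_mem_cons] at m
  have inj : Function.Injective φ := by
    rw [injective_iff_map_eq_one]
    intro q hq
    have : ∀ q : He.Q, q = 1 ∨ q = He.Q.z ∨ ∃ p, p * q * p⁻¹ * q⁻¹ = He.Q.z := by decide +kernel
    rcases this q with e | e | ⟨p, e⟩
    · exact e
    · exact absurd (h7 ▸ e ▸ hq) E.z1
    · exact absurd (by rw [← h7, ← e]; simp [hq]) E.z1
  have hle : φ.range ≤ Q := by
    have := He.Q.eq_top (Q.comap φ) (by
      unfold He.Q.gs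
      simp only [List.forall_mem_cons, mem_comap]
      exact ⟨h1 ▸ m.1, h2 ▸ m.2.1, h3 ▸ m.2.2.1, h4 ▸ m.2.2.2.1, h5 ▸ m.2.2.2.2.1,
        h6 ▸ m.2.2.2.2.2.1, (show φ (He.Q.mk 64) = z from h7) ▸ E.zQ, by simp⟩)
    rintro _ ⟨q, rfl⟩
    exact (this ▸ mem_top q : q ∈ Q.comap φ)
  have hr : φ.range = Q := eq_of_le_of_card_ge hle (by
    rw [E.card, ← Nat.card_congr (MonoidHom.ofInjective inj).toEquiv, TN.card_eq])
  have hn : (⊤ : Subgroup H) ≤ normalizer (φ.range : Set H) := fun g _ =>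
    H8.mem_normalizer_of_forall fun x hx => by rw [hr] at hx ⊢; exact E.conj g x hx
  have k := (card_th inj E.z1 (fun q => E.zc _) ⊤ hn (mem_top z)).2.mp fun g _ e =>
    E.cen g fun q hq => by
      obtain ⟨q, rfl⟩ : q ∈ φ.range := hr ▸ hq
      exact e q
  rw [card_top, hc] at k
  have h8 := card_mul_index (((⊤ : Subgroup H).subgroupOf _).map (th inj))
  have h9 := card_aut_plus
  have h10 := seven_dvd
  have h11 : 0 < Nat.card (MulAut He.Q) := Nat.card_pos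
  generalize Nat.card (MulAut He.Q) = A at *
  generalize Nat.card (((⊤ : Subgroup H).subgroupOf _).map (th inj)) = B at *
  generalize (((⊤ : Subgroup H).subgroupOf _).map (th inj)).index = i at *
  obtain rfl : B = 1658880 := by omega
  obtain rfl : i = 1 := by omega
  omega

omit E in
theorem exists_iota (E : ESn 128 Q z) (hc : Nat.card H = 3317760) {a : H} (ha : a ∈ Q)
    (aa : a * a = 1) (a1 : a ≠ 1) (az : a ≠ z) :
    ∃ ι : Qm →* H, ι Qm.z = z ∧ ι (Qm.dec 1) = a ∧ ι.range = Q := by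
  have n0 : Nd Q z 128 Q := ⟨le_rfl, E.zQ, E.card.ge, fun g _ h => E.of_bf h⟩
  obtain ⟨b, hb, hab⟩ := n0.partner E ha a1 az
  obtain ⟨b, hb, hab, bb⟩ := n0.fix E ha hb hab aa
  have n1 := Nd.step E (n := 32) n0 ha hb hab
  obtain ⟨c, hc', d, hd, hcd, cc, dd⟩ := n1.invol E
  have n2 := Nd.step E (n := 8) n1 hc' hd hcd
  obtain ⟨e, he, f, hf, hef⟩ := Nd.pair E (n := 5) n2
  have cm : ∀ {x y : H}, x ∈ centralizer {y} → x * y = y * x := mem_centralizer_singleton_iff.mp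
  have plus : ∀ e ∈ (Q ⊓ (centralizer {a} ⊓ centralizer {b})) ⊓ (centralizer {c} ⊓ centralizer {d}),
      ∀ f ∈ (Q ⊓ (centralizer {a} ⊓ centralizer {b})) ⊓ (centralizer {c} ⊓ centralizer {d}),
      bf e f = 1 → e * e ≠ 1 := by
    intro e he f hf hef ee
    obtain ⟨f, hf, hef, ff⟩ := n2.fix E he hf hef ee
    have b0 : ∀ {x y : H}, x ∈ centralizer {y} → bf x y = 0 := fun h => bf_eq_zero.mpr (cm h).symm
    have b0' : ∀ {x y : H}, x ∈ centralizer {y} → bf y x = 0 := fun h => bf_eq_zero.mpr (cm h)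
    have o1 : ∀ {x y : H}, x ∈ Q → y ∈ Q → bf y x = 1 → y * x = z * (x * y) := fun hx hy h =>
      E.of_bf_one hx hy (by rwa [bf_symm])
    have o0 : ∀ {x y : H}, bf y x = 0 → y * x = x * y := fun h => (bf_eq_zero.mp h).symm
    have sq : ∀ {x y : H}, x * x = 1 → y * y = 1 → y * x = x * y → x * y * (x * y) = 1 :=
      fun {x y} h1 h2 h3 => by
        calc _ = x * (y * x) * y := by group
          _ = x * x * (y * y) := by rw [h3]; group
          _ = 1 := by rw [h1, h2, one_mul]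
    have bd := mul_mem hb hd.1
    have bdf := mul_mem bd hf.1.1
    have fb : f * (b * d) = b * d * f := by rw [← mul_assoc, cm hf.1.2.2, mul_assoc, cm hf.2.2, mul_assoc]
    have hba : bf b a = 1 := by rwa [bf_symm]
    have hdc : bf d c = 1 := by rwa [bf_symm]
    have hfe : bf f e = 1 := by rwa [bf_symm]
    refine no_plus E hc (a0 := a) (a1 := c) (a2 := e) (b0 := b) (b1 := b * d) (b2 := b * d * f)
      ⟨aa, cc, ee, bb, sq bb dd (cm hd.2.2), sq (sq bb dd (cm hd.2.2)) ff fb, E.zz, cm hc'.2.1,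
        cm he.1.2.1, cm he.2.1, o0 ?_, o0 ?_, by rw [mul_assoc (b * d), fb], o1 ha hb hba, o1 ha bd ?_,
        o1 ha bdf ?_, o0 (b0' hc'.2.2), o1 hc'.1 bd ?_, o1 hc'.1 bdf ?_, o0 (b0' he.1.2.2), o0 ?_,
        o1 he.1.1 bdf ?_, E.zc _, E.zc _, E.zc _, E.zc _, E.zc _, E.zc _⟩
      (by simp only [List.forall_mem_cons]; exact ⟨ha, hc'.1, he.1.1, hb, bd, bdf, by simp⟩)
    · rw [E.bf_mul hb hd.1 hb, bf_eq_zero.mpr rfl, b0 hd.2.2]; rfl
    · rw [E.bf_mul bd hf.1.1 hb, E.bf_mul hb hd.1 hb, bf_eq_zero.mpr rfl, b0 hd.2.2, b0 hf.1.2.2]; rfl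
    · rw [E.bf_mul hb hd.1 ha, hba, b0 hd.2.1]; rfl
    · rw [E.bf_mul bd hf.1.1 ha, E.bf_mul hb hd.1 ha, hba, b0 hd.2.1, b0 hf.1.2.1]; rfl
    · rw [E.bf_mul hb hd.1 hc'.1, hdc, b0' hc'.2.2]; rfl
    · rw [E.bf_mul bd hf.1.1 hc'.1, E.bf_mul hb hd.1 hc'.1, hdc, b0' hc'.2.2, b0 hf.2.1]; rfl
    · rw [E.bf_mul hb hd.1 he.1.1, b0' he.1.2.2, b0' he.2.2]; rfl
    · rw [E.bf_mul bd hf.1.1 he.1.1, E.bf_mul hb hd.1 he.1.1, b0' he.1.2.2, b0' he.2.2, hfe]; rfl
  have ee := (E.sq e he.1.1).resolve_left (plus e he f hf hef)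
  have ff := (E.sq f hf.1.1).resolve_left (plus f hf e he (by rwa [bf_symm]))
  obtain ⟨ι, h⟩ := Qm.exists_hom (e1 := a) (f1 := b) (e2 := c) (f2 := d) (g1 := e) (g2 := f) (c := z)
    ⟨aa, bb, cc, dd, E.zz, ee, ff, E.of_bf_one ha hb hab, cm hc'.2.1, cm hd.2.1, cm he.1.2.1,
      cm hf.1.2.1, cm hc'.2.2, cm hd.2.2, cm he.1.2.2, cm hf.1.2.2, E.of_bf_one hc'.1 hd.1 hcd,
      cm he.2.1, cm hf.2.1, cm he.2.2, cm hf.2.2, E.of_bf_one he.1.1 hf.1.1 hef, E.zc _, E.zc _,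
      E.zc _, E.zc _, E.zc _, E.zc _⟩
  have hz : ι Qm.z = z := h 9
  refine ⟨ι, hz, h 1, eq_of_le_of_card_ge ?_ ?_⟩
  · have := Qm.eq_top (Q.comap ι) (by
      unfold Qm.gs
      simp only [List.forall_mem_cons, mem_comap]
      exact ⟨(show ι (Qm.dec 1) = a from h 1) ▸ ha, (show ι (Qm.dec 2) = b from h 2) ▸ hb,
        (show ι (Qm.dec 4) = c from h 3) ▸ hc'.1, (show ι (Qm.dec 8) = d from h 4) ▸ hd.1,
        (show ι (Qm.dec 16) = e from h 5) ▸ he.1.1, (show ι (Qm.dec 32) = f from h 7) ▸ hf.1.1,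
        (show ι (Qm.dec 64) = z from h 9) ▸ E.zQ, by simp⟩)
    rintro _ ⟨q, rfl⟩
    exact (this ▸ mem_top q : q ∈ Q.comap ι)
  · rw [E.card, ← Nat.card_congr (MonoidHom.ofInjective (Qm.inj (hz ▸ E.z1))).toEquiv, TN.card_eq]

omit E [Finite H]

variable {G : Type*} [Group G]

/-- The extraspecial group inside the ambient group. -/
structure St0 (ι : Qm →* G) : Prop where
  inj : Function.Injective ι
  nor : ∀ g, g * ι Qm.z = ι Qm.z * g → g ∈ normalizer (ι.range : Set G)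
  cen : ∀ g, (∀ q, g * ι q = ι q * g) → g = 1 ∨ g = ι Qm.z
  card : Nat.card (centralizer ({ι Qm.z} : Set G)) = 3317760
  fus : IsConj (ι Qm.z) (ι (Qm.dec 1))

theorem exists_st0 [Finite G] (z : G) (hz : orderOf z = 2) (Q : Subgroup (centralizer ({z} : Set G)))
    [Q.Normal] (hF : generalizedFittingSubgroup (centralizer ({z} : Set G)) = Q)
    (hQ : IsExtraspecial 2 Q) (hcard : Nat.card Q = 2 ^ 7)
    (e : centralizer ({z} : Set G) ⧸ Q ≃* Omega (ZMod 2) (quadFormMinus 2 (ZMod 2) 1 1))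
    (hnwc : ∃ g : G, (∃ hq : g * z * g⁻¹ ∈ centralizer ({z} : Set G),
      (⟨g * z * g⁻¹, hq⟩ : centralizer ({z} : Set G)) ∈ Q) ∧ g * z * g⁻¹ ≠ z) :
    ∃ ι : Qm →* G, St0 ι ∧ ι Qm.z = z ∧ ι.range = Q.map (centralizer ({z} : Set G)).subtype := by
  have hz' : z ∈ centralizer {z} := mem_centralizer_singleton_iff.mpr rfl
  have E : ESn 128 Q ⟨z, hz'⟩ := esn_of (by rw [← hz, ← orderOf_coe])
    (fun g => Subtype.ext (mem_centralizer_singleton_iff.mp g.2).symm) hQ hcard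
    (hF ▸ L0.centralizer_fstar_le _)
  have hc : Nat.card (centralizer ({z} : Set G)) = 3317760 := by
    rw [card_eq_card_quotient_mul_card_subgroup Q, Nat.card_congr e.toEquiv, card_omega, hcard]
    norm_num
  obtain ⟨g, ⟨h1, h2⟩, h3⟩ := hnwc
  have zz : z * z = 1 := congrArg Subtype.val E.zz
  have z1 : z ≠ 1 := fun e => E.z1 (Subtype.ext e)
  obtain ⟨ι, k1, k2, k3⟩ := exists_iota E hc h2 (Subtype.ext (by
      show g * z * g⁻¹ * (g * z * g⁻¹) = 1
      rw [conj_mul, zz]; simp))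
    (fun e => z1 (by simpa using congrArg Subtype.val e)) (fun e => h3 (congrArg Subtype.val e))
  have k4 : (centralizer {z}).subtype.comp ι Qm.z = z := congrArg Subtype.val k1
  have k5 : ((centralizer {z}).subtype.comp ι).range = Q.map (centralizer ({z} : Set G)).subtype := by
    rw [MonoidHom.range_comp, k3]
  refine ⟨(centralizer {z}).subtype.comp ι, ⟨Qm.inj (k4.symm ▸ z1), fun k hk => ?_, fun k hk => ?_,
    by rw [k4, hc], ?_⟩, k4, k5⟩
  · rw [k4] at hk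
    refine H8.mem_normalizer_of_forall fun x hx => ?_
    rw [k5] at hx ⊢
    obtain ⟨q, hq, rfl⟩ := hx
    exact ⟨_, E.conj ⟨k, mem_centralizer_singleton_iff.mpr hk⟩ q hq, rfl⟩
  · have hk' := hk Qm.z
    rw [k4] at hk' ⊢
    refine (E.cen ⟨k, mem_centralizer_singleton_iff.mpr hk'⟩ fun q hq => ?_).imp
      (congrArg Subtype.val) (congrArg Subtype.val)
    obtain ⟨q, rfl⟩ : q ∈ ι.range := k3 ▸ hq
    exact Subtype.ext (hk q)
  · rw [k4]
    exact isConj_iff.mpr ⟨g, (congrArg Subtype.val k2).symm⟩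

end Cfsg.H5.Sz
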