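import Cfsg.Agent.H5.PG
import Cfsg.Agent.H8.Syl
import Cfsg.Agent.L0.Dihedral

/-!
Polycyclic lists of letters, coset tables and functional subgroups of a product.
-/

set_option autoImplicit false
set_option linter.unusedVariables false

namespace Cfsg.H5.Sz

open Cfsg.H6 Subgroup

variable {G : Type*} [Group G]

/-- The word made of the letters whose bit is set. -/
noncomputable def pwW (ls : List ℕ) : ℕ → List ℕ :=
  @List.rec _ (fun _ => ℕ → List ℕ) (fun _ => [])
    (fun l _ ih n => @Nat.rec (fun _ => List ℕ) (ih (Nat.shiftRight n (nat_lit 1)))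
      (fun _ _ => l :: ih (Nat.shiftRight n (nat_lit 1))) (Nat.land n (nat_lit 1))) ls

theorem pwW_cons (l : ℕ) (ls : List ℕ) (n : ℕ) :
    pwW (l :: ls) n = if n % 2 = 0 then pwW ls (n / 2) else l :: pwW ls (n / 2) := by
  have e : pwW (l :: ls) n = @Nat.rec (fun _ => List ℕ) (pwW ls (n >>> 1))
      (fun _ _ => l :: pwW ls (n >>> 1)) (n &&& 1) := rfl
  rw [e, Nat.and_one_is_mod, Nat.shiftRight_one]
  rcases Nat.mod_two_eq_zero_or_one n with h | h <;> rw [h] <;> rfl

theorem pwW_sub {ls : List ℕ} : ∀ n, ∀ x ∈ pwW ls n, x ∈ ls := by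
  induction ls with
  | nil => intro n x hx; exact hx
  | cons l ls ih =>
    intro n x hx
    rw [pwW_cons] at hx
    split_ifs at hx
    · exact List.mem_cons_of_mem _ (ih _ x hx)
    · rcases List.mem_cons.mp hx with h | h
      · exact h ▸ List.mem_cons_self
      · exact List.mem_cons_of_mem _ (ih _ x h)

theorem pwW_zero (ls : List ℕ) : pwW ls 0 = [] := by
  induction ls with
  | nil => rfl
  | cons l ls ih => rw [pwW_cons, if_pos rfl, ih]

/-- The subgroup generated by letters. -/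
def gl (ev : ℕ → G) (ls : List ℕ) : Subgroup G := gen ev (ls.map fun l => [l])

theorem gl_mem (ev : ℕ → G) {ls : List ℕ} {l : ℕ} (h : l ∈ ls) : ev l ∈ gl ev ls :=
  evL_singleton ev l ▸ evL_mem_gen ev (List.mem_map.mpr ⟨l, h, rfl⟩)

theorem gl_le {ev : ℕ → G} {ls : List ℕ} {K : Subgroup G} (h : ∀ l ∈ ls, ev l ∈ K) :
    gl ev ls ≤ K := gen_le fun w hw => by
  obtain ⟨l, hl, rfl⟩ := List.mem_map.mp hw
  rw [evL_singleton]; exact h l hl

theorem gl_eq (ev : ℕ → G) (ls : List ℕ) : gl ev ls = closure (ev '' {l | l ∈ ls}) :=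
  le_antisymm (gl_le fun l hl => subset_closure ⟨l, hl, rfl⟩)
    ((closure_le _).2 (by rintro _ ⟨l, hl, rfl⟩; exact gl_mem ev hl))

theorem gl_pw (ev : ℕ → G) (ls : List ℕ) (n : ℕ) : evL ev (pwW ls n) ∈ gl ev ls :=
  evL_mem_of_letters fun x hx => gl_mem ev (pwW_sub n x hx)

theorem map_gl {G' : Type*} [Group G'] (f : G →* G') (ev : ℕ → G) (ls : List ℕ) :
    (gl ev ls).map f = gl (fun l => f (ev l)) ls := map_gen f ev _

/-- All letters of the word are listed. -/
def sub (w ls : List ℕ) : Bool := w.all fun x => ls.elem x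

theorem mem_of_sub {ev : ℕ → G} {K : Subgroup G} {ls w : List ℕ} (h : ∀ l ∈ ls, ev l ∈ K)
    (hw : sub w ls = true) : evL ev w ∈ K :=
  evL_mem_of_letters fun x hx => h x (List.mem_of_elem_eq_true (List.all_eq_true.mp hw x hx))

theorem gl_ind [Finite G] {ev : ℕ → G} {ls : List ℕ} {P : G → Prop} (h1 : P 1)
    (h : ∀ l ∈ ls, ∀ g, P g → P (g * ev l)) : ∀ g ∈ gl ev ls, P g := by
  intro g hg
  rw [gl_eq, ← Subgroup.mem_toSubmonoid, Subgroup.closure_toSubmonoid_of_finite] at hg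
  induction hg using Submonoid.closure_induction_right with
  | one => exact h1
  | mul_right x _ y hy ih =>
    obtain ⟨l, hl, rfl⟩ := hy
    exact h l hl x ih

theorem gl_conj {ev : ℕ → G} {ls : List ℕ} {K : Subgroup G} {a : G}
    (h : ∀ l ∈ ls, a * ev l * a⁻¹ ∈ K) : ∀ g ∈ gl ev ls, a * g * a⁻¹ ∈ K := fun g hg =>
  (gl_le (K := K.comap (MulAut.conj a).toMonoidHom) h) hg

theorem gl_comm {ev : ℕ → G} {ls : List ℕ} {a : G}
    (h : ∀ l ∈ ls, ev l * a = a * ev l) : ∀ g ∈ gl ev ls, g * a = a * g := fun g hg =>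
  mem_centralizer_singleton_iff.mp ((gl_le (K := centralizer {a})
    fun l hl => mem_centralizer_singleton_iff.mpr (h l hl)) hg)

/-- A polycyclic list with relative orders at most two. -/
def PcOK (ev : ℕ → G) : List ℕ → Prop
  | [] => True
  | l :: r => ev l * ev l ∈ gl ev r ∧ (∀ m ∈ r, (ev l)⁻¹ * ev m * ev l ∈ gl ev r) ∧ PcOK ev r

theorem pc_step {ev : ℕ → G} {l : ℕ} {r : List ℕ} (h1 : ev l * ev l ∈ gl ev r)
    (h2 : ∀ m ∈ r, (ev l)⁻¹ * ev m * ev l ∈ gl ev r) {g : G} (hg : g ∈ gl ev (l :: r)) :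
    g ∈ gl ev r ∨ (ev l)⁻¹ * g ∈ gl ev r := by
  have hc : ∀ g ∈ gl ev r, (ev l)⁻¹ * g * ev l ∈ gl ev r := fun g hg => by
    simpa using gl_conj (a := (ev l)⁻¹) (K := gl ev r) (by simpa using h2) g hg
  let T : Subgroup G :=
    { carrier := {g | g ∈ gl ev r ∨ (ev l)⁻¹ * g ∈ gl ev r}
      one_mem' := Or.inl (one_mem _)
      mul_mem' := by
        rintro a b (ha | ha) (hb | hb)
        · exact Or.inl (mul_mem ha hb)
        · right
          have := mul_mem (hc a ha) hb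
          rwa [show (ev l)⁻¹ * a * ev l * ((ev l)⁻¹ * b) = (ev l)⁻¹ * (a * b) by group] at this
        · right
          rw [← mul_assoc]; exact mul_mem ha hb
        · left
          have := mul_mem (mul_mem h1 (hc _ ha)) hb
          rwa [show ev l * ev l * ((ev l)⁻¹ * ((ev l)⁻¹ * a) * ev l) * ((ev l)⁻¹ * b) = a * b by
            group] at this
      inv_mem' := by
        rintro a (ha | ha)
        · exact Or.inl (inv_mem ha)
        · right
          have := mul_mem (hc _ (inv_mem ha)) (inv_mem h1)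
          rwa [show (ev l)⁻¹ * ((ev l)⁻¹ * a)⁻¹ * ev l * (ev l * ev l)⁻¹ = (ev l)⁻¹ * a⁻¹ by
            group] at this }
  refine (gl_le (K := T) fun m hm => ?_) hg
  rcases List.mem_cons.mp hm with rfl | hm
  · exact Or.inr (by simp)
  · exact Or.inl (gl_mem ev hm)

theorem PcOK.enum {ev : ℕ → G} : ∀ {ls : List ℕ}, PcOK ev ls → ∀ g ∈ gl ev ls,
    ∃ n < 2 ^ ls.length, g = evL ev (pwW ls n)
  | [], _, g, hg => ⟨0, by simp, by
      have : gl ev [] = ⊥ := gen_nil ev
      rw [this] at hg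
      exact hg⟩
  | l :: r, h, g, hg => by
    rcases pc_step h.1 h.2.1 hg with k | k
    · obtain ⟨n, hn, e⟩ := h.2.2.enum g k
      refine ⟨2 * n, by rw [List.length_cons, pow_succ]; omega, ?_⟩
      rw [pwW_cons, if_pos (by omega), show 2 * n / 2 = n by omega, e]
    · obtain ⟨n, hn, e⟩ := h.2.2.enum _ k
      refine ⟨2 * n + 1, by rw [List.length_cons, pow_succ]; omega, ?_⟩
      rw [pwW_cons, if_neg (by omega), show (2 * n + 1) / 2 = n by omega, evL_cons, ← e]
      group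

theorem PcOK.pow {ev : ℕ → G} : ∀ {ls : List ℕ}, PcOK ev ls → ∀ g ∈ gl ev ls,
    g ^ 2 ^ ls.length = 1
  | [], _, g, hg => by
      have : gl ev [] = ⊥ := gen_nil ev
      rw [this] at hg
      simpa using hg
  | l :: r, h, g, hg => by
    rw [List.length_cons, pow_succ', pow_mul]
    refine h.2.2.pow _ ?_
    rcases pc_step h.1 h.2.1 hg with k | k
    · exact pow_mem k 2
    · have hc : ∀ g ∈ gl ev r, (ev l)⁻¹ * g * ev l ∈ gl ev r := fun g hg => by
        simpa using gl_conj (a := (ev l)⁻¹) (K := gl ev r) (by simpa using h.2.1) g hg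
      have := mul_mem (mul_mem h.1 (hc _ k)) k
      rwa [show ev l * ev l * ((ev l)⁻¹ * ((ev l)⁻¹ * g) * ev l) * ((ev l)⁻¹ * g) = g ^ 2 by
        rw [pow_two]; group] at this

theorem PcOK.isPGroup {ev : ℕ → G} {ls : List ℕ} (h : PcOK ev ls) : IsPGroup 2 (gl ev ls) :=
  H8.isPGroup_iff_forall.mpr fun x hx => ⟨_, h.pow x hx⟩

theorem PcOK.ub {ev : ℕ → G} {ls : List ℕ} (h : PcOK ev ls) : UB (gl ev ls) (2 ^ ls.length) := by
  let f : Fin (2 ^ ls.length) → gl ev ls := fun n => ⟨_, gl_pw ev ls n⟩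
  have hf : Function.Surjective f := fun g => by
    obtain ⟨n, hn, e⟩ := h.enum g.1 g.2
    exact ⟨⟨n, hn⟩, Subtype.ext e.symm⟩
  exact ⟨Finite.of_surjective f hf, by simpa using Nat.card_le_card_of_surjective f hf⟩

/-- The certificate for a polycyclic list. -/
noncomputable def pcChk (eq : List ℕ → List ℕ → Bool) : List ℕ → List (List ℕ) → Bool
  | [], _ => true
  | l :: r, c => eq [l, l] (pwW r ((c.headD []).headD 0)) &&
      ((List.range r.length).all fun i =>
        eq [r.getD i 0, l] (l :: pwW r ((c.headD []).getD (i + 1) 0))) && pcChk eq r c.tail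

theorem pcOK_of {ev : ℕ → G} {eq : List ℕ → List ℕ → Bool}
    (he : ∀ w v, eq w v = true → evL ev w = evL ev v) :
    ∀ {ls : List ℕ} {c : List (List ℕ)}, pcChk eq ls c = true → PcOK ev ls
  | [], _, _ => trivial
  | l :: r, c, h => by
    simp only [pcChk, Bool.and_eq_true, List.all_eq_true, List.mem_range] at h
    refine ⟨?_, fun m hm => ?_, pcOK_of he h.2⟩
    · have := he _ _ h.1.1
      rw [evL_cons, evL_singleton] at this
      exact this ▸ gl_pw ev r _
    · obtain ⟨i, hi, rfl⟩ := List.getElem_of_mem hm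
      have := he _ _ (h.1.2 i hi)
      rw [evL_cons, evL_singleton, evL_cons, List.getD_eq_getElem _ _ hi] at this
      rw [mul_assoc, this, inv_mul_cancel_left]
      exact gl_pw ev r _

/-- Cosets from a table. -/
theorem cos_of_table [Finite G] {ev : ℕ → G} {ls : List ℕ} {H : Subgroup G} {a : ℕ → G} {n : ℕ}
    (h0 : 0 < n) (ha : a 0 = 1) (h : ∀ i < n, ∀ l ∈ ls, ∃ j < n, ∃ r ∈ H, a i * ev l = r * a j) :
    ∀ g ∈ gl ev ls, ∃ i < n, ∃ r ∈ H, g = r * a i := by
  refine gl_ind ⟨0, h0, 1, one_mem _, by rw [ha, mul_one]⟩ ?_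
  rintro l hl _ ⟨i, hi, r, hr, rfl⟩
  obtain ⟨j, hj, r', hr', e⟩ := h i hi l hl
  exact ⟨j, hj, r * r', mul_mem hr hr', by rw [mul_assoc, e, mul_assoc]⟩

/-! ### Functional subgroups of a product -/

variable {M : Type*} [Group M]

/-- The subgroup is the graph of a partial homomorphism. -/
def Fn (Γ : Subgroup (M × G)) : Prop := ∀ g, ((1 : M), g) ∈ Γ → g = 1

theorem Fn.mono {Γ Γ' : Subgroup (M × G)} (h : Fn Γ) (hl : Γ' ≤ Γ) : Fn Γ' := fun g hg => h g (hl hg)

theorem Fn.eq {Γ : Subgroup (M × G)} (h : Fn Γ) {p q : M × G} (hp : p ∈ Γ) (hq : q ∈ Γ)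
    (e : p.1 = q.1) : p = q := by
  have := h (p.2 * q.2⁻¹) (by
    have := mul_mem hp (inv_mem hq)
    rwa [show p * q⁻¹ = (1, p.2 * q.2⁻¹) from Prod.ext (by simp [e]) rfl] at this)
  exact Prod.ext e (mul_inv_eq_one.mp this)

theorem Fn.one {Γ : Subgroup (M × G)} (h : Fn Γ) {p : M × G} (hp : p ∈ Γ) (e : p.1 = 1) : p = 1 :=
  h.eq hp (one_mem _) e

/-- A covered subgroup is functional when there are enough conjugates. -/
theorem Fn.of_cover {Γ0 Γ : Subgroup (M × G)} {n : ℕ} (hc : Cover Γ0 Γ n) (h0 : Fn Γ0) {z : M}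
    (hz : ∀ p ∈ Γ0, p.1 * z = z * p.1) {γ : ℕ → M × G} (hγ : ∀ i < n, γ i ∈ Γ)
    (hd : ∀ i < n, ∀ j < n, (γ i).1⁻¹ * z * (γ i).1 = (γ j).1⁻¹ * z * (γ j).1 → i = j) : Fn Γ := by
  obtain ⟨r, hr⟩ := hc
  have key : ∀ p q : M × G, p * q⁻¹ ∈ Γ0 → p.1⁻¹ * z * p.1 = q.1⁻¹ * z * q.1 := fun p q h => by
    have := hz _ h
    simp only [Prod.fst_mul, Prod.fst_inv] at this
    calc p.1⁻¹ * z * p.1 = p.1⁻¹ * (z * (p.1 * q.1⁻¹)) * q.1 := by group
      _ = _ := by rw [← this]; group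
  have same : ∀ {p q : M × G} {j}, p * (r j)⁻¹ ∈ Γ0 → q * (r j)⁻¹ ∈ Γ0 → p * q⁻¹ ∈ Γ0 :=
    fun {p q j} hp hq => by
      have := mul_mem hp (inv_mem hq)
      rwa [show p * (r j)⁻¹ * (q * (r j)⁻¹)⁻¹ = p * q⁻¹ by group] at this
  choose f hf hf' using fun i : Fin n => hr _ (hγ i i.2)
  have inj : Function.Injective fun i : Fin n => (⟨f i, hf i⟩ : Fin n) := fun i j e => by
    have e' : f i = f j := congrArg Fin.val e
    exact Fin.ext (hd i i.2 j j.2 (key _ _ (same (hf' i) (e' ▸ hf' j))))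
  have surj := Finite.injective_iff_surjective.mp inj
  have all : ∀ p ∈ Γ, ∃ i : Fin n, p * (γ i)⁻¹ ∈ Γ0 := fun p hp => by
    obtain ⟨j, hj, h⟩ := hr p hp
    obtain ⟨i, e⟩ := surj ⟨j, hj⟩
    have e' : f i = j := congrArg Fin.val e
    exact ⟨i, same h (e' ▸ hf' i)⟩
  intro g hg
  obtain ⟨i, hi⟩ := all _ hg
  obtain ⟨j, hj⟩ := all _ (one_mem _)
  have e : i = j := Fin.ext (hd i i.2 j j.2 ((key _ _ hi).symm.trans (key 1 _ hj)))
  subst e
  have := mul_mem hi (inv_mem hj)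
  rw [show (1, g) * (γ i)⁻¹ * (1 * (γ i)⁻¹)⁻¹ = ((1 : M), g) by group] at this
  exact h0 g this

theorem Fn.of_card {Γ : Subgroup (M × G)} [Finite Γ]
    (h : Nat.card Γ ≤ Nat.card (Γ.map (MonoidHom.fst M G))) : Fn Γ := by
  intro g hg
  have hs : Function.Surjective ((MonoidHom.fst M G).subgroupMap Γ) :=
    (MonoidHom.fst M G).subgroupMap_surjective Γ
  have hb := (Nat.bijective_iff_surjective_and_card _).mpr
    ⟨hs, le_antisymm h (Nat.card_le_card_of_surjective _ hs)⟩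
  have := hb.1 (a₁ := ⟨_, hg⟩) (a₂ := 1) (Subtype.ext rfl)
  exact congrArg Prod.snd (congrArg Subtype.val this)

theorem fst_evL (ev : ℕ → M × G) (w : List ℕ) : (evL ev w).1 = evL (fun l => (ev l).1) w :=
  map_evL (MonoidHom.fst M G) ev w

theorem snd_evL (ev : ℕ → M × G) (w : List ℕ) : (evL ev w).2 = evL (fun l => (ev l).2) w :=
  map_evL (MonoidHom.snd M G) ev w

/-- Strictly increasing values. -/
noncomputable def incr (f : ℕ → ℕ) (n : ℕ) : Bool := allR (fun i => Nat.blt (f i) (f (i + 1))) 0 n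

theorem inj_of_incr {f : ℕ → ℕ} {n : ℕ} (h : incr f n = true) :
    ∀ i < n + 1, ∀ j < n + 1, f i = f j → i = j := by
  have h1 : ∀ i < n, f i < f (i + 1) := fun i hi => by
    simpa using allR_spec h i (Nat.zero_le _) (by omega)
  have h2 : ∀ k i, i + k + 1 ≤ n → f i < f (i + k + 1) := by
    intro k
    induction k with
    | zero => intro i hi; exact h1 i (by omega)
    | succ k ih => intro i hi; exact (ih i (by omega)).trans (h1 (i + k + 1) (by omega))
  intro i hi j hj e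
  rcases lt_trichotomy i j with l | l | l
  · have := h2 (j - i - 1) i (by omega)
    rw [show i + (j - i - 1) + 1 = j by omega] at this
    omega
  · exact l
  · have := h2 (i - j - 1) j (by omega)
    rw [show j + (i - j - 1) + 1 = i by omega] at this
    omega

theorem mem_pow_odd {K : Subgroup G} {g : G} {m : ℕ} (hm : Odd m) (h1 : g ^ m = 1)
    (h2 : g * g ∈ K) : g ∈ K :=
  H8.mem_of_pow_mem (m := 2) (n := m) (by simpa using hm) (by rwa [pow_two]) (h1 ▸ one_mem _)

end Cfsg.H5.Sz
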