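import Cfsg.Agent.H5.HeS
import Cfsg.Agent.H5.Suz.PQ
import Cfsg.Agent.H5.Suz.Gen
import Cfsg.Agent.H6.UBChain

/-!
The extraspecial group of order 128 and minus type, and bounds for automorphism groups.
-/

set_option autoImplicit false
set_option maxRecDepth 100000
set_option linter.unusedVariables false

namespace Cfsg.H5.Sz

open Cfsg.H6 Subgroup

/-- The extraspecial group of order 128 and minus type. -/
abbrev Qm : Type := TN 40 128

def qmN (a b : ℕ) : ℕ :=
  Nat.xor (Nat.xor a b) (Nat.shiftLeft (Nat.land (Nat.shiftRight (nat_lit 0x6996966996696996)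
    (Nat.xor (Nat.land (Nat.land (Nat.shiftRight a (nat_lit 1)) b) (nat_lit 21))
      (Nat.land (Nat.land a b) (nat_lit 48)))) (nat_lit 1)) (nat_lit 6))

theorem qmN_lt : ∀ x y : Qm, qmN x.val y.val < 128 := by decide +kernel

namespace Qm

def mul (x y : Qm) : Qm := ⟨qmN x.val y.val, qmN_lt x y⟩
/-- The element with a given code. -/
def dec (n : ℕ) : Qm := ⟨Nat.mod n 128, Nat.mod_lt _ (by norm_num)⟩
def gs : List Qm := [dec 1, dec 2, dec 4, dec 8, dec 16, dec 32, dec 64]

theorem hd : ∀ m : Qm, m = dec 0 ∨ ∃ g ∈ gs, ∃ m' : Qm, m'.val < m.val ∧ m = mul g m' := by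
  decide +kernel

instance instGroup : Group Qm where
  mul := mul
  one := dec 0
  inv x := mul x (mul x x)
  mul_assoc := He.assoc_of_gens hd (by decide +kernel) (by decide +kernel)
  one_mul := by decide +kernel
  mul_one := by decide +kernel
  inv_mul_cancel := by decide +kernel

theorem dec_val (q : Qm) : dec q.val = q := TN.ext' (Nat.mod_eq_of_lt q.lt)

theorem val_dec {n : ℕ} (h : n < 128) : (dec n).val = n := Nat.mod_eq_of_lt h

/-- The central involution. -/
def z : Qm := dec 64

theorem rel : PQ.Rel (dec 1) (dec 2) (dec 4) (dec 8) (dec 16) (dec 32) z := by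
  constructor <;> decide +kernel

theorem eq_top (K : Subgroup Qm) (h : ∀ g ∈ gs, g ∈ K) : K = ⊤ := by
  rw [eq_top_iff]
  intro q _
  exact He.ind_of_gens (rk := TN.val) hd (P := fun q => q ∈ K) K.one_mem
    (fun g hg m ih => K.mul_mem (h g hg) ih) q

/-- The letters. -/
def ev : ℕ → Qm := PQ.ev (dec 1) (dec 2) (dec 4) (dec 8) (dec 16) (dec 32) z

theorem exists_hom {G : Type*} [Group G] {e1 f1 e2 f2 g1 g2 c : G} (H : PQ.Rel e1 f1 e2 f2 g1 g2 c) :
    ∃ φ : Qm →* G, ∀ l, φ (ev l) = PQ.ev e1 f1 e2 f2 g1 g2 c l :=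
  exists_hom_of_UB (PQ.good rel) (PQ.rels rel) (PQ.good H) (PQ.rels H)
    PQ.gen_top (PQ.ub (pg_good _ _) (pg_rels _ _))
    (eq_top _ (by
      unfold gs
      simp only [List.forall_mem_cons]
      exact ⟨letter_mem _ 1 rfl, letter_mem _ 2 rfl, letter_mem _ 3 rfl, letter_mem _ 4 rfl,
        letter_mem _ 5 rfl, letter_mem _ 7 rfl, letter_mem _ 9 rfl, by simp⟩)) TN.card_eq.ge

theorem comm : ∀ q : Qm, q = 1 ∨ q = z ∨ ∃ p, p * q * p⁻¹ * q⁻¹ = z := by decide +kernel

theorem inj {G : Type*} [Group G] {φ : Qm →* G} (h : φ z ≠ 1) : Function.Injective φ := by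
  rw [injective_iff_map_eq_one]
  intro q hq
  rcases comm q with e | e | ⟨p, e⟩
  · exact e
  · exact absurd (e ▸ hq) h
  · exact absurd (by rw [← e]; simp [hq]) h

theorem cen : ∀ q : Qm, (∀ g ∈ gs, q * g = g * q) → q = 1 ∨ q = z := by decide +kernel

end Qm

/-- The letters of the extraspecial group. -/
def QL : List ℕ := [1, 2, 3, 4, 5, 7, 9]

theorem Qm.eq_pw : ∀ q : Qm, q = evL Qm.ev (pwW QL q.val) := by decide +kernel

theorem Qm.map_eq {G : Type*} [Group G] {φ : Qm →* G} {ev : ℕ → G}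
    (h : ∀ l ∈ QL, φ (Qm.ev l) = ev l) (q : Qm) : φ q = evL ev (pwW QL q.val) := by
  conv_lhs => rw [Qm.eq_pw q]
  rw [map_evL]
  exact evL_congr fun x hx => h x (pwW_sub _ x hx)

/-! ### Automorphisms -/

section Aut

variable {T : Type*} [Group T]

/-- Invariants of the image of a base point. -/
def autP [DecidableEq T] (dec : ℕ → T) (z : T) (bs : List ℕ) (b p : ℕ) : Bool :=
  (decide (dec p * dec p = 1) == decide (dec b * dec b = 1)) &&
  (decide (dec p = 1 ∨ dec p = z) == decide (dec b = 1 ∨ dec b = z)) &&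
  bs.all fun c => decide (dec p * dec c = dec c * dec p) == decide (dec b * dec c = dec c * dec b)

theorem card_aut_le [DecidableEq T] (dec : ℕ → T) (N : ℕ) (hsurj : ∀ v, ∃ p < N, dec p = v) (z : T)
    (hz : ∀ q, (∀ r, q * r = r * q) ↔ q = 1 ∨ q = z) (todo : List ℕ)
    (h : ∀ K : Subgroup T, (∀ b ∈ todo, dec b ∈ K) → K = ⊤) :
    Nat.card (MulAut T) ≤ prodCnt (autP dec z) N todo [] := by
  have := card_le_of_chain (MulAut.toPerm T) dec N hsurj (autP dec z) ?_ todo []
  · have e : fixS (MulAut.toPerm T) ((todo.reverse ++ []).map dec) = ⊥ := by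
      rw [eq_bot_iff]
      intro g hg
      have := h (g.toMonoidHom.eqLocus (MonoidHom.id T)) fun b hb =>
        hg _ (List.mem_map.mpr ⟨b, by simpa using hb, rfl⟩)
      exact MulEquiv.ext fun x => (this ▸ mem_top x : x ∈ g.toMonoidHom.eqLocus (MonoidHom.id T))
    rwa [e, List.map_nil, fixS_nil, Subgroup.card_top, Subgroup.card_bot, mul_one] at this
  · intro bs b p g hg hv
    have hv' : g (dec p) = dec b := by
      rw [Equiv.Perm.inv_eq_iff_eq] at hv
      exact hv.symm
    unfold autP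
    simp only [Bool.and_eq_true, beq_iff_eq, decide_eq_decide, List.all_eq_true]
    refine ⟨⟨?_, ?_⟩, fun c hc => ?_⟩
    · rw [← hv', ← map_mul, map_eq_one_iff _ g.injective]
    · rw [← hz, ← hz, ← hv']
      refine ⟨fun k r => ?_, fun k r => g.injective ?_⟩
      · obtain ⟨r, rfl⟩ := g.surjective r
        rw [← map_mul, k, map_mul]
      · rw [map_mul, map_mul, k]
    · have h1 : g (dec c) = dec c := hg _ (List.mem_map.mpr ⟨c, hc, rfl⟩)
      rw [← hv']
      conv_rhs => rw [← h1, ← map_mul, ← map_mul, g.injective.eq_iff]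

variable {M : Type*} [Group M]

/-- The action of the normaliser of the image. -/
noncomputable def th {ι : T →* M} (h : Function.Injective ι) :
    normalizer (ι.range : Set M) →* MulAut T :=
  (MulAut.congr (MonoidHom.ofInjective h).symm).toMonoidHom.comp ι.range.normalizerMonoidHom

theorem th_spec {ι : T →* M} (h : Function.Injective ι) (k : normalizer (ι.range : Set M)) (q : T) :
    ι (th h k q) = k * ι q * (k : M)⁻¹ := by
  have e : ∀ y : ι.range, ι ((MonoidHom.ofInjective h).symm y) = y := fun y =>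
    congrArg Subtype.val ((MonoidHom.ofInjective h).apply_symm_apply y)
  exact (e _).trans rfl

theorem card_th [Finite M] {ι : T →* M} (h : Function.Injective ι) {z : M} (z1 : z ≠ 1)
    (zc : ∀ q, z * ι q = ι q * z) (K : Subgroup M) (hK : K ≤ normalizer (ι.range : Set M))
    (zK : z ∈ K) :
    2 * Nat.card ((K.subgroupOf _).map (th h)) ≤ Nat.card K ∧
    ((∀ g ∈ K, (∀ q, g * ι q = ι q * g) → g = 1 ∨ g = z) ↔
      2 * Nat.card ((K.subgroupOf _).map (th h)) = Nat.card K) := by
  let f : K →* MulAut T := (th h).comp (inclusion hK)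
  have hr : f.range = (K.subgroupOf _).map (th h) := by
    rw [MonoidHom.range_comp, inclusion_range]
  have hk : ∀ g : K, g ∈ f.ker ↔ ∀ q, (g : M) * ι q = ι q * g := fun g => by
    rw [MonoidHom.mem_ker, MulEquiv.ext_iff]
    refine forall_congr' fun q => ?_
    rw [← h.eq_iff]
    show ι (th h (inclusion hK g) q) = ι q ↔ _
    rw [th_spec, mul_inv_eq_iff_eq_mul]
    rfl
  have hc : Nat.card f.ker * Nat.card f.range = Nat.card K := by
    rw [← index_ker]; exact card_mul_index _
  have z1' : (1 : f.ker) ≠ ⟨⟨z, zK⟩, (hk _).mpr zc⟩ := fun e =>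
    z1 (congrArg Subtype.val (congrArg Subtype.val e)).symm
  have h2 : 2 ≤ Nat.card f.ker := Finite.one_lt_card_iff_nontrivial.mpr ⟨⟨_, _, z1'⟩⟩
  have hp : 0 < Nat.card f.range := by
    have : Finite f.range := Finite.of_surjective _ f.rangeRestrict_surjective
    exact Nat.card_pos
  rw [← hr, ← hc]
  refine ⟨Nat.mul_le_mul_right _ h2, fun k => ?_, fun k g hg e => ?_⟩
  · congr 1
    refine ((Nat.card_eq_two_iff' 1).mpr ⟨_, z1'.symm, fun y hy => ?_⟩).symm
    rcases k y.1.1 y.1.2 ((hk _).mp y.2) with e | e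
    · exact absurd (Subtype.ext (Subtype.ext e)) hy
    · exact Subtype.ext (Subtype.ext e)
  · obtain ⟨y, -, hy⟩ := (Nat.card_eq_two_iff' (1 : f.ker)).mp (Nat.eq_of_mul_eq_mul_right hp k).symm
    by_cases g1 : g = 1
    · exact Or.inl g1
    · right
      have e1 := hy ⟨⟨g, hg⟩, (hk _).mpr e⟩ fun e => g1 (congrArg Subtype.val (congrArg Subtype.val e))
      exact congrArg Subtype.val (congrArg Subtype.val (e1.trans (hy _ z1'.symm).symm))

end Aut

theorem Qm.card_aut : Nat.card (MulAut Qm) ≤ 3317760 :=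
  (card_aut_le Qm.dec 128 (fun v => ⟨v.val, v.lt, Qm.dec_val v⟩) Qm.z (by decide +kernel)
    [1, 2, 4, 8, 16, 32] fun K h => Qm.eq_top K (by
      simp only [List.forall_mem_cons] at h
      obtain ⟨h1, h2, h3, h4, h5, h6, -⟩ := h
      unfold Qm.gs
      simp only [List.forall_mem_cons]
      exact ⟨h1, h2, h3, h4, h5, h6,
        (show Qm.dec 16 * Qm.dec 16 = Qm.dec 64 by decide +kernel) ▸ mul_mem h5 h5, by simp⟩)).trans
    (by decide +kernel)

/-- The element of the group of plus type with a given code. -/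
def decP (n : ℕ) : He.Q := ⟨Nat.mod n 128, Nat.mod_lt _ (by norm_num)⟩

theorem card_aut_plus : Nat.card (MulAut He.Q) ≤ 2580480 :=
  (card_aut_le decP 128 (fun v => ⟨v.val, v.lt, TN.ext' (Nat.mod_eq_of_lt v.lt)⟩) He.Q.z
    (by decide +kernel) [1, 8, 2, 24, 4, 48] fun K h => He.Q.eq_top K (by
      simp only [List.forall_mem_cons] at h
      obtain ⟨h1, h2, h3, h4, h5, h6, -⟩ := h
      have h7 := mul_mem h2 h4
      have h8 := mul_mem h7 h6
      have h9 := mul_mem (mul_mem h1 h2) (mul_mem h1 h2)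
      rw [show decP 8 * decP 24 * decP 48 = He.Q.mk 32 by decide +kernel] at h8
      rw [show decP 8 * decP 24 = He.Q.mk 16 by decide +kernel] at h7
      rw [show decP 1 * decP 8 * (decP 1 * decP 8) = He.Q.mk 64 by decide +kernel] at h9
      unfold He.Q.gs
      simp only [List.forall_mem_cons]
      exact ⟨h1, h3, h5, h2, h7, h8, h9, by simp⟩)).trans (by decide +kernel)

theorem seven_dvd : 7 ∣ Nat.card (MulAut He.Q) := by
  let s : He.L → MulAut He.Q := fun s =>
    { toFun := He.A0.ap s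
      invFun := He.A0.ap s⁻¹
      left_inv := fun q => by rw [← He.A0.mul_ap, inv_mul_cancel, He.A0.one_ap]
      right_inv := fun q => by rw [← He.A0.mul_ap, mul_inv_cancel, He.A0.one_ap]
      map_mul' := He.A0.ap_mul s }
  let f : He.L →* MulAut He.Q := MonoidHom.mk' s fun a b => MulEquiv.ext (He.A0.mul_ap a b)
  have : Fact (Nat.Prime 7) := ⟨by norm_num⟩
  have h : orderOf (f He.L.r) = 7 := by
    refine orderOf_eq_prime (by rw [← map_pow, show He.L.r ^ 7 = 1 by decide +kernel, map_one])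
      fun e => ?_
    have : He.A0.ap He.L.r (He.Q.mk 1) = He.Q.mk 1 := MulEquiv.congr_fun e _
    exact absurd this (by decide +kernel)
  exact h ▸ orderOf_dvd_natCard _

end Cfsg.H5.Sz
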