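import Cfsg.Agent.H5.Suz.XK2

/-!
Further facts about the model.
-/

set_option autoImplicit false
set_option maxRecDepth 100000
set_option linter.unusedVariables false

namespace Cfsg.H5.Sz

open Cfsg.H6 Subgroup

theorem cen_ct {g : X} (hg : g ∈ CX) (e : g * evX 32 = evX 32 * g) : g ∈ gl evX DL := by
  have key : ∀ g ∈ CX, g * evX 32 = evX 32 * g → g * evX 1 = evX 1 * g → g ∈ gl evX DL := by
    intro g hg e e1
    obtain ⟨v, -, rfl⟩ := cen_t (memK hg e1) (by simpa only [List.forall_mem_singleton, vX,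
      evL_singleton] using e)
    exact mem_of_sub (ls := DL) (fun l hl => gl_mem evX hl) (List.all_eq_true.mpr fun x hx =>
      List.all_eq_true.mp (by decide : sub R1L DL = true) x (pwW_sub v x hx))
  obtain ⟨p, hp⟩ : ∃ p : Qm, p⁻¹ * apQ [32] p = Qm.dec 1 := by decide +kernel
  have a32 : ∀ q, (evX 32)⁻¹ * i0 q * evX 32 = i0 (apQ [32] q) := fun q => by
    simpa only [vX, evL_singleton] using actQ (w := [32]) (by decide) q
  obtain ⟨p', hp'⟩ := H8.conj_mem_of_mem_normalizer (CX_le hg) (x := i0 p) ⟨p, rfl⟩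
  have h1 : g * evX 1 * g⁻¹ = i0 (p'⁻¹ * apQ [32] p') := by
    rw [← i0_e, ← hp, map_mul, map_mul, map_inv, map_inv, ← a32, ← a32, hp']
    calc _ = g * (i0 p)⁻¹ * (g * evX 32)⁻¹ * g * i0 p * g⁻¹ * (g * evX 32) * g⁻¹ := by group
      _ = _ := by rw [e]; group
  have h2 : ∀ p : Qm, p⁻¹ * apQ [32] p * (p⁻¹ * apQ [32] p) = 1 → p⁻¹ * apQ [32] p = 1 ∨
      p⁻¹ * apQ [32] p = Qm.z ∨ p⁻¹ * apQ [32] p = Qm.dec 1 ∨
      p⁻¹ * apQ [32] p = Qm.dec 1 * Qm.z := by decide +kernel
  have e11 : evX 1 * evX 1 = 1 := weq [1, 1], []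
  have zg := zcomm g hg
  rcases h2 p' (i0_inj (by rw [map_mul, ← h1, conj_mul, e11]; simp)) with k | k | k | k <;>
    rw [k] at h1
  · exact absurd (i0_inj (by rw [i0_e, map_one]; simpa using h1) : Qm.dec 1 = 1) (by decide)
  · refine absurd (i0_inj ?_ : Qm.dec 1 = Qm.z) (by decide)
    rw [i0_z, mul_inv_eq_iff_eq_mul, ← zg] at h1
    rw [i0_e, i0_z, mul_left_cancel h1]
  · exact key g hg e (by rw [i0_e] at h1; exact mul_inv_eq_iff_eq_mul.mp h1)
  · rw [map_mul, i0_e, i0_z, mul_inv_eq_iff_eq_mul] at h1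
    have r1 : evX 34 * evX 32 = evX 32 * evX 34 := weq [34, 32], [32, 34]
    have r2 : evX 34 * (evX 1 * evX 9) = evX 1 * evX 34 := weq [34, 1, 9], [1, 34]
    have := key (evX 34 * g) (mul_mem (memC (by decide) (by decide)) hg)
      (by rw [mul_assoc, e, ← mul_assoc, r1, mul_assoc])
      (by rw [mul_assoc, h1, ← mul_assoc, r2, mul_assoc])
    exact (mul_mem_cancel_left (gl_mem evX (by decide))).mp this

def nT : List (List ℕ) := [[1, 4, 6, 8, 16, 32, 64, 256, 384, 512], [27, 25, 23, 29, 16, 352, 224, 96, 960, 512], [529, 2, 4, 8, 16, 32, 576, 128, 256, 512], [17, 2, 4, 8, 16, 32, 592, 128, 256, 512], [1, 2, 4, 8, 16, 32, 64, 128, 256, 512], [1, 2, 4, 8, 16, 32, 64, 128, 256, 512]]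

theorem norm_R : KX ≤ normalizer (gl evX RL : Set X) := gl_le fun l hl =>
  H8.mem_normalizer_of_forall (gl_conj fun m hm => by
    obtain ⟨i, hi, rfl⟩ := List.getElem_of_mem hl
    obtain ⟨j, hj, rfl⟩ := List.getElem_of_mem hm
    have := (by decide +kernel : ∀ i < 6, ∀ j < 10, eqB [KL.getD i 0, RL.getD j 0]
      (pwW RL ((nT.getD i []).getD j 0) ++ [KL.getD i 0]) = true) i hi j hj
    rw [List.getD_eq_getElem _ _ hi, List.getD_eq_getElem _ _ hj] at this
    have e := eqB_spec _ _ this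
    simp only [vX, evL_append, evL_cons, evL_nil, mul_one] at e
    rw [e, mul_inv_cancel_right]
    exact gl_pw evX RL _)

theorem R_le : gl evX RL ≤ KX := gl_le fun l hl => by
  have := (by decide : ∀ l ∈ RL, 1 ≤ l ∧ l < 39) l hl
  refine memK (memC this.1 this.2) ?_
  have := eqB_spec [l, 1] [1, l] ((by decide +kernel : ∀ l ∈ RL, eqB [l, 1] [1, l] = true) l hl)
  simpa only [vX, evL_cons, evL_nil, mul_one] using this

def oW : List (List ℕ) := [[], [], [], [], [], [18], [], [], [18], [], [], [], [], [], [18], [], [], [], [], [], [], [], [], [], [], [], [], [], [], [], [], [20], [], [20], [], [], [20], [], [], [], [], [20], [], [], [18], [], [], [], [20], [20], [], [], [], [], [], [18], [18], [18], [18], [18]]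

theorem odd_a {i : ℕ} (h0 : i ≠ 0) (hi : i < 60) : ∃ b ∈ KX,
    (vX (nthW aW i) * (b * vX (nthW aW i) * b⁻¹)) ^ 15 = 1 ∧
      vX (nthW aW i) * (b * vX (nthW aW i) * b⁻¹) ≠ 1 := by
  have := allR_spec (f := fun i => andB (sub (nthW oW i) KL) (andB
    (eqB (rp 15 (nthW aW i ++ (nthW oW i ++ nthW aW i ++ invW invX (nthW oW i)))) [])
    (neB (nthW aW i ++ (nthW oW i ++ nthW aW i ++ invW invX (nthW oW i))) []))) (lo := 1) (n := 59)
    (by decide +kernel) i (by omega) (by omega)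
  simp only [andB_eq_true] at this
  have e1 := eqB_spec _ _ this.2.1
  have e2 := neB_spec _ _ this.2.2
  simp only [vX, evL_append, evL_rp, evL_invW goodX, evL_nil] at e1 e2
  exact ⟨_, mem_of_sub (fun l hl => gl_mem evX hl) this.1, e1, e2⟩

end Cfsg.H5.Sz
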