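import Cfsg.Agent.H5.Suz.ES
import Cfsg.Agent.H5.Suz.XC

/-!
Pairs of elements acting alike on the extraspecial group.
-/

set_option autoImplicit false
set_option maxRecDepth 100000
set_option linter.unusedVariables false
set_option linter.unusedSectionVars false

namespace Cfsg.H5.Sz

open Cfsg.H6 Subgroup

variable {G : Type*} [Group G] {ι : Qm →* G}

/-- The graph of the identification of the extraspecial groups. -/
noncomputable def DQ (ι : Qm →* G) : Subgroup (X × G) := (i0.prod ι).range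

/-- Pairs acting alike. -/
noncomputable def Dl (ι : Qm →* G) : Subgroup (X × G) :=
  normalizer (DQ ι : Set (X × G)) ⊓ CX.comap (MonoidHom.fst X G)

theorem DQ_mem (q : Qm) : (i0 q, ι q) ∈ DQ ι := ⟨q, rfl⟩

theorem DQ_le : DQ ι ≤ Dl ι := le_inf le_normalizer (by rintro _ ⟨q, rfl⟩; exact i0_mem q)

theorem Dl_q (q : Qm) : (i0 q, ι q) ∈ Dl ι := DQ_le (DQ_mem q)

theorem DQ_fn : Fn (DQ ι) := by
  rintro g ⟨q, e⟩
  have e1 : i0 q = 1 := congrArg Prod.fst e
  have e2 : ι q = g := congrArg Prod.snd e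
  rw [← e2, i0_inj (e1.trans (map_one _).symm), map_one]

theorem Dl_C {p : X × G} (hp : p ∈ Dl ι) : p.1 ∈ CX := hp.2

theorem Dl_act {p : X × G} (hp : p ∈ Dl ι) {q q' : Qm} (h : p.1⁻¹ * i0 q * p.1 = i0 q') :
    p.2⁻¹ * ι q * p.2 = ι q' := by
  obtain ⟨r, e⟩ := H8.conj_mem_of_mem_normalizer' hp.1 (DQ_mem q)
  have e1 : i0 r = p.1⁻¹ * i0 q * p.1 := congrArg Prod.fst e
  have e2 : ι r = p.2⁻¹ * ι q * p.2 := congrArg Prod.snd e
  rw [← e2, i0_inj (e1.trans h)]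

theorem Dl_ap {w : List ℕ} (hw : inR 39 w = true) {g : G} (hp : (vX w, g) ∈ Dl ι) (q : Qm) :
    g⁻¹ * ι q * g = ι (apQ w q) := Dl_act hp (actQ hw q)

theorem Dl_z {p : X × G} (hp : p ∈ Dl ι) : p.2 * ι Qm.z = ι Qm.z * p.2 := by
  have := Dl_act hp (q := Qm.z) (q' := Qm.z) (by
    rw [i0_z, mul_assoc, ← zcomm _ (Dl_C hp)]; exact inv_mul_cancel_left _ _)
  rwa [mul_assoc, inv_mul_eq_iff_eq_mul, eq_comm] at this

/-- The four-group. -/
def V2 (v : Qm) : Prop := v = 1 ∨ v = Qm.dec 1 ∨ v = Qm.z ∨ v = Qm.z * Qm.dec 1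

instance instDecV2 : DecidablePred V2 := fun v => by unfold V2; infer_instance

theorem cenQ1 {g : X} (hg : g ∈ CX) (h : ∀ q, q * Qm.dec 1 = Qm.dec 1 * q → g * i0 q = i0 q * g) :
    ∃ v, V2 v ∧ g = i0 v := by
  obtain ⟨v, hv, e⟩ := cen_Q1 (memK hg (i0_e ▸ h _ rfl)) (by
    simp only [List.forall_mem_cons]
    exact ⟨i0_eq (Qm.dec 4) ▸ h _ (by decide), i0_eq (Qm.dec 8) ▸ h _ (by decide),
      i0_eq (Qm.dec 16) ▸ h _ (by decide), i0_eq (Qm.dec 32) ▸ h _ (by decide), by simp⟩)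
  interval_cases v
  exacts [⟨Qm.dec 0, by decide, by rw [i0_eq]; exact e.trans (eqB_spec _ _ (by decide +kernel))⟩,
    ⟨Qm.dec 1, by decide, by rw [i0_eq]; exact e.trans (eqB_spec _ _ (by decide +kernel))⟩,
    ⟨Qm.dec 64, by decide, by rw [i0_eq]; exact e.trans (eqB_spec _ _ (by decide +kernel))⟩,
    ⟨Qm.dec 65, by decide, by rw [i0_eq]; exact e.trans (eqB_spec _ _ (by decide +kernel))⟩]

namespace St0

variable (S : St0 ι)
include S

theorem z1 : ι Qm.z ≠ 1 := fun e => absurd (S.inj (e.trans (map_one _).symm)) (by decide)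

omit S in
theorem zz : ι Qm.z * ι Qm.z = 1 := by rw [← map_mul, show Qm.z * Qm.z = 1 by decide, map_one]

omit S in
theorem zc (q : Qm) : ι Qm.z * ι q = ι q * ι Qm.z := by
  rw [← map_mul, ← map_mul, (by decide +kernel : ∀ q, Qm.z * q = q * Qm.z)]

theorem act {p : X × G} (hp : p ∈ Dl ι) {q q' : Qm} (h : p.2⁻¹ * ι q * p.2 = ι q') :
    p.1⁻¹ * i0 q * p.1 = i0 q' := by
  obtain ⟨r, e⟩ := H8.conj_mem_of_mem_normalizer' hp.1 (DQ_mem q)
  have e1 : i0 r = p.1⁻¹ * i0 q * p.1 := congrArg Prod.fst e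
  have e2 : ι r = p.2⁻¹ * ι q * p.2 := congrArg Prod.snd e
  rw [← e1, S.inj (e2.trans h)]

theorem d3 {a : X} {g g' : G} (h : (a, g) ∈ Dl ι) (h' : (a, g') ∈ Dl ι) :
    g' = g ∨ g' = ι Qm.z * g := by
  have k := mul_mem h' (inv_mem h)
  have := S.cen (g' * g⁻¹) fun q => by
    have := Dl_act k (q := q) (q' := q) (by simp)
    rwa [mul_assoc, inv_mul_eq_iff_eq_mul, eq_comm] at this
  exact this.imp mul_inv_eq_one.mp mul_inv_eq_iff_eq_mul.mp

theorem d4 {a : X} (h : (a, (1 : G)) ∈ Dl ι) : a = 1 ∨ a = evX 9 :=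
  cardC.2 a h.2 fun q => by
    have := S.act h (q := q) (q' := q) (by simp)
    rwa [mul_assoc, inv_mul_eq_iff_eq_mul, eq_comm] at this

variable [Finite G]

theorem of_th {a : NX} (ha : (a : X) ∈ CX) {k : normalizer (ι.range : Set G)}
    (e : th i0_inj a = th S.inj k) : ((a : X), (k : G)) ∈ Dl ι := by
  refine ⟨H8.mem_normalizer_of_forall ?_, ha⟩
  rintro _ ⟨q, rfl⟩
  exact ⟨th i0_inj a q, Prod.ext (th_spec _ _ _) (by rw [e]; exact th_spec _ _ _)⟩

theorem zeta : ((1 : X), ι Qm.z) ∈ Dl ι := by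
  refine ⟨H8.mem_normalizer_of_forall ?_, CX.one_mem⟩
  rintro _ ⟨q, rfl⟩
  exact ⟨q, Prod.ext (by simp) (by simp [zc])⟩

theorem zmul {a : X} {g : G} (h : (a, g) ∈ Dl ι) : (a, ι Qm.z * g) ∈ Dl ι := by
  simpa using mul_mem S.zeta h

theorem cle : centralizer ({ι Qm.z} : Set G) ≤ normalizer (ι.range : Set G) := fun g hg =>
  S.nor g (mem_centralizer_singleton_iff.mp hg)

theorem cardAH : Nat.card (((centralizer {ι Qm.z}).subgroupOf _).map (th S.inj)) = 1658880 := by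
  have := (card_th S.inj S.z1 zc _ S.cle (mem_centralizer_singleton_iff.mpr rfl)).2.mp
    fun g _ => S.cen g
  rw [S.card] at this
  omega

theorem lift {a : X} (ha : a ∈ CX) : ∃ g, (a, g) ∈ Dl ι := by
  have sq : ∀ a ∈ CX, a * a ∈ (Dl ι).map (MonoidHom.fst X G) := by
    intro a ha
    have h1 := card_mul_index (((centralizer {ι Qm.z}).subgroupOf _).map (th S.inj))
    have h2 := Qm.card_aut
    have h3 : 0 < Nat.card (MulAut Qm) := Nat.card_pos
    rw [S.cardAH] at h1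
    obtain ⟨k, -, e⟩ : th i0_inj ⟨a, CX_le ha⟩ * th i0_inj ⟨a, CX_le ha⟩ ∈
        ((centralizer {ι Qm.z}).subgroupOf _).map (th S.inj) := by
      have : (((centralizer {ι Qm.z}).subgroupOf _).map (th S.inj)).index = 1 ∨
        (((centralizer {ι Qm.z}).subgroupOf _).map (th S.inj)).index = 2 := by omega
      rcases this with h | h
      · rw [index_eq_one.mp h]; exact mem_top _
      · exact mul_self_mem_of_index_two h _
    exact ⟨_, S.of_th (a := ⟨a, CX_le ha⟩ * ⟨a, CX_le ha⟩) (mul_mem ha ha)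
      (by rw [map_mul, e]), rfl⟩
  have hq : ∀ q, i0 q ∈ (Dl ι).map (MonoidHom.fst X G) := fun q => ⟨_, Dl_q q, rfl⟩
  have cb : ∀ a ∈ CX, ∀ q, a * a * a = i0 q → a ∈ (Dl ι).map (MonoidHom.fst X G) :=
    fun a ha q e => (mul_mem_cancel_left (sq a ha)).mp (e ▸ hq q)
  have c : ∀ w n, inR 39 w = true → eqB (w ++ w ++ w) (pwW QL (Qm.dec n).val) = true →
      vX w ∈ (Dl ι).map (MonoidHom.fst X G) := fun w n h1 h2 =>
    cb _ (memCw h1) (Qm.dec n) (by
      rw [i0_eq]; simpa only [vX, evL_append] using eqB_spec _ _ h2)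
  have l : ∀ l n, eqB [l] (pwW QL (Qm.dec n).val) = true →
      evX l ∈ (Dl ι).map (MonoidHom.fst X G) := fun l n h => by
    have := eqB_spec _ _ h
    rw [vX, evL_singleton, ← i0_eq] at this
    exact this ▸ hq _
  have h11 := c [11] 0 (by decide) (by decide +kernel)
  have h13 := c [13] 0 (by decide) (by decide +kernel)
  have h15 := c [15] 0 (by decide) (by decide +kernel)
  have h10 := mul_mem h13 (c [14, 10] 0 (by decide) (by decide +kernel))
  have h17 := mul_mem h15 (c [16, 17] 64 (by decide) (by decide +kernel))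
  rw [← evL_append, show evL evX ([13] ++ [14, 10]) = evL evX [10] from
    eqB_spec _ [10] (by decide +kernel)] at h10
  rw [← evL_append, show evL evX ([15] ++ [16, 17]) = evL evX [17] from
    eqB_spec _ [17] (by decide +kernel)] at h17
  simp only [vX, evL_singleton] at h10 h11 h13 h15 h17
  obtain ⟨p, hp, rfl⟩ := (gl_le (K := (Dl ι).map (MonoidHom.fst X G)) (by
    unfold CL
    simp only [List.forall_mem_cons]
    exact ⟨l 1 1 (by decide +kernel), l 2 2 (by decide +kernel), l 3 4 (by decide +kernel),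
      l 4 8 (by decide +kernel), l 5 16 (by decide +kernel), l 7 32 (by decide +kernel),
      l 9 64 (by decide +kernel), h13, h10, h15, h11, h17, by simp⟩)) ha
  exact ⟨p.2, hp⟩

theorem onto {g : G} (hg : g * ι Qm.z = ι Qm.z * g) : ∃ a, (a, g) ∈ Dl ι := by
  have h0 := (card_th i0_inj z_ne Sz.zc _ CX_le (memC (by decide) (by decide))).2.mp cardC.2
  rw [cardC.1] at h0
  have hle : (CX.subgroupOf _).map (th i0_inj) ≤
      ((centralizer {ι Qm.z}).subgroupOf _).map (th S.inj) := by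
    rintro _ ⟨a, ha, rfl⟩
    obtain ⟨k, hk⟩ := S.lift (a := (a : X)) ha
    have hz := Dl_z hk
    refine ⟨⟨k, S.nor k hz⟩, mem_centralizer_singleton_iff.mpr hz, MulEquiv.ext fun q => S.inj ?_⟩
    rw [th_spec]
    have := Dl_act (inv_mem hk) (q := q) (q' := th i0_inj a q) (by rw [th_spec]; simp)
    simpa using this
  have he := eq_of_le_of_card_ge hle (by rw [S.cardAH]; omega)
  obtain ⟨a, ha, e⟩ : th S.inj ⟨g, S.nor g hg⟩ ∈ (CX.subgroupOf _).map (th i0_inj) :=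
    he ▸ ⟨_, mem_centralizer_singleton_iff.mpr hg, rfl⟩
  exact ⟨a, S.of_th ha e⟩

theorem toK {a : X} {g : G} (h : (a, g) ∈ Dl ι) :
    a ∈ KX ↔ g * ι (Qm.dec 1) = ι (Qm.dec 1) * g := by
  refine ⟨fun k => ?_, fun k => memK h.2 ?_⟩
  · have := Dl_act h (q := Qm.dec 1) (q' := Qm.dec 1) (by
      rw [i0_e, mul_assoc, ← ecomm a k]; exact inv_mul_cancel_left _ _)
    rwa [mul_assoc, inv_mul_eq_iff_eq_mul, eq_comm] at this
  · have := S.act h (q := Qm.dec 1) (q' := Qm.dec 1) (by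
      rw [mul_assoc, ← k]; exact inv_mul_cancel_left _ _)
    rwa [mul_assoc, inv_mul_eq_iff_eq_mul, eq_comm, i0_e] at this

theorem of_q {g : G} {q : Qm} (h : (i0 q, g) ∈ Dl ι) : g = ι q ∨ g = ι (Qm.z * q) := by
  rw [map_mul]; exact S.d3 (Dl_q q) h

theorem exists_n : ∃ n, n * ι Qm.z * n⁻¹ = ι Qm.z * ι (Qm.dec 1) ∧
    n * ι (Qm.dec 1) * n⁻¹ = ι (Qm.dec 1) := by
  have : Fact (Nat.Prime 2) := ⟨Nat.prime_two⟩
  have hQ : IsPGroup 2 ι.range := IsPGroup.of_card (n := 7) (by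
    rw [← Nat.card_congr (MonoidHom.ofInjective S.inj).toEquiv, TN.card_eq]; norm_num)
  have cm : ∀ {x y : G}, x ∈ centralizer {y} ↔ x * y = y * x := mem_centralizer_singleton_iff
  obtain ⟨T, hT, hQT⟩ := H8.exists_isSyl_ge (hQ.to_inf_left (K := centralizer {ι (Qm.dec 1)}))
    (H := centralizer {ι Qm.z} ⊓ centralizer {ι (Qm.dec 1)})
    (inf_le_inf_right _ (by rintro _ ⟨q, rfl⟩; exact cm.mpr (zc q).symm))
  obtain ⟨T', hT', hTT⟩ := H8.exists_isSyl_ge hT.isPGroup (hT.le.trans inf_le_right)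
  have zT : ι Qm.z ∈ T := hQT ⟨⟨_, rfl⟩, cm.mpr (zc _)⟩
  have ne : ι Qm.z ≠ ι (Qm.dec 1) := fun e => absurd (S.inj e) (by decide)
  have hne : T ≠ T' := by
    rintro rfl
    obtain ⟨g, hg⟩ := isConj_iff.mp S.fus
    have h1 := hT'.cj g⁻¹
    have h2 : L0.cj g⁻¹ (centralizer {ι (Qm.dec 1)}) = centralizer {ι Qm.z} := by
      ext x
      rw [L0.mem_cj, cm, cm, ← hg, inv_inv]
      constructor
      · intro h
        calc x * ι Qm.z = g⁻¹ * (g * x * g⁻¹ * (g * ι Qm.z * g⁻¹)) * g := by group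
          _ = _ := by rw [h]; group
      · intro h
        rw [conj_mul, conj_mul, h]
    rw [h2] at h1
    have h3 := h1.le_of_normalizes hQ (by rintro _ ⟨q, rfl⟩; exact cm.mpr (zc q).symm)
      (h1.le.trans S.cle)
    rcases S.cen (g⁻¹ * ι Qm.z * g) fun q => (by
      have := cm.mp (hT.le (L0.mem_cj.mp (h3 ⟨q, rfl⟩))).1
      rw [inv_inv] at this
      calc _ = g⁻¹ * (ι Qm.z * (g * ι q * g⁻¹)) * g := by group
        _ = _ := by rw [← this]; group) with h | h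
    · exact S.z1 (by rw [← conj_eq_one_iff (a := g⁻¹), inv_inv, h])
    · apply ne
      rw [← hg]
      conv_rhs => rw [← h]
      group
  obtain ⟨n, hn, hn1, hn2⟩ := H8.exists_mem_normalizer_not_mem hT'.isPGroup hTT hne
  have n1 : n * ι (Qm.dec 1) * n⁻¹ = ι (Qm.dec 1) := mul_inv_eq_iff_eq_mul.mpr (cm.mp (hT'.le hn))
  refine ⟨n, ?_, n1⟩
  have hy := H8.conj_mem_of_mem_normalizer hn1 zT
  obtain ⟨c, hc⟩ := S.onto (cm.mp (hT.le hy).1)
  obtain ⟨v, hv, rfl⟩ := cenQ1 hc.2 fun q hq => by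
    have h1 := H8.conj_mem_of_mem_normalizer' hn1 (hQT (x := ι q) ⟨⟨_, rfl⟩, cm.mpr (by
      rw [← map_mul, hq, map_mul])⟩)
    have h2 := cm.mp (hT.le h1).1
    have := S.act hc (q := q) (q' := q) (by
      calc _ = n * ((ι Qm.z)⁻¹ * (n⁻¹ * ι q * n * ι Qm.z)) * n⁻¹ := by simp only; group
        _ = _ := by rw [h2]; group)
    rwa [mul_assoc, inv_mul_eq_iff_eq_mul, eq_comm] at this
  obtain ⟨v, hv, e⟩ : ∃ v, V2 v ∧ n * ι Qm.z * n⁻¹ = ι v := (S.of_q hc).elim (fun e => ⟨v, hv, e⟩)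
    fun e => ⟨_, (by decide +kernel : ∀ v, V2 v → V2 (Qm.z * v)) v hv, e⟩
  rcases hv with rfl | rfl | rfl | rfl
  · exact absurd (by simpa using e) S.z1
  · exact absurd (conj_injective (e.trans n1.symm)) ne
  · exact absurd (hT.mem_of_mem_normalizer ⟨cm.mpr (mul_inv_eq_iff_eq_mul.mp e), hT'.le hn⟩
      (H8.isPGroup_iff_forall.mp hT'.isPGroup n hn) hn1) hn2
  · rw [e, map_mul]

end St0

end Cfsg.H5.Sz
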