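import Cfsg.Agent.H5.Suz.S1

/-!
The extension of the extraspecial group is the one of the model.
-/

set_option autoImplicit false
set_option maxRecDepth 100000
set_option linter.unusedVariables false
set_option linter.unusedSectionVars false

namespace Cfsg.H5.Sz

open Cfsg.H6 Subgroup

variable {G : Type*} [Group G] {ι : Qm →* G}

/-- The centraliser of the four-group. -/
def KG (ι : Qm →* G) : Subgroup G := centralizer {ι Qm.z} ⊓ centralizer {ι (Qm.dec 1)}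

/-- Its largest normal 2-subgroup. -/
noncomputable def RG (ι : Qm →* G) : Subgroup G :=
  (Dl ι ⊓ (gl evX RL).comap (MonoidHom.fst X G)).map (MonoidHom.snd X G)

theorem mem_RG {g : G} : g ∈ RG ι ↔ ∃ c ∈ gl evX RL, (c, g) ∈ Dl ι :=
  ⟨by rintro ⟨p, hp, rfl⟩; exact ⟨p.1, hp.2, hp.1⟩, fun ⟨c, h1, h2⟩ => ⟨(c, g), ⟨h2, h1⟩, rfl⟩⟩

theorem mem_KG {g : G} : g ∈ KG ι ↔ g * ι Qm.z = ι Qm.z * g ∧
    g * ι (Qm.dec 1) = ι (Qm.dec 1) * g :=
  and_congr mem_centralizer_singleton_iff mem_centralizer_singleton_iff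

/-- The square of a lift is the expected one. -/
def Sg (ι : Qm →* G) (c : X) : Prop := ∃ g, (c, g) ∈ Dl ι ∧ (c, g) * (c, g) ∈ DQ ι

def sgC : List (List ℕ × List ℕ × ℕ) := [([10], [16, 17, 15, 13, 11], 112), ([17], [14, 11, 10], 105), ([10, 11], [15, 17, 11, 15, 13, 11], 74), ([10, 15], [17, 15, 13, 11], 95), ([10, 17], [13, 11], 109), ([12, 13], [10, 13, 15, 17, 11, 15, 13, 11], 0), ([12, 15], [17, 15, 13, 10], 17), ([12, 17], [13, 10], 103), ([14, 15], [17, 15, 11, 10], 17), ([14, 17], [11, 10], 46), ([26], [17, 15], 65), ([26, 22], [13, 15], 65), ([26, 23], [15], 0), ([24, 26], [16], 1), ([24, 26, 22], [17, 13, 15], 0), ([24, 26, 23], [17, 16], 65)]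

theorem chkU : allPw RL (fun w => orB (anyL (fun g => neN (Nat.land (trF imgQ w g) 63) g) [4, 8, 16, 32])
    (TN.anyB (fun v => andB (inR 39 w) (eq0 w (pwW QL v))) 128)) [] = true := by decide +kernel

namespace St0

variable (S : St0 ι) [Finite G]
include S

theorem inK {a : X} {g : G} (h : (a, g) ∈ Dl ι) (ha : a ∈ KX) : g ∈ KG ι :=
  mem_KG.mpr ⟨Dl_z h, (S.toK h).mp ha⟩

theorem ofK {g : G} (h : g ∈ KG ι) : ∃ a ∈ KX, (a, g) ∈ Dl ι := by
  obtain ⟨a, ha⟩ := S.onto (mem_KG.mp h).1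
  exact ⟨a, (S.toK ha).mpr (mem_KG.mp h).2, ha⟩

theorem RG_le : RG ι ≤ KG ι := fun g hg => by
  obtain ⟨c, h1, h2⟩ := mem_RG.mp hg
  exact S.inK h2 (R_le h1)

theorem RG_two : IsPGroup 2 (RG ι) := H8.isPGroup_iff_forall.mpr fun g hg => by
  obtain ⟨c, h1, h2⟩ := mem_RG.mp hg
  have := pow_mem h2 (2 ^ RL.length)
  rw [Prod.pow_mk, pcR.pow c h1] at this
  refine ⟨RL.length + 1, ?_⟩
  rw [pow_succ, pow_mul, pow_two]
  rcases S.d3 (g := 1) (one_mem (Dl ι)) this with e | e <;> rw [e]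
  · simp
  · rw [mul_one]; exact zz

theorem KG_norm : KG ι ≤ normalizer (RG ι : Set G) := fun k hk => by
  obtain ⟨a, ha, h⟩ := S.ofK hk
  refine H8.mem_normalizer_of_forall fun g hg => ?_
  obtain ⟨c, h1, h2⟩ := mem_RG.mp hg
  exact mem_RG.mpr ⟨_, H8.conj_mem_of_mem_normalizer (norm_R ha) h1,
    mul_mem (mul_mem h h2) (inv_mem h)⟩

theorem o2 {P : Subgroup G} (hP : IsPGroup 2 P) (hle : P ≤ KG ι)
    (hn : KG ι ≤ normalizer (P : Set G)) : P ≤ RG ι := by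
  have h2 : IsPGroup 2 (RG ι ⊔ P : Subgroup G) :=
    S.RG_two.to_sup_of_normal_left' hP (hle.trans S.KG_norm)
  have hn' : KG ι ≤ normalizer ((RG ι ⊔ P : Subgroup G) : Set G) :=
    (le_inf S.KG_norm hn).trans (normalizer_inf_normalizer_le_normalizer_sup _ _)
  intro r hr
  obtain ⟨c', hc', h⟩ := S.ofK (hle hr)
  obtain ⟨i, hi, c, hc, rfl⟩ := cosK c' hc'
  by_cases i0 : i = 0
  · subst i0
    exact mem_RG.mpr ⟨_, by simpa [nthW_eq, aW, vX, evL_nil] using hc, h⟩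
  exfalso
  obtain ⟨γ, hγ⟩ := S.lift (KX_le (R_le hc))
  obtain ⟨b, hb, e1, e2⟩ := odd_a i0 hi
  obtain ⟨β, hβ⟩ := S.lift (KX_le hb)
  have ha : (vX (nthW aW i), γ⁻¹ * r) ∈ Dl ι := by simpa using mul_mem (inv_mem hγ) h
  have hα : γ⁻¹ * r ∈ RG ι ⊔ P :=
    mul_mem (inv_mem (mem_sup_left (mem_RG.mpr ⟨c, hc, hγ⟩))) (mem_sup_right hr)
  obtain ⟨k, hk⟩ := H8.isPGroup_iff_forall.mp h2 _
    (mul_mem hα (H8.conj_mem_of_mem_normalizer (hn' (S.inK hβ hb)) hα))
  have := pow_mem (mul_mem ha (mul_mem (mul_mem hβ ha) (inv_mem hβ))) (2 ^ k)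
  simp only [Prod.mk_mul_mk, Prod.inv_mk, Prod.pow_mk] at this
  rw [hk] at this
  refine e2 (H8.eq_one_of_pow_coprime (m := 2 ^ (k + 1)) (Nat.Coprime.pow_left _ (by norm_num)) ?_ e1)
  rw [pow_succ, pow_mul, pow_two]
  rcases S.d4 this with e | e <;> rw [e]
  · simp
  · exact weq [9, 9], []

theorem n_norm {n : G} (h1 : n * ι Qm.z * n⁻¹ = ι Qm.z * ι (Qm.dec 1))
    (h2 : n * ι (Qm.dec 1) * n⁻¹ = ι (Qm.dec 1)) : n ∈ normalizer (RG ι : Set G) := by
  have hK : n ∈ normalizer (KG ι : Set G) := H8.mem_normalizer_of_forall fun k hk => by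
    obtain ⟨k1, k2⟩ := mem_KG.mp hk
    have e2 : n * k * n⁻¹ * ι (Qm.dec 1) = ι (Qm.dec 1) * (n * k * n⁻¹) := by
      rw [← h2, conj_mul, conj_mul, k2]
    have e1 : n * k * n⁻¹ * (ι Qm.z * ι (Qm.dec 1)) = ι Qm.z * ι (Qm.dec 1) * (n * k * n⁻¹) := by
      rw [← h1, conj_mul, conj_mul, k1]
    refine mem_KG.mpr ⟨?_, e2⟩
    rw [mul_assoc (ι Qm.z), ← e2, ← mul_assoc, ← mul_assoc] at e1
    exact mul_right_cancel e1
  refine L0.mem_normalizer_of_cj_le (S.o2 (H8.isPGroup_cj S.RG_two n) ?_ fun k hk => ?_)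
  · exact H8.cj_le_iff_forall.mpr fun x hx => H8.conj_mem_of_mem_normalizer hK (S.RG_le hx)
  · refine H8.mem_normalizer_of_forall fun x hx => L0.mem_cj.mpr ?_
    have := H8.conj_mem_of_mem_normalizer (S.KG_norm (H8.conj_mem_of_mem_normalizer' hK hk))
      (L0.mem_cj.mp hx)
    rwa [show n⁻¹ * k * n * (n⁻¹ * x * n) * (n⁻¹ * k * n)⁻¹ = n⁻¹ * (k * x * k⁻¹) * n by group] at this

theorem unique {r : G} (hr : r ∈ RG ι)
    (h : ∀ s ∈ RG ι, s * r * s⁻¹ = r ∨ s * r * s⁻¹ = r * ι Qm.z) : ∃ v, V2 v ∧ r = ι v := by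
  obtain ⟨c, h1, h2⟩ := mem_RG.mp hr
  obtain ⟨n, -, rfl⟩ := pcR.enum c h1
  have k := allPw_spec chkU n
  rw [List.append_nil] at k
  have w39 : inR 39 (pwW RL n) = true := inR_pw (by decide) n
  generalize pwW RL n = w at *
  have hw := inR_mono (n := 45) (by decide) w39
  change (vX w, r) ∈ _ at h2
  have hq : ∃ q, r = ι q := by
    rcases orB_iff.mp k with k | k
    · exfalso
      obtain ⟨g, hg, k⟩ := anyL_spec k
      have hg' := (by decide +kernel : ∀ g ∈ [4, 8, 16, 32], g < 64 ∧ eqB (pwW QL (Qm.dec g).val)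
        (pwW RL (8 * g)) = true ∧ (Qm.z * Qm.dec g).val = g + 64) g hg
      have m : ι (Qm.dec g) ∈ RG ι := mem_RG.mpr ⟨_, by
        rw [i0_eq, eqB_spec _ _ hg'.2.1]; exact gl_pw _ _ _, Dl_q _⟩
      have e := Dl_ap w39 h2 (Qm.dec g)
      have e' : apQ w (Qm.dec g) = Qm.dec g ∨ apQ w (Qm.dec g) = Qm.z * Qm.dec g := by
        refine (h _ m).imp (fun e1 => S.inj ?_) (fun e1 => S.inj ?_)
        · rw [← e, mul_assoc, inv_mul_eq_iff_eq_mul, ← mul_inv_eq_iff_eq_mul, e1]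
        · rw [← e, mul_assoc, inv_mul_eq_iff_eq_mul, map_mul, ← mul_assoc, ← mul_inv_eq_iff_eq_mul, e1]
      apply neN_spec k
      have e3 : (apQ w (Qm.dec g)).val = trF imgQ w g % 128 := by
        unfold apQ; rw [Qm.val_dec (n := g) (by omega)]; rfl
      rw [show Nat.land (trF imgQ w g) 63 = trF imgQ w g % 2 ^ 6 from Nat.and_two_pow_sub_one_eq_mod _ 6]
      rcases e' with e' | e'
      · rw [e', Qm.val_dec (by omega)] at e3; omega
      · rw [e', hg'.2.2] at e3; omega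
    · obtain ⟨v, hv, k⟩ := TN.anyB_iff.mp k
      rw [andB_eq_true] at k
      have := eq0_spec hw (inR_pw (by decide) v) k.2
      rw [this, ← Qm.val_dec hv, ← i0_eq] at h2
      exact (S.of_q h2).elim (fun e => ⟨_, e⟩) (fun e => ⟨_, e⟩)
  obtain ⟨q, rfl⟩ := hq
  refine ⟨q, (by decide +kernel : ∀ q : Qm, q * Qm.dec 1 = Qm.dec 1 * q →
    (∀ l ∈ [22, 23, 24, 26], apQ [l] q = q ∨ apQ [l] q = q * Qm.z) → V2 q) q
    (S.inj (by rw [map_mul, map_mul]; exact (mem_KG.mp (S.RG_le hr)).2)) fun l hl => ?_, rfl⟩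
  have hl' := (by decide : ∀ l ∈ [22, 23, 24, 26], l ∈ RL ∧ inR 39 [l] = true) l hl
  obtain ⟨s, hs⟩ := S.lift (memCw hl'.2)
  have e := Dl_ap hl'.2 hs q
  have := h s⁻¹ (inv_mem (mem_RG.mpr ⟨_, by rw [vX, evL_singleton]; exact gl_mem _ hl'.1, hs⟩))
  rw [inv_inv, e, ← map_mul] at this
  exact this.imp (fun e => S.inj e) (fun e => S.inj e)

theorem sg_all {c : X} (h : Sg ι c) {g : G} (hg : (c, g) ∈ Dl ι) : (c, g) * (c, g) ∈ DQ ι := by
  obtain ⟨g', h1, h2⟩ := h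
  rcases S.d3 h1 hg with rfl | rfl
  · exact h2
  · have := Dl_z h1
    simp only [Prod.mk_mul_mk] at h2 this ⊢
    rwa [mul_assoc, ← mul_assoc g', this, ← mul_assoc, ← mul_assoc, zz, one_mul]

theorem sg_move {c d a : X} {q : Qm} (ha : a ∈ CX) (e : c * a = a * (i0 q * d)) (h : Sg ι d) :
    Sg ι c := by
  obtain ⟨g, h1, h2⟩ := h
  obtain ⟨α, hα⟩ := S.lift ha
  have e' : c = a * (i0 q * d) * a⁻¹ := by rw [← e, mul_inv_cancel_right]
  refine ⟨α * (ι q * g) * α⁻¹, e' ▸ mul_mem (mul_mem hα (mul_mem (Dl_q q) h1)) (inv_mem hα), ?_⟩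
  have := H8.conj_mem_of_mem_normalizer hα.1 (mul_mem (mul_mem (DQ_mem q)
    (H8.conj_mem_of_mem_normalizer h1.1 (DQ_mem q))) h2)
  rw [e']
  convert this using 1
  exact Prod.ext (by simp only [Prod.mk_mul_mk, Prod.inv_mk]; group)
    (by simp only [Prod.mk_mul_mk, Prod.inv_mk]; group)

theorem sg_iff {e : List ℕ × List ℕ × ℕ} (he : e ∈ sgC) : Sg ι (vX e.1) ↔ Sg ι (evX 24) := by
  have := (by decide +kernel : ∀ e ∈ sgC, inR 39 e.2.1 = true ∧ eqB (e.1 ++ e.2.1)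
    (e.2.1 ++ (pwW QL (Qm.dec e.2.2).val ++ [24])) = true) e he
  have k := eqB_spec _ _ this.2
  simp only [vX, evL_append, evL_singleton] at k
  rw [← show i0 (Qm.dec e.2.2) = evL evX _ from i0_eq _] at k
  refine ⟨fun h => ?_, S.sg_move (memCw this.1) k⟩
  obtain ⟨q, hq⟩ := H8.conj_mem_of_mem_normalizer (CX_le (memCw this.1))
    (x := i0 (Qm.dec e.2.2)⁻¹) ⟨_, rfl⟩
  refine S.sg_move (q := q) (inv_mem (memCw this.1)) ?_ h
  simp only [vX] at hq ⊢
  rw [hq, map_inv, eq_mul_inv_of_mul_eq k]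
  group

theorem not_sg {c : X} {g : G} {q : Qm} (h : ¬ Sg ι c) (hg : (c, g) ∈ Dl ι) (e : c * c = i0 q) :
    g * g = ι Qm.z * ι q := by
  have := mul_mem hg hg
  rw [Prod.mk_mul_mk, e] at this
  refine (S.d3 (Dl_q q) this).resolve_left fun k => h ⟨g, hg, ?_⟩
  rw [Prod.mk_mul_mk, e, k]
  exact DQ_mem q

theorem sg24 : Sg ι (evX 24) := by
  by_contra hs
  obtain ⟨n, n1, n2⟩ := S.exists_n
  have hn := S.n_norm n1 n2
  obtain ⟨ξ, hξ⟩ := S.lift (memC (l := 24) (by decide) (by decide))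
  have ξR : ξ ∈ RG ι := mem_RG.mpr ⟨_, gl_mem _ (by decide), hξ⟩
  set w := ι Qm.z * ι (Qm.dec 1) with hw
  have ww : w * w = 1 := by
    rw [hw, ← map_mul, ← map_mul, show Qm.z * Qm.dec 1 * (Qm.z * Qm.dec 1) = 1 by decide, map_one]
  have wK : ∀ s ∈ KG ι, s * w = w * s := fun s hs => by
    rw [hw, ← mul_assoc, (mem_KG.mp hs).1, mul_assoc, (mem_KG.mp hs).2, mul_assoc]
  let Y : Subgroup G :=
    { carrier := {s | s ∈ KG ι ∧ (s * ξ * s⁻¹ = ξ ∨ s * ξ * s⁻¹ = ξ * w)}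
      one_mem' := ⟨one_mem _, Or.inl (by simp)⟩
      mul_mem' := by
        rintro a b ⟨ha, ha'⟩ ⟨hb, hb'⟩
        refine ⟨mul_mem ha hb, ?_⟩
        have e : a * b * ξ * (a * b)⁻¹ = a * (b * ξ * b⁻¹) * a⁻¹ := by group
        have e' : a * (ξ * w) * a⁻¹ = a * ξ * a⁻¹ * w := by
          rw [mul_assoc, mul_assoc, ← wK _ (inv_mem ha)]; group
        rw [e]
        rcases hb' with h | h <;> rw [h]
        · exact ha'
        · rw [e']
          rcases ha' with h | h <;> rw [h]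
          · exact Or.inr rfl
          · exact Or.inl (by rw [mul_assoc, ww, mul_one])
      inv_mem' := by
        rintro a ⟨ha, ha'⟩
        refine ⟨inv_mem ha, ha'.imp (fun h => ?_) (fun h => ?_)⟩
        · conv_lhs => rw [← h]
          group
        · have : ξ = a * ξ * a⁻¹ * w := by rw [h, mul_assoc, ww, mul_one]
          conv_lhs => rw [this, mul_assoc (a * ξ), wK _ (inv_mem ha)]
          group }
  have ξK := S.RG_le ξR
  have yq : ∀ q, q * Qm.dec 1 = Qm.dec 1 * q → ι q ∈ Y := fun q hq => by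
    refine ⟨mem_KG.mpr ⟨(zc q).symm, by rw [← map_mul, hq, map_mul]⟩, ?_⟩
    have e := Dl_ap (w := [24]) (by decide) (by rwa [vX, evL_singleton]) q
    have e' : ι q * ξ * (ι q)⁻¹ = ξ * ι (apQ [24] q * q⁻¹) := by rw [map_mul, map_inv, ← e]; group
    rw [e', hw, ← map_mul]
    rcases (by decide +kernel : ∀ q : Qm, q * Qm.dec 1 = Qm.dec 1 * q → apQ [24] q * q⁻¹ = 1 ∨
      apQ [24] q * q⁻¹ = Qm.z * Qm.dec 1) q hq with k | k <;> rw [k]
    · exact Or.inl (by simp)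
    · exact Or.inr rfl
  have yx : ∀ e ∈ sgC, ∀ e' ∈ sgC, e'.1 = 24 :: e.1 → sub e.1 RL = true →
      eqB (e.1 ++ e.1) [1] = true → eqB (e'.1 ++ e'.1) [1] = true →
      vX e.1 ∈ (Dl ι ⊓ Y.comap (MonoidHom.snd X G)).map (MonoidHom.fst X G) := by
    intro e he e' he' h1 h2 h3 h4
    have hR : vX e.1 ∈ gl evX RL := mem_of_sub (fun l hl => gl_mem _ hl) h2
    obtain ⟨s, hs'⟩ := S.lift (KX_le (R_le hR))
    refine ⟨_, ⟨hs', S.inK hs' (R_le hR), Or.inr ?_⟩, rfl⟩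
    have k3 := eqB_spec _ _ h3
    have k4 := eqB_spec _ _ h4
    simp only [vX, evL_append, evL_singleton, ← i0_e] at k3 k4
    have a1 := S.not_sg hs hξ (q := Qm.dec 1) (by rw [i0_e]; exact weq [24, 24], [1])
    have a2 := S.not_sg (mt (S.sg_iff he).mp hs) hs' k3
    have a3 := S.not_sg (mt (S.sg_iff he').mp hs) (g := ξ * s) (by
      rw [h1, vX, evL_cons]; exact mul_mem hξ hs') k4
    rw [← hw] at a1 a2 a3
    show s * ξ * s⁻¹ = ξ * w
    calc s * ξ * s⁻¹ = ξ * (ξ * ξ)⁻¹ * (ξ * s * (ξ * s)) * (s * s)⁻¹ := by group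
      _ = ξ * w := by rw [a1, a2, a3, inv_mul_cancel_right, inv_eq_of_mul_eq_one_right ww]
  have RY : RG ι ≤ Y := fun s hs' => by
    obtain ⟨c, h1, h2⟩ := mem_RG.mp hs'
    have q : ∀ l n, eqB [l] (pwW QL (Qm.dec n).val) = true →
        Qm.dec n * Qm.dec 1 = Qm.dec 1 * Qm.dec n →
        evX l ∈ (Dl ι ⊓ Y.comap (MonoidHom.snd X G)).map (MonoidHom.fst X G) := fun l n h h' => by
      have := eqB_spec _ _ h
      rw [vX, evL_singleton, ← i0_eq] at this
      exact ⟨_, ⟨Dl_q _, yq _ h'⟩, this.symm⟩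
    have x1 := yx _ (List.getElem_mem (l := sgC) (n := 10) (by decide)) _
      (List.getElem_mem (l := sgC) (n := 13) (by decide)) rfl rfl (by decide +kernel) (by decide +kernel)
    have x2 := yx _ (List.getElem_mem (l := sgC) (n := 11) (by decide)) _
      (List.getElem_mem (l := sgC) (n := 14) (by decide)) rfl rfl (by decide +kernel) (by decide +kernel)
    have x3 := yx _ (List.getElem_mem (l := sgC) (n := 12) (by decide)) _
      (List.getElem_mem (l := sgC) (n := 15) (by decide)) rfl rfl (by decide +kernel) (by decide +kernel)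
    change evL evX [26] ∈ _ at x1
    change evL evX [26, 22] ∈ _ at x2
    change evL evX [26, 23] ∈ _ at x3
    simp only [evL_cons, evL_nil, mul_one] at x1 x2 x3
    obtain ⟨p, hp, rfl⟩ := (gl_le (K := (Dl ι ⊓ Y.comap (MonoidHom.snd X G)).map (MonoidHom.fst X G))
      (by
        unfold RL
        simp only [List.forall_mem_cons]
        exact ⟨(mul_mem_cancel_left x1).mp x3, ⟨_, ⟨hξ, ξK, Or.inl (by simp)⟩, rfl⟩, x1,
          (mul_mem_cancel_left x1).mp x2, q 1 1 (by decide +kernel) (by decide),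
          q 3 4 (by decide +kernel) (by decide), q 4 8 (by decide +kernel) (by decide),
          q 5 16 (by decide +kernel) (by decide), q 7 32 (by decide +kernel) (by decide),
          q 9 64 (by decide +kernel) (by decide), by simp⟩)) h1
    rcases S.d3 hp.1 h2 with rfl | rfl
    · exact hp.2
    · exact mul_mem (yq _ (by decide)) hp.2
  obtain ⟨v, hv, e⟩ := S.unique (H8.conj_mem_of_mem_normalizer' hn ξR) fun s hs' => by
    refine (RY (H8.conj_mem_of_mem_normalizer hn hs')).2.imp (fun h => ?_) (fun h => ?_)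
    · calc _ = n⁻¹ * (n * s * n⁻¹ * ξ * (n * s * n⁻¹)⁻¹) * n := by group
        _ = _ := by rw [h]
    · calc _ = n⁻¹ * (n * s * n⁻¹ * ξ * (n * s * n⁻¹)⁻¹) * n := by group
        _ = _ := by rw [h, ← n1]; group
  have vv : ι v * ι v = 1 := by
    rw [← map_mul, (by decide +kernel : ∀ v, V2 v → v * v = 1) v hv, map_one]
  have a1 := S.not_sg hs hξ (q := Qm.dec 1) (by rw [i0_e]; exact weq [24, 24], [1])
  rw [← e, show n⁻¹ * ξ * n * (n⁻¹ * ξ * n) = n⁻¹ * (ξ * ξ) * n⁻¹⁻¹ by group, conj_eq_one_iff, a1,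
    ← map_mul] at vv
  exact absurd (S.inj (vv.trans (map_one _).symm)) (by decide)

end St0

end Cfsg.H5.Sz
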