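import Cfsg.Agent.H5.Suz.S2

/-!
The identification of the centraliser with the one of the model.
-/

set_option autoImplicit false
set_option maxRecDepth 100000
set_option linter.unusedVariables false
set_option linter.unusedSectionVars false

namespace Cfsg.H5.Sz

open Cfsg.H6 Subgroup

variable {G : Type*} [Group G] {ι : Qm →* G}

/-- Letters in the model paired with letters in the group. -/
noncomputable def pr (e : ℕ → G) (l : ℕ) : X × G := (evX l, e l)

theorem pr_evL (e : ℕ → G) (w : List ℕ) : evL (pr e) w = (vX w, evL e w) :=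
  Prod.ext (fst_evL _ _) (snd_evL _ _)

/-- The graph of the identification of the centralisers. -/
noncomputable def GC (e : ℕ → G) : Subgroup (X × G) := gl (pr e) CL

/-- The letters give an isomorphism of the centralisers. -/
structure Ch (e : ℕ → G) : Prop where
  zero : e 0 = 1
  fn : Fn (GC e)
  mem : ∀ l, 1 ≤ l → l < 39 → pr e l ∈ GC e
  inj : ∀ a, (a, (1 : G)) ∈ GC e → a = 1
  sur : ∀ g, g * e 9 = e 9 * g → ∃ a, (a, g) ∈ GC e
  nn : ∃ n, n * e 9 * n⁻¹ = e 9 * e 1 ∧ n * e 1 * n⁻¹ = e 1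
  card : Nat.card (centralizer ({e 9} : Set G)) = 3317760

theorem GC_fst (e : ℕ → G) : (GC e).map (MonoidHom.fst X G) = CX := map_gl _ _ _

theorem Ch.congr {e e' : ℕ → G} (h : Ch e) (k : ∀ l < 39, e' l = e l) : Ch e' := by
  have p : ∀ l < 39, pr e' l = pr e l := fun l hl => by unfold pr; rw [k l hl]
  have g : GC e' = GC e := by
    have c := (by decide : ∀ l ∈ CL, l < 39)
    exact le_antisymm (gl_le fun l hl => by rw [p l (c l hl)]; exact gl_mem _ hl)
      (gl_le fun l hl => by rw [← p l (c l hl)]; exact gl_mem _ hl)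
  refine ⟨by rw [k 0 (by decide), h.zero], g ▸ h.fn, fun l h1 h2 => by
    rw [g, p l h2]; exact h.mem l h1 h2, g ▸ h.inj, ?_, ?_, ?_⟩
  · rw [g, k 9 (by decide)]; exact h.sur
  · rw [k 9 (by decide), k 1 (by decide)]; exact h.nn
  · rw [k 9 (by decide)]; exact h.card

/-- The shapes of the relators. -/
def shape (r : List ℕ) : Bool :=
  inR 10 r || (inR 10 (r.drop 3) && inR 10 [r.getD 1 0] &&
    r.take 3 == [invL invB (r.getD 2 0), r.getD 1 0, r.getD 2 0]) ||
    RW0.any fun w => r.take w.length == w && inR 10 (r.drop w.length)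

namespace St0

variable (S : St0 ι) [Finite G]
include S

theorem cube {c : X} (hc : c ∈ CX) {q : Qm} (e : c * c * c = i0 q) :
    ∃ g, (c, g) ∈ Dl ι ∧ (c, g) * ((c, g) * (c, g)) ∈ DQ ι := by
  obtain ⟨g, hg⟩ := S.lift hc
  have := mul_mem (mul_mem hg hg) hg
  simp only [Prod.mk_mul_mk, e] at this
  simp only [Prod.mk_mul_mk, ← mul_assoc, e]
  rcases S.d3 (Dl_q q) this with k | k
  · exact ⟨g, hg, k ▸ DQ_mem q⟩
  · refine ⟨_, S.zmul hg, ?_⟩
    have h := Dl_z hg
    simp only at h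
    rw [show ι Qm.z * g * (ι Qm.z * g) * (ι Qm.z * g) = ι q by
      have h' : ∀ a, g * (ι Qm.z * a) = ι Qm.z * (g * a) := fun a => by
        rw [← mul_assoc, h, mul_assoc]
      have zz' : ∀ a, ι Qm.z * (ι Qm.z * a) = a := fun a => by rw [← mul_assoc, zz, one_mul]
      simp only [mul_assoc] at k
      simp only [mul_assoc, h', k, zz']]
    exact DQ_mem q

theorem exists_ch : ∃ e : ℕ → G, Ch e ∧ ∀ q, ι q = evL e (pwW QL q.val) := by
  have c : ∀ w n, inR 39 w = true → eqB (w ++ w ++ w) (pwW QL (Qm.dec n).val) = true →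
      ∃ g, (vX w, g) ∈ Dl ι ∧ (vX w, g) * ((vX w, g) * (vX w, g)) ∈ DQ ι := fun w n h1 h2 =>
    S.cube (memCw h1) (q := Qm.dec n) (by
      rw [i0_eq]; simpa only [vX, evL_append] using eqB_spec _ _ h2)
  obtain ⟨t2, a2, b2⟩ := c [11] 0 (by decide) (by decide +kernel)
  obtain ⟨t3, a3, b3⟩ := c [13] 0 (by decide) (by decide +kernel)
  obtain ⟨t5, a5, b5⟩ := c [15] 0 (by decide) (by decide +kernel)
  obtain ⟨s1, a1, b1⟩ := c [14, 10] 0 (by decide) (by decide +kernel)
  obtain ⟨s6, a6, b6⟩ := c [16, 17] 64 (by decide) (by decide +kernel)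
  simp only [vX, evL_cons, evL_nil, mul_one] at a1 a2 a3 a5 a6 b1 b2 b3 b5 b6
  have i11 : evX 12 = (evX 11)⁻¹ := goodX.inv 11
  have i13 : evX 14 = (evX 13)⁻¹ := goodX.inv 13
  have i15 : evX 16 = (evX 15)⁻¹ := goodX.inv 15
  have a10 : (evX 10, t3 * s1) ∈ Dl ι := by simpa [i13] using mul_mem a3 a1
  have a17 : (evX 17, t5 * s6) ∈ Dl ι := by simpa [i15] using mul_mem a5 a6
  have sq : ∀ i (hi : i < sgC.length), ∀ g, (vX (sgC[i]).1, g) ∈ Dl ι →
      (vX (sgC[i]).1, g) * (vX (sgC[i]).1, g) ∈ DQ ι := fun i hi g hg =>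
    S.sg_all ((S.sg_iff (List.getElem_mem hi)).mpr S.sg24) hg
  have inv2 : ∀ i (hi : i < sgC.length) l g, (sgC[i]).1 = [l] → evX l * evX l = 1 →
      (evX l, g) ∈ Dl ι → g⁻¹ = g := fun i hi l g h1 h2 h3 => by
    have := sq i hi g (by rwa [h1, vX, evL_singleton])
    rw [h1, vX, evL_singleton, Prod.mk_mul_mk, h2] at this
    exact inv_eq_of_mul_eq_one_right (DQ_fn _ this)
  have j10 := inv2 0 (by decide) 10 _ rfl (weq [10, 10], []) a10
  have j17 := inv2 1 (by decide) 17 _ rfl (weq [17, 17], []) a17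
  let L : List G := (List.range 10).map (fun l => ι (Qm.ev l)) ++
    [t3 * s1, t2, t2⁻¹, t3, t3⁻¹, t5, t5⁻¹, t5 * s6]
  let b : ℕ → G := fun l => L.getD l 1
  have bq : ∀ l < 10, b l = ι (Qm.ev l) := fun l hl => by interval_cases l <;> rfl
  have gq := PQ.good Qm.rel
  have gb : Good b invB := by
    refine good_list (n := 18) rfl (by decide) (map_one ι) fun l hl => ?_
    by_cases h : l < 10
    · have := (by decide : ∀ l < 10, invL invB l = invL 42631003429084260860160 l ∧
        invL invB l < 10) l h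
      show b _ = (b _)⁻¹
      rw [bq _ this.2, bq l h, this.1, ← map_inv]
      exact congrArg ι (gq.inv l)
    · have h' : 10 ≤ l := by omega
      interval_cases l
      exacts [j10.symm, rfl, (inv_inv _).symm, rfl, (inv_inv _).symm, rfl, (inv_inv _).symm, j17.symm]
  let p : ℕ → X × G := fun l => (evC l, b l)
  have gp : Good p invB := ⟨Prod.ext goodC.zero gb.zero, fun l => Prod.ext (goodC.inv l) (gb.inv l)⟩
  have pq : ∀ l, 1 ≤ l → l < 10 → p l ∈ DQ ι := fun l h1 h2 => by
    refine ⟨Qm.ev l, Prod.ext ?_ (bq l h2).symm⟩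
    show i0 (Qm.ev l) = evC l
    rw [i0_eq, evC, cut, if_pos (by omega), ← evL_singleton evX l]
    exact eqB_spec _ _ ((by decide +kernel : ∀ l < 10, 1 ≤ l →
      eqB (pwW QL (Qm.ev l).val) [l] = true) l h2 h1)
  have pD : ∀ l, p l ∈ Dl ι := fun l => by
    by_cases h0 : l = 0
    · rw [h0, gp.zero]; exact one_mem _
    by_cases h : l < 10
    · exact DQ_le (pq l (by omega) h)
    by_cases h' : l < 18
    · have h'' : 10 ≤ l := by omega
      interval_cases l
      exacts [a10, a2, (show p 12 = (p 11)⁻¹ from gp.inv 11) ▸ inv_mem a2, a3,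
        (show p 14 = (p 13)⁻¹ from gp.inv 13) ▸ inv_mem a3, a5,
        (show p 16 = (p 15)⁻¹ from gp.inv 15) ▸ inv_mem a5, a17]
    · have := gp.inv l
      rw [invL_eq_zero (n := 18) (by decide) (by omega), gp.zero] at this
      rw [← inv_mem_iff, ← this]; exact one_mem _
  have pw : ∀ w, evL p w = (evL evC w, evL b w) := fun w => Prod.ext (fst_evL _ _) (snd_evL _ _)
  have sq' : ∀ i (hi : i < sgC.length), inR 18 (sgC[i]).1 = true →
      evL p ((sgC[i]).1 ++ (sgC[i]).1) ∈ DQ ι := fun i hi h => by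
    have m : evL p (sgC[i]).1 ∈ Dl ι := evL_mem_of_letters fun x _ => pD x
    rw [evL_append]
    rw [pw, evC, evL_cut _ h] at m ⊢
    exact sq i hi _ m
  have rw0 : ∀ w ∈ RW0, evL p w ∈ DQ ι := by
    unfold RW0
    simp only [List.forall_mem_cons]
    refine ⟨?_, ?_, ?_, ?_, ?_, sq' 0 (by decide) rfl, sq' 1 (by decide) rfl, sq' 2 (by decide) rfl,
      sq' 3 (by decide) rfl, sq' 4 (by decide) rfl, sq' 5 (by decide) rfl, sq' 6 (by decide) rfl,
      sq' 7 (by decide) rfl, sq' 8 (by decide) rfl, sq' 9 (by decide) rfl, by simp⟩ <;>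
      simp only [evL_cons, evL_nil, mul_one]
    · exact b2
    · exact b3
    · exact b5
    · have : p 14 * p 10 = (evX 14 * evX 10, s1) := Prod.ext rfl (inv_mul_cancel_left _ _)
      rwa [← this, mul_assoc, mul_assoc] at b1
    · have : p 16 * p 17 = (evX 16 * evX 17, s6) := Prod.ext rfl (inv_mul_cancel_left _ _)
      rwa [← this, mul_assoc, mul_assoc] at b6
  have rp : Rels p RC := fun r hr => by
    refine (DQ_fn (ι := ι)).one ?_ (by rw [pw]; exact relsC' r hr)
    have := List.all_eq_true.mp (by decide +kernel : RC.all shape = true) r hr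
    simp only [shape, Bool.or_eq_true, Bool.and_eq_true, beq_iff_eq, List.any_eq_true] at this
    rcases this with (h | ⟨⟨h1, h2⟩, h3⟩) | ⟨w, hw, h1, h2⟩
    · exact mem_of_inR pq h
    · rw [← List.take_append_drop 3 r, evL_append, h3]
      refine mul_mem ?_ (mem_of_inR pq h1)
      have := mem_of_inR pq h2
      simp only [evL_cons, evL_nil, mul_one, gp.inv, ← mul_assoc] at this ⊢
      exact H8.conj_mem_of_mem_normalizer' (pD _).1 this
    · rw [← List.take_append_drop w.length r, evL_append, h1]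
      exact mul_mem (rw0 w hw) (mem_of_inR pq h2)
  have ub := ubC gp rp
  have := ub.1
  have fn : Fn (gl p CL) := Fn.of_card (by rw [map_gl]; exact ub.2.trans (CX_eq ▸ cardC.1.ge))
  have le : gl p CL ≤ Dl ι := gl_le fun l _ => pD l
  have pG : ∀ l, 1 ≤ l → l < 18 → p l ∈ gl p CL := fun l h1 h2 =>
    mem_gl_inv gp (ls' := List.range' 1 17) (by decide) l (List.mem_range'_1.mpr ⟨h1, h2⟩)
  have e1 : ∀ l < 18, evS b sE l = b l := fun l hl => by
    by_cases h0 : l = 0
    · rw [h0, gb.zero]; rfl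
    · rw [evS_nth, (by decide : ∀ l < 18, l ≠ 0 → nthW sE l = [l]) l hl h0, evL_singleton]
  have e2 : ∀ l < 18, pr (evS b sE) l = p l := fun l hl => Prod.ext (if_pos hl).symm (e1 l hl)
  have e3 : GC (evS b sE) = gl p CL := by
    have c := (by decide : ∀ l ∈ CL, l < 18)
    exact le_antisymm (gl_le fun l hl => by rw [e2 l (c l hl)]; exact gl_mem _ hl)
      (gl_le fun l hl => by rw [← e2 l (c l hl)]; exact gl_mem _ hl)
  have e9 : evS b sE 9 = ι Qm.z := e1 9 (by decide)
  have z9 : (evX 9, ι Qm.z) ∈ gl p CL := pG 9 (by decide) (by decide)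
  refine ⟨evS b sE, ⟨rfl, e3 ▸ fn, fun l h1 h2 => ?_, fun a ha => ?_, fun g hg => ?_, ?_,
    e9 ▸ S.card⟩, Qm.map_eq fun l hl => ?_⟩
  · have : pr (evS b sE) l = evL p (nthW sE l) := by
      rw [pw, evC, evL_cut _ (sE_in l)]
      exact Prod.ext (sE_spec h1 h2) (evS_nth _ _ _)
    rw [e3, this]
    exact mem_of_inR pG (sE_in l)
  · rw [e3] at ha
    refine (S.d4 (le ha)).resolve_right fun e => S.z1 ?_
    exact (congrArg Prod.snd (fn.eq ha z9 e)).symm
  · rw [e9] at hg
    obtain ⟨a, ha⟩ := S.onto hg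
    obtain ⟨q, hq, rfl⟩ : a ∈ (gl p CL).map (MonoidHom.fst X G) := by
      rw [map_gl]; exact CX_eq ▸ ha.2
    rw [e3]
    rcases S.d3 (le hq) ha with rfl | rfl
    · exact ⟨_, hq⟩
    · exact ⟨_, mul_mem z9 hq⟩
  · rw [e9, e1 1 (by decide)]
    exact S.exists_n
  · have := (by decide : ∀ l ∈ QL, l < 10) l hl
    rw [e1 l (by omega), bq l this]

end St0

end Cfsg.H5.Sz
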