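import Cfsg.Agent.H5.Suz.XB

/-!
Rigidity of the complement.
-/

set_option autoImplicit false
set_option maxRecDepth 100000
set_option linter.unusedVariables false

namespace Cfsg.H5.Sz

open Cfsg.H6 Subgroup

theorem cen_y {g : X} (hg : g ∈ KX) (e : ∀ c ∈ [[20]], g * vX c = vX c * g) :
    ∃ v < 20, g = vX (rp (v / 4) [20] ++ pwW V2L (v % 4)) :=
  cenK (f := fun v => rp (v / 4) [20] ++ pwW V2L (v % 4)) (by decide)
    (fun v => inR_append (inR_rp (by decide) _) (inR_pw (by decide) _)) (by decide +kernel) hg e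

theorem rig_chk : allW (allPw RL fun w => orB (mvP 3 w) (orB (mvP 2 (20 :: w))
    (TN.anyB (fun v => eq0 (w ++ rp v [20]) (rp v [20] ++ [18])) 5))) aW = true := by
  decide +kernel

theorem rig_x {g : X} (hg : g ∈ KX) (h3 : g ^ 3 = 1) (h2 : (evX 20 * g) ^ 2 = 1) :
    ∃ v < 5, g * evX 20 ^ v = evX 20 ^ v * evX 18 := by
  obtain ⟨w, hw, rfl, k⟩ := bruteK rig_chk hg
  have h20 : inR 45 [20] = true := by decide
  rcases orB_iff.mp k with k | k
  · exact absurd h3 (mvP_spec hw k)
  rcases orB_iff.mp k with k | k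
  · have := mvP_spec (inR_append h20 hw) k
    simp only [vX, evL_append, evL_singleton] at this
    exact absurd h2 this
  · obtain ⟨v, hv, k⟩ := TN.anyB_iff.mp k
    have := eq0_spec (inR_append hw (inR_rp h20 v)) (inR_append (inR_rp h20 v) (by decide)) k
    simp only [vX, evL_append, evL_rp, evL_singleton] at this
    exact ⟨v, hv, this⟩

end Cfsg.H5.Sz
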