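import Cfsg.Agent.H5.Suz.S3
import Cfsg.Agent.H5.Suz.XK1
import Cfsg.Agent.H5.Suz.XK3
import Cfsg.Agent.H5.Suz.RL

/-!
An element of order three rotating the four-group.
-/

set_option autoImplicit false
set_option maxRecDepth 100000
set_option linter.unusedVariables false
set_option linter.unusedSectionVars false

namespace Cfsg.H5.Sz

open Cfsg.H6 Subgroup

variable {G : Type*} [Group G] {e : ℕ → G}

theorem conj_flat {ρ : G} {σ : ℕ → List ℕ} {w : List ℕ}
    (hσ : ∀ l ∈ w, ρ * e l * ρ⁻¹ = evL e (σ l)) : ρ * evL e w * ρ⁻¹ = evL e (w.flatMap σ) := by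
  induction w with
  | nil => simp [evL_nil]
  | cons l w ih =>
    rw [List.flatMap_cons, evL_append, ← hσ l (by simp), ← ih fun m hm => hσ m (by simp [hm]),
      evL_cons, conj_mul]

theorem inR_flat {n : ℕ} {σ : ℕ → List ℕ} (h : ∀ l, inR n (σ l) = true) (w : List ℕ) :
    inR n (w.flatMap σ) = true := by
  induction w with
  | nil => rfl
  | cons l w ih => rw [List.flatMap_cons]; exact inR_append (h l) ih

section

variable {Γ : Subgroup (X × G)} {a b : X} {g k : G}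

theorem pmul (hp : (a, g) ∈ Γ) (hq : (b, k) ∈ Γ) : (a * b, g * k) ∈ Γ := mul_mem hp hq
theorem ppow (hp : (a, g) ∈ Γ) (n : ℕ) : (a ^ n, g ^ n) ∈ Γ := pow_mem hp n
theorem pinv (hp : (a, g) ∈ Γ) : (a⁻¹, g⁻¹) ∈ Γ := inv_mem hp
theorem pone : ((1 : X), (1 : G)) ∈ Γ := one_mem _

end

theorem Fn.mem_gl {Γ : Subgroup (X × G)} (h : Fn Γ) {ls : List ℕ} (hl : ∀ l ∈ ls, pr e l ∈ Γ)
    {p : X × G} (hp : p ∈ Γ) (h1 : p.1 ∈ gl evX ls) : p ∈ gl (pr e) ls := by
  obtain ⟨q, hq, k⟩ : p.1 ∈ (gl (pr e) ls).map (MonoidHom.fst X G) := by rw [map_gl]; exact h1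
  exact h.eq (gl_le hl hq) hp k ▸ hq

theorem Fn.comm {Γ : Subgroup (X × G)} (h : Fn Γ) {a b : X} {g k : G} (hp : (a, g) ∈ Γ)
    (hq : (b, k) ∈ Γ) (E : a * b = b * a) : g * k = k * g :=
  congrArg Prod.snd (h.eq (mul_mem hp hq) (mul_mem hq hp) E)

/-- Both words are in the centraliser and agree in the model. -/
noncomputable def eqC (w v : List ℕ) : Bool := andB (inR 39 w) (andB (inR 39 v) (eqB w v))

/-- The centraliser of the four-group. -/
def Kg (e : ℕ → G) : Subgroup G := centralizer {e 9} ⊓ centralizer {e 1}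

theorem mem_Kg {g : G} : g ∈ Kg e ↔ g * e 9 = e 9 * g ∧ g * e 1 = e 1 * g := by
  simp only [Kg, mem_inf, mem_centralizer_singleton_iff]

/-- The element rotates the four-group. -/
def Rot (e : ℕ → G) (r : G) : Prop := r * e 9 * r⁻¹ = e 1 ∧ r * e 1 * r⁻¹ = e 1 * e 9

theorem Rot.mul {r k : G} (h : Rot e r) (hk : k ∈ Kg e) : Rot e (k * r) := by
  obtain ⟨k1, k2⟩ := mem_Kg.mp hk
  have a : ∀ x, k * r * x * (k * r)⁻¹ = k * (r * x * r⁻¹) * k⁻¹ := fun x => by group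
  refine ⟨by rw [a, h.1, k2, mul_inv_cancel_right], ?_⟩
  rw [a, h.2, ← mul_assoc, k2, mul_assoc (e 1), k1, mul_assoc, mul_inv_cancel_right]

namespace Ch

variable (h : Ch e)
include h

theorem memw {w : List ℕ} (hw : inR 39 w = true) : (vX w, evL e w) ∈ GC e :=
  pr_evL e w ▸ mem_of_inR h.mem hw

theorem ml (l : ℕ) (h1 : 1 ≤ l := by decide) (h2 : l < 39 := by decide) : (evX l, e l) ∈ GC e :=
  h.mem l h1 h2

theorem val {a b : X} {g k : G} (hp : (a, g) ∈ GC e) (hq : (b, k) ∈ GC e) (E : a = b) : g = k :=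
  congrArg Prod.snd (h.fn.eq hp hq E)

theorem arg {a b : X} {g k : G} (hp : (a, g) ∈ GC e) (hq : (b, k) ∈ GC e) (E : g = k) : a = b := by
  subst E
  have := mul_mem hp (inv_mem hq)
  rw [Prod.inv_mk, Prod.mk_mul_mk, mul_inv_cancel] at this
  exact mul_inv_eq_one.mp (h.inj _ this)

theorem eqv (w v : List ℕ) (k : eqC w v = true) : evL e w = evL e v := by
  simp only [eqC, andB_eq_true] at k
  exact h.val (h.memw k.1) (h.memw k.2.1) (eqB_spec _ _ k.2.2)

theorem eqx {w v : List ℕ} (hw : inR 39 w = true) (hv : inR 39 v = true)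
    (E : evL e w = evL e v) : vX w = vX v := h.arg (h.memw hw) (h.memw hv) E

theorem comm' {a b : X} {g k : G} (hp : (a, g) ∈ GC e) (hq : (b, k) ∈ GC e) (E : g * k = k * g) :
    a * b = b * a := h.arg (pmul hp hq) (pmul hq hp) E

theorem memC' {a : X} {g : G} (hp : (a, g) ∈ GC e) : a ∈ CX := GC_fst e ▸ ⟨_, hp, rfl⟩

theorem lift {a : X} (ha : a ∈ CX) : ∃ g, (a, g) ∈ GC e := by
  obtain ⟨p, hp, rfl⟩ := GC_fst e ▸ ha
  exact ⟨p.2, hp⟩

theorem toK {g : G} (hg : g ∈ Kg e) : ∃ a ∈ KX, (a, g) ∈ GC e := by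
  obtain ⟨a, ha⟩ := h.sur g (mem_Kg.mp hg).1
  exact ⟨a, memK (h.memC' ha) (h.comm' ha (h.ml 1) (mem_Kg.mp hg).2), ha⟩

theorem ofK {a : X} {g : G} (ha : a ∈ KX) (hg : (a, g) ∈ GC e) : g ∈ Kg e :=
  mem_Kg.mpr ⟨h.fn.comm hg (h.ml 9) (zcomm a (KX_le ha)), h.fn.comm hg (h.ml 1) (ecomm a ha)⟩

end Ch

set_option quotPrecheck false in
/-- An equation between words in the group, unfolded. -/
notation "geq " h ", " w ", " v => (by
      have := Ch.eqv h w v (by decide +kernel)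
      simpa only [evL_cons, evL_nil, mul_one, mul_assoc] using this)

namespace Ch

variable (h : Ch e)
include h

theorem rotK {r k : G} (hr : Rot e r) (hk : k ∈ Kg e) : r * k * r⁻¹ ∈ Kg e := by
  obtain ⟨k1, k2⟩ := mem_Kg.mp hk
  have a : r * k * r⁻¹ * e 1 = e 1 * (r * k * r⁻¹) := by rw [← hr.1, conj_mul, conj_mul, k1]
  have b : r * k * r⁻¹ * (e 1 * e 9) = e 1 * e 9 * (r * k * r⁻¹) := by
    rw [← hr.2, conj_mul, conj_mul, k2]
  rw [← mul_assoc, a, mul_assoc, mul_assoc (e 1)] at b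
  exact mem_Kg.mpr ⟨mul_left_cancel b, a⟩

theorem rot3 {r : G} (hr : Rot e r) : r ^ 3 ∈ Kg e := by
  have a : r * (e 1 * e 9) * r⁻¹ = e 9 := by
    rw [← conj_mul, hr.1, hr.2]; exact geq h, [1, 9, 1], [9]
  have c : ∀ x, r ^ 3 * x * (r ^ 3)⁻¹ = r * (r * (r * x * r⁻¹) * r⁻¹) * r⁻¹ := fun x => by
    rw [pow_three]; group
  refine mem_Kg.mpr ⟨mul_inv_eq_iff_eq_mul.mp ?_, mul_inv_eq_iff_eq_mul.mp ?_⟩
  · rw [c, hr.1, hr.2, a]
  · rw [c, hr.2, a, hr.1]

theorem rho1 : ∃ r, Rot e r ∧ r * e 20 = e 20 * r := by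
  obtain ⟨n, n1, n2⟩ := h.nn
  have f1 : e 2 * e 1 * (e 2)⁻¹ = e 1 * e 9 :=
    mul_inv_eq_iff_eq_mul.mpr (geq h, [2, 1], [1, 9, 2])
  have f2 : e 2 * (e 9 * e 1) * (e 2)⁻¹ = e 1 :=
    mul_inv_eq_iff_eq_mul.mpr (geq h, [2, 9, 1], [1, 2])
  have a : ∀ x, e 2 * n * x * (e 2 * n)⁻¹ = e 2 * (n * x * n⁻¹) * (e 2)⁻¹ := fun x => by group
  have r0 : Rot e (e 2 * n) := ⟨by rw [a, n1, f2], by rw [a, n2, f1]⟩
  have yK : evX 20 ∈ KX := gl_mem evX (by decide)
  have y5 : evX 20 ^ 5 = 1 := by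
    simpa only [vX, evL_rp, evL_singleton, evL_nil] using eqB_spec (rp 5 [20]) [] (by decide +kernel)
  have y1 : evX 20 ≠ 1 := wne [20], []
  have Y5 : e 20 ^ 5 = 1 := h.val (ppow (h.ml 20) 5) pone y5
  have : Fact (Nat.Prime 5) := ⟨by norm_num⟩
  have oy : orderOf (evX 20) = 5 := orderOf_eq_prime y5 y1
  have sy : H8.IsSyl 5 (zpowers (evX 20)) KX := by
    refine ⟨zpowers_le.mpr yK, H8.isPGroup_zpowers (k := 1) (by simpa using y5), fun hd => ?_⟩
    have := H8.card_mul_relIndex (zpowers_le.mpr yK)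
    rw [Nat.card_zpowers, oy, KX_eq.2] at this
    omega
  obtain ⟨b, hb, hb'⟩ := h.toK (h.rotK r0 (h.ofK yK (h.ml 20)))
  have b5 : b ^ 5 = 1 := h.arg (ppow hb' 5) pone (by rw [conj_pow, Y5]; simp)
  obtain ⟨k, hk, k1⟩ := sy.exists_conj_mem hb ⟨1, by simpa using b5⟩
  obtain ⟨i, hi⟩ := mem_powers_iff_mem_zpowers.mpr k1
  obtain ⟨k', hk'⟩ := h.lift (KX_le hk)
  have r1 := r0.mul (h.ofK hk hk')
  have E : k' * (e 2 * n) * e 20 * (k' * (e 2 * n))⁻¹ = e 20 ^ i := by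
    rw [h.val (ppow (h.ml 20) i) (pmul (pmul hk' hb') (pinv hk')) hi]
    simp only [mul_inv_rev, mul_assoc]
  generalize k' * (e 2 * n) = r at r1 E
  have E4 : r ^ 3 * r * e 20 * (r ^ 3 * r)⁻¹ = e 20 ^ (i ^ 4) := by
    have c : ∀ m, r * e 20 ^ m * r⁻¹ = e 20 ^ (i * m) := fun m => by rw [← conj_pow, E, ← pow_mul]
    calc _ = r * (r * (r * (r * e 20 * r⁻¹) * r⁻¹) * r⁻¹) * r⁻¹ := by rw [pow_three]; group
      _ = _ := by rw [E, c, c, c]; congr 1; ring
  refine ⟨_, r1.mul (h.rot3 r1), mul_inv_eq_iff_eq_mul.mp ?_⟩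
  rw [E4, pow_eq_pow_mod _ Y5, Nat.pow_mod]
  rw [pow_eq_pow_mod _ Y5] at E
  have : i % 5 < 5 := Nat.mod_lt _ (by decide)
  generalize i % 5 = j at *
  interval_cases j
  · exact absurd (h.arg (h.ml 20) pone (by simpa using E)) y1
  all_goals simp

theorem cy {g : G} (hg : g ∈ Kg e) (k : g * e 20 = e 20 * g) :
    ∃ v < 20, g = evL e (rp (v / 4) [20] ++ pwW V2L (v % 4)) := by
  obtain ⟨a, ha, ha'⟩ := h.toK hg
  obtain ⟨v, hv, E⟩ := cen_y ha (by
    simpa only [List.forall_mem_singleton, vX, evL_singleton] using h.comm' ha' (h.ml 20) k)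
  exact ⟨v, hv, h.val ha' (h.memw (inR_append (inR_rp (by decide) _) (inR_pw (by decide) _))) E⟩

theorem rho2 : ∃ r, Rot e r ∧ r * e 20 = e 20 * r ∧ r ^ 3 = 1 := by
  obtain ⟨r, r1, r2⟩ := h.rho1
  have c : ∀ n, r ^ n * e 20 = e 20 * r ^ n := fun n => (Commute.pow_left r2 n).eq
  obtain ⟨v, hv, E⟩ := h.cy (h.rot3 r1) (c 3)
  have := h.eqv _ _ ((by decide +kernel : ∀ v < 20,
    eqC (rp 10 (rp (v / 4) [20] ++ pwW V2L (v % 4))) [] = true) v hv)
  rw [evL_rp, ← E, evL_nil] at this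
  refine ⟨(r ^ 3) ^ 3 * r, r1.mul (pow_mem (h.rot3 r1) 3), ?_, ?_⟩
  · rw [← pow_mul, ← pow_succ]; exact c _
  · rw [← pow_mul, ← pow_succ, ← pow_mul, ← this, ← pow_mul]

end Ch

/-- The action of the rotation on some letters. -/
noncomputable def sg1 (a b c : List ℕ) (l : ℕ) : List ℕ :=
  if l = 1 then [1, 9] else if l = 9 then [1] else if l = 18 then a else if l = 3 then b
  else if l = 22 then c else if l = 21 then [21] else [20]

theorem sg1_in {a b c : List ℕ} (ha : inR 39 a = true) (hb : inR 39 b = true)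
    (hc : inR 39 c = true) (l : ℕ) : inR 39 (sg1 a b c l) = true := by
  unfold sg1
  split_ifs <;> first | assumption | rfl

namespace Ch

variable (h : Ch e)
include h

theorem i21 : e 21 = (e 20)⁻¹ := eq_inv_of_mul_eq_one_left (geq h, [21, 20], [])

theorem i19 : e 19 = (e 18)⁻¹ := eq_inv_of_mul_eq_one_left (geq h, [19, 18], [])

theorem sg1_ok {r : G} (r1 : Rot e r) (r2 : r * e 20 = e 20 * r) {a b c : List ℕ} {ls : List ℕ}
    (ha : 18 ∈ ls → r * e 18 * r⁻¹ = evL e a) (hb : 3 ∈ ls → r * e 3 * r⁻¹ = evL e b)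
    (hc : 22 ∈ ls → r * e 22 * r⁻¹ = evL e c) (hl : ∀ l ∈ ls, l ∈ [1, 9, 18, 3, 22, 21, 20])
    {w : List ℕ} (hw : sub w ls = true) : r * evL e w * r⁻¹ = evL e (w.flatMap (sg1 a b c)) := by
  refine conj_flat fun l hl' => ?_
  have m : l ∈ ls := List.mem_of_elem_eq_true (List.all_eq_true.mp hw l hl')
  have := hl l m
  have y : r * e 20 * r⁻¹ = e 20 := by rw [r2, mul_inv_cancel_right]
  simp only [List.mem_cons, List.not_mem_nil, or_false] at this
  rcases this with rfl | rfl | rfl | rfl | rfl | rfl | rfl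
  · exact r1.2.trans (by simp [sg1, evL_cons, evL_nil])
  · exact r1.1.trans (evL_singleton e 1).symm
  · exact ha m
  · exact hb m
  · exact hc m
  · rw [show sg1 a b c 21 = [21] from rfl, evL_singleton, h.i21, ← conj_inv, y]
  · exact y.trans (evL_singleton e 20).symm

theorem rho3 : ∃ r, Rot e r ∧ r * e 20 = e 20 * r ∧ r ^ 3 = 1 ∧ e 2 * r * e 2 * r = 1 := by
  obtain ⟨r, r1, r2, r3⟩ := h.rho2
  have ff : e 2 * e 2 = 1 := geq h, [2, 2], []
  have fz : e 2 * e 9 = e 9 * e 2 := geq h, [2, 9], [9, 2]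
  have fy : e 2 * e 20 = e 20 * e 2 := geq h, [2, 20], [20, 2]
  have fe : e 2 * e 1 = e 1 * e 9 * e 2 := geq h, [2, 1], [1, 9, 2]
  have ez : e 1 * e 9 * e 1 = e 9 := geq h, [1, 9, 1], [9]
  have zz : e 9 * e 9 = 1 := geq h, [9, 9], []
  have rz : r * e 9 = e 1 * r := mul_inv_eq_iff_eq_mul.mp r1.1
  have re : r * e 1 = e 1 * e 9 * r := mul_inv_eq_iff_eq_mul.mp r1.2
  have a1 : e 2 * r * e 1 = e 1 * (e 2 * r) := by
    rw [mul_assoc, re, ← mul_assoc, ← mul_assoc, fe, mul_assoc _ (e 2), fz, ← mul_assoc,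
      mul_assoc (e 1), zz, mul_one, mul_assoc]
  have a2 : e 2 * r * e 9 = e 1 * e 9 * (e 2 * r) := by
    rw [mul_assoc, rz, ← mul_assoc, fe, mul_assoc]
  have cK : e 2 * r * (e 2 * r) ∈ Kg e := by
    refine mem_Kg.mpr ⟨?_, by rw [mul_assoc, a1, ← mul_assoc, a1, mul_assoc]⟩
    generalize e 2 * r = g at a1 a2
    calc _ = g * e 1 * (e 9 * g) := by rw [mul_assoc, a2]; simp only [mul_assoc]
      _ = e 1 * (g * e 9) * g := by rw [a1]; simp only [mul_assoc]
      _ = e 1 * e 1 * (e 9 * (g * g)) := by rw [a2]; simp only [mul_assoc]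
      _ = _ := by rw [show e 1 * e 1 = 1 from geq h, [1, 1], [], one_mul]
  have a3 : e 2 * r * e 20 = e 20 * (e 2 * r) := by rw [mul_assoc, r2, ← mul_assoc, fy, mul_assoc]
  obtain ⟨v, hv, E⟩ := h.cy cK (by rw [mul_assoc, a3, ← mul_assoc, a3, mul_assoc])
  have key : ∀ v < 20, let w := rp (v / 4) [20] ++ pwW V2L (v % 4); let s := sg1 [] [] [];
      (sub w [1, 9, 20] && sub (w.flatMap s) [1, 9, 20] && inR 39 w) = true ∧
      (v = 0 ∨ v = 1 ∨ neB (w ++ (w.flatMap s).flatMap s ++ w.flatMap s) [] = true ∨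
        neB ([2] ++ w.flatMap s ++ [2]) w = true) := by decide +kernel
  obtain ⟨k1, k2⟩ := key v hv
  simp only [Bool.and_eq_true] at k1
  generalize hw : rp (v / 4) [20] ++ pwW V2L (v % 4) = w at E k1 k2
  have s := fun {w} hw => h.sg1_ok r1 r2 (a := []) (b := []) (c := []) (ls := [1, 9, 20])
    (by simp) (by simp) (by simp) (by simp) (w := w) hw
  have s1 := s k1.1.1
  have s2 := s k1.1.2
  have si := inR_flat (sg1_in (a := []) (b := []) (c := []) rfl rfl rfl)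
  have ri : r⁻¹ = r * r := by rw [inv_eq_iff_mul_eq_one, ← r3, pow_three]
  rcases k2 with rfl | rfl | k | k
  · subst hw
    exact ⟨r, r1, r2, r3, by rw [mul_assoc]; exact E⟩
  · subst hw
    have E' : e 2 * r * (e 2 * r) = e 1 := E.trans (evL_singleton e 1)
    have zK : e 9 ∈ Kg e := mem_Kg.mpr ⟨rfl, geq h, [9, 1], [1, 9]⟩
    have b : r * (e 1 * e 9) = e 9 * r := by rw [← mul_assoc, re, mul_assoc, rz, ← mul_assoc, ez]
    refine ⟨e 9 * r, r1.mul zK, ?_, ?_, ?_⟩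
    · rw [mul_assoc, r2, ← mul_assoc, ← mul_assoc, show e 9 * e 20 = e 20 * e 9 from
        geq h, [9, 20], [20, 9]]
    · calc _ = e 9 * (r * e 9) * (r * e 9) * r := by rw [pow_three]; group
        _ = e 9 * e 1 * (r * e 1) * r * r := by rw [rz]; group
        _ = e 9 * (e 1 * e 1) * e 9 * r ^ 3 := by rw [re, pow_three]; group
        _ = 1 := by rw [r3, show e 1 * e 1 = 1 from geq h, [1, 1], [], mul_one, mul_one, zz]
    · calc _ = (e 2 * e 9) * r * (e 2 * (e 9 * r)) := by group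
        _ = e 9 * (e 2 * r * (e 2 * r)) * (e 1 * e 9) := by rw [fz, ← b]; group
        _ = 1 := by rw [E']; exact geq h, [9, 1, 1, 9], []
  · refine absurd (h.eqx (inR_append (inR_append k1.2 (si _)) (si _)) rfl ?_) (neB_spec _ _ k)
    rw [evL_append, evL_append, ← s2, ← s1, ← E, evL_nil]
    have f' : ∀ x, e 2 * (e 2 * x) = x := fun x => by rw [← mul_assoc, ff, one_mul]
    have r' : ∀ x, r * (r * (r * x)) = x := fun x => by
      rw [← mul_assoc, ← mul_assoc, ← pow_three', r3, one_mul]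
    simp only [mul_assoc, inv_mul_cancel_left, mul_inv_cancel, mul_one, f', r',
      ff]
  · refine absurd (h.eqx (inR_append (inR_append rfl (si _)) rfl) k1.2 ?_) (neB_spec _ _ k)
    rw [evL_append, evL_append, ← s1, ← E, evL_singleton]
    calc _ = e 2 * r * e 2 * r * (e 2 * e 2) := by group
      _ = _ := by rw [ff]; group

theorem cA4 {g : G} (hg : g ∈ Kg e) (k1 : g * e 18 = e 18 * g)
    (k2 : g * evL e sW = evL e sW * g) : ∃ v < 16, g = evL e (pwW VL v) := by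
  obtain ⟨a, ha, ha'⟩ := h.toK hg
  obtain ⟨v, hv, E⟩ := cen_A4 ha (by
    simp only [List.forall_mem_cons, List.not_mem_nil, false_imp_iff, implies_true, and_true]
    exact ⟨by simpa only [vX, evL_singleton] using h.comm' ha' (h.ml 18) k1,
      h.comm' ha' (h.memw (by decide)) k2⟩)
  exact ⟨v, hv, h.val ha' (h.memw (inR_pw (by decide) _)) E⟩

theorem rho4 : ∃ r, Rot e r ∧ r * e 20 = e 20 * r ∧ r ^ 3 = 1 ∧ e 2 * r * e 2 * r = 1 ∧
    r * e 18 = e 18 * r ∧ r * e 3 * r⁻¹ = e 22 ∧ r * e 22 * r⁻¹ = e 3 * e 22 := by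
  obtain ⟨r, r1, r2, r3, r4⟩ := h.rho3
  have lK : ∀ l ∈ KL, e l ∈ Kg e := fun l hl => h.ofK (gl_mem evX hl)
    (h.ml l ((by decide : ∀ l ∈ KL, 1 ≤ l) l hl) ((by decide : ∀ l ∈ KL, l < 39) l hl))
  have y : r * e 20 * r⁻¹ = e 20 := by rw [r2, mul_inv_cancel_right]
  have c3 : ∀ x, r * (r * (r * x * r⁻¹) * r⁻¹) * r⁻¹ = x := fun x => by
    calc _ = r ^ 3 * x * (r ^ 3)⁻¹ := by rw [pow_three]; group
      _ = _ := by rw [r3]; simp
  have rx : r * e 18 = e 18 * r := by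
    obtain ⟨a, ha, ha'⟩ := h.toK (h.rotK r1 (lK 18 (by decide)))
    obtain ⟨v, hv, E⟩ := rig_x ha
      (h.arg (ppow ha' 3) pone (by
        rw [conj_pow, show e 18 ^ 3 = 1 by rw [pow_three]; exact geq h, [18, 18, 18], []]; simp))
      (h.arg (ppow (pmul (h.ml 20) ha') 2) pone (by
        rw [← y, conj_mul, conj_pow, show (e 20 * e 18) ^ 2 = 1 by
          rw [pow_two]; exact geq h, [20, 18, 20, 18], []]; simp))
    have E' := h.val (pmul ha' (ppow (h.ml 20) v)) (pmul (ppow (h.ml 20) v) (h.ml 18)) E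
    have E2 : r * e 18 * r⁻¹ = evL e (rp v [20] ++ [18] ++ rp v [21]) := by
      simp only [evL_append, evL_rp, evL_singleton, h.i21, inv_pow]
      exact eq_mul_inv_of_mul_eq E'
    have key : ∀ v < 5, let a := rp v [20] ++ [18] ++ rp v [21]; let s := sg1 a [] [];
      (sub a [18, 20, 21] && sub (a.flatMap s) [18, 20, 21] && inR 39 a) = true ∧
      (v = 0 ∨ neB ((a.flatMap s).flatMap s) [18] = true) := by decide +kernel
    obtain ⟨k1, k2⟩ := key v hv
    simp only [Bool.and_eq_true] at k1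
    rcases k2 with rfl | k
    · exact mul_inv_eq_iff_eq_mul.mp (by simpa using E')
    have s := fun {w} hw => h.sg1_ok r1 r2 (b := []) (c := []) (ls := [18, 20, 21])
      (fun _ => E2) (by simp) (by simp) (by simp) (w := w) hw
    refine absurd (h.eqx (inR_flat (sg1_in k1.2 rfl rfl) _) rfl ?_) (neB_spec _ _ k)
    rw [← s k1.1.2, ← s k1.1.1, ← E2, c3, evL_singleton]
  have x : r * e 18 * r⁻¹ = e 18 := by rw [rx, mul_inv_cancel_right]
  have sw : r * evL e sW * r⁻¹ = evL e sW := by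
    have cx : Commute r (e 18) := rx
    have cy : Commute r (e 20) := r2
    simp only [sW, evL_cons, evL_nil, h.i21, h.i19, mul_one]
    exact mul_inv_eq_iff_eq_mul.mpr
      (cy.mul_right (cx.inv_right.mul_right (cy.inv_right.mul_right cy.inv_right)))
  have pin : ∀ w, inR 39 w = true → evL e w ∈ Kg e → eqC (w ++ [18]) (18 :: w) = true →
      eqC (w ++ sW) (sW ++ w) = true → ∃ v < 16, r * evL e w * r⁻¹ = evL e (pwW VL v) :=
    fun w hw k0 k1 k2 => by
      have k1 := h.eqv _ _ k1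
      have k2 := h.eqv _ _ k2
      rw [evL_append, evL_singleton, evL_cons] at k1
      rw [evL_append, evL_append] at k2
      exact h.cA4 (h.rotK r1 k0) (by rw [← x, conj_mul, conj_mul, k1])
        (by rw [← sw, conj_mul, conj_mul, k2])
  obtain ⟨v1, hv1, E1⟩ := pin [3] rfl (evL_singleton e 3 ▸ lK 3 (by decide)) (by decide +kernel)
    (by decide +kernel)
  obtain ⟨v2, hv2, E2⟩ := pin [22] rfl (evL_singleton e 22 ▸ lK 22 (by decide)) (by decide +kernel)
    (by decide +kernel)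
  rw [evL_singleton] at E1 E2
  have s := fun {w} hw => h.sg1_ok r1 r2 (a := []) (ls := [1, 9, 3, 22, 20, 21])
      (by simp) (fun _ => E1) (fun _ => E2) (by simp) (w := w) hw
  have t : ∀ w u, sub w [1, 9, 3, 22, 20, 21] = true → sub u [1, 9, 3, 22, 20, 21] = true →
      eqC w u = true → vX (w.flatMap (sg1 [] (pwW VL v1) (pwW VL v2))) =
        vX (u.flatMap (sg1 [] (pwW VL v1) (pwW VL v2))) := fun w u hw hu k => by
    have si := inR_flat (sg1_in (a := []) rfl (inR_pw (ls := VL) rfl v1) (inR_pw (ls := VL) rfl v2))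
    exact h.eqx (si _) (si _) (by rw [← s hw, ← s hu, h.eqv _ _ k])
  have k1 : ∀ v < 16, v = 2 ∨ neB (rp 2 (pwW VL v ++ 20 :: (pwW VL v ++ [21]))) [1] = true ∨
      neB (rp 5 (pwW VL v ++ [20])) [1] = true := by decide +kernel
  have k2 : ∀ v < 16, v = 3 ∨ neB (rp 2 (pwW VL v ++ 20 :: (pwW VL v ++ [21]))) [1, 9] = true ∨
      neB (rp 5 (pwW VL v ++ [20])) [1, 9] = true := by decide +kernel
  refine ⟨r, r1, r2, r3, r4, rx, ?_, ?_⟩
  · rcases k1 v1 hv1 with rfl | k | k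
    · exact E1.trans (evL_singleton e 22)
    · refine absurd ?_ (neB_spec _ _ k)
      simpa [sg1, rp] using t (rp 2 [3, 20, 3, 21]) [9] rfl rfl (by decide +kernel)
    · refine absurd ?_ (neB_spec _ _ k)
      simpa [sg1, rp] using t (rp 5 [3, 20]) [9] rfl rfl (by decide +kernel)
  · rcases k2 v2 hv2 with rfl | k | k
    · exact E2.trans (by rw [← evL_singleton e 22]; rfl)
    · refine absurd ?_ (neB_spec _ _ k)
      simpa [sg1, rp] using t (rp 2 [22, 20, 22, 21]) [1] rfl rfl (by decide +kernel)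
    · refine absurd ?_ (neB_spec _ _ k)
      simpa [sg1, rp] using t (rp 5 [22, 20]) [1] rfl rfl (by decide +kernel)

end Ch

end Cfsg.H5.Sz
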