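import Cfsg.Agent.H5.Suz.S4

/-!
The normalisers of the four-group and of the elementary abelian group of order sixteen.
-/

set_option autoImplicit false
set_option maxRecDepth 100000
set_option linter.unusedVariables false
set_option linter.unusedSectionVars false

namespace Cfsg.H5.Sz

open Cfsg.H6 Subgroup

variable {G : Type*} [Group G] {e : ℕ → G}

def s1W : List ℕ := [22, 3, 19, 4, 31, 39, 30, 40]

/-- The full alphabet. -/
structure Al (e : ℕ → G) : Prop where
  ch : Ch e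
  good : Good e invX
  r2 : Rels e R2
  d41 : e 41 = evL e [18, 39]
  d43 : e 43 = evL e s1W

theorem Ch.exists_al {e0 : ℕ → G} (h : Ch e0) : ∃ e : ℕ → G, Al e ∧ ∀ l < 39, e l = e0 l := by
  obtain ⟨r, r1, r2, r3, r4, r5, r6, r7⟩ := h.rho4
  let s := e0 22 * (e0 3 * (e0 19 * (e0 4 * (e0 31 * (r * (e0 30 * r⁻¹))))))
  let L : List G := [r, r⁻¹, e0 18 * r, (e0 18 * r)⁻¹, s, s⁻¹]
  let e : ℕ → G := fun l => if l < 39 then e0 l else L.getD (l - 39) 1
  have k : ∀ l < 39, e l = e0 l := fun l hl => if_pos hl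
  refine ⟨e, ⟨h.congr k, ⟨h.zero, fun l => ?_⟩, ?_, ?_, ?_⟩, k⟩
  · by_cases h0 : l = 0
    · subst h0
      show e0 0 = (e0 0)⁻¹
      rw [h.zero, inv_one]
    by_cases h1 : l < 39
    · have := (by decide : ∀ l < 39, l ≠ 0 → 1 ≤ invL invX l ∧ invL invX l < 39) l h1 h0
      rw [k l h1, k _ this.2]
      exact h.val (h.ml _ this.1 this.2) (pinv (h.ml l (by omega) h1)) (goodX.inv l)
    by_cases h2 : l < 45
    · have h3 : 39 ≤ l := by omega
      interval_cases l
      exacts [rfl, (inv_inv _).symm, rfl, (inv_inv _).symm, rfl, (inv_inv _).symm]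
    · rw [invL_eq_zero (n := 45) (by decide) (by omega), k 0 (by decide), h.zero]
      show 1 = (if l < 39 then e0 l else L.getD (l - 39) 1)⁻¹
      rw [if_neg h1, List.getD_eq_default _ _ (show 6 ≤ l - 39 by omega), inv_one]
  · have c : ∀ {x y : G}, r * x * r⁻¹ = y → ∀ u, y * u = 1 → r * (x * (r⁻¹ * u)) = 1 :=
      fun h u k => by rw [← mul_assoc, ← mul_assoc, h, k]
    unfold R2 Rels
    simp only [List.forall_mem_cons, evL_cons, evL_nil, mul_one]
    refine ⟨(pow_three r).symm.trans r3, by rw [← r4]; simp only [mul_assoc]; rfl,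
      c (x := e0 18) (y := e0 18) (by rw [r5, mul_inv_cancel_right]) (e0 19) (geq h, [18, 19], []),
      c (x := e0 20) (y := e0 20) (by rw [r2, mul_inv_cancel_right]) (e0 21) (geq h, [20, 21], []),
      c r6 (e0 22) (geq h, [22, 22], []), c r7 (e0 22 * e0 3) (geq h, [3, 22, 22, 3], []),
      c r1.2 (e0 9 * e0 1) (geq h, [1, 9, 9, 1], []), c r1.1 (e0 1) (geq h, [1, 1], []), by simp⟩
  · simp only [evL_cons, evL_nil, mul_one]; rfl
  · simp only [s1W, evL_cons, evL_nil, mul_one]; rfl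

/-- Both words use listed letters and agree in the model. -/
noncomputable def eqL (L w v : List ℕ) : Bool := andB (sub w L) (andB (sub v L) (eqB w v))

theorem memL {Γ : Subgroup (X × G)} {L : List ℕ} (hL : ∀ l ∈ L, pr e l ∈ Γ) {w : List ℕ}
    (hw : sub w L = true) : (vX w, evL e w) ∈ Γ := pr_evL e w ▸ mem_of_sub hL hw

theorem Fn.eqv {Γ : Subgroup (X × G)} (h : Fn Γ) {L : List ℕ} (hL : ∀ l ∈ L, pr e l ∈ Γ)
    (w v : List ℕ) (k : eqL L w v = true) : evL e w = evL e v := by
  simp only [eqL, andB_eq_true] at k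
  exact congrArg Prod.snd (h.eq (memL hL k.1) (memL hL k.2.1) (eqB_spec _ _ k.2.2))

theorem Fn.rels {Γ : Subgroup (X × G)} (h : Fn Γ) {L : List ℕ} (hL : ∀ l ∈ L, pr e l ∈ Γ)
    {R : List (List ℕ)} (k : R.all (fun r => eqL L r []) = true) : Rels e R :=
  fun r hr => h.eqv hL r [] (List.all_eq_true.mp k r hr)

theorem rels_pr {R : List (List ℕ)} (h : Rels e R) (k : R.all (fun r => eqB r []) = true) :
    Rels (pr e) R := fun r hr => by
  rw [pr_evL]; exact Prod.ext (relsX k r hr) (h r hr)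

theorem rels_app {R R' : List (List ℕ)} (h : Rels e R) (h' : Rels e R') : Rels e (R ++ R') :=
  fun r hr => (List.mem_append.mp hr).elim (h r) (h' r)

/-- The images of two points under the conjugate of the central involution. -/
noncomputable def keyZ (w : List ℕ) : ℕ :=
  trF imgX (invW invX w ++ 9 :: w) 11 * 2048 + trF imgX (invW invX w ++ 9 :: w) 3

theorem inR_invW {w : List ℕ} (h : inR 45 w = true) : inR 45 (invW invX w) = true := by
  have : ∀ l < 45, 1 ≤ l → (Nat.ble 1 (invL invX l) && Nat.blt (invL invX l) 45) = true := by decide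
  unfold inR invW
  rw [List.all_eq_true]
  intro x hx
  obtain ⟨y, hy, rfl⟩ := List.mem_map.mp (List.mem_reverse.mp hx)
  exact this y (inR_spec h y hy).2 (inR_spec h y hy).1

theorem fn_cover (h : Ch e) {Γ0 Γ : Subgroup (X × G)} {n : ℕ} (hc : Cover Γ0 Γ (n + 1))
    (h0 : Γ0 ≤ GC e) {L : List ℕ} (hL : ∀ l ∈ L, pr e l ∈ Γ) (hL' : inR 45 L = true)
    {Ws : List (List ℕ)} (hW : Ws.all (fun w => sub w L) = true)
    (hi : incr (fun i => keyZ (nthW Ws i)) n = true) : Fn Γ := by
  have s : ∀ i, sub (nthW Ws i) L = true := fun i => by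
    rcases nthW_mem Ws i with k | k
    · rw [k]; rfl
    · exact List.all_eq_true.mp hW _ k
  have r : ∀ i, inR 45 (invW invX (nthW Ws i) ++ 9 :: nthW Ws i) = true := fun i => by
    have : inR 45 (nthW Ws i) = true := List.all_eq_true.mpr fun x hx => List.all_eq_true.mp hL' x
      (List.mem_of_elem_eq_true (List.all_eq_true.mp (s i) x hx))
    exact inR_append (inR_invW this) (inR_append (u := [9]) rfl this)
  refine Fn.of_cover hc (h.fn.mono h0) (z := evX 9) (fun p hp => zcomm _ (h.memC' (h0 hp)))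
    (γ := fun i => (vX (nthW Ws i), evL e (nthW Ws i))) (fun i _ => memL hL (s i))
    fun i hi' j hj k => inj_of_incr hi i hi' j hj ?_
  have k' : evL evX (invW invX (nthW Ws i) ++ 9 :: nthW Ws i) =
      evL evX (invW invX (nthW Ws j) ++ 9 :: nthW Ws j) := by
    simpa only [evL_append, evL_invW goodX, evL_cons, mul_assoc] using k
  unfold keyZ
  rw [← (actX.trF (r i) (by decide)).1, ← (actX.trF (r i) (by decide)).1,
    ← (actX.trF (r j) (by decide)).1, ← (actX.trF (r j) (by decide)).1, k']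

def N2L : List ℕ := [18, 20, 3, 22, 1, 9, 2]

noncomputable def G2 (e : ℕ → G) : Subgroup (X × G) := gl (pr e) (N2L ++ [39])

def L2 : List ℕ := [1, 2, 3, 4, 5, 6, 7, 8, 9, 13, 14, 15, 16, 17, 18, 19, 20, 21, 22, 23, 24, 25,
  26, 27, 28, 29, 32, 33, 34, 35, 36, 39, 40, 41, 42]

def N4L : List ℕ := [28, 29, 24, 26, 5, 7, 22, 3, 1, 9, 2, 4, 23, 18, 30]

noncomputable def G4 (e : ℕ → G) : Subgroup (X × G) := gl (pr e) (N4L ++ [39])

def L4 : List ℕ := [1, 2, 3, 4, 5, 6, 7, 8, 9, 18, 19, 22, 23, 24, 25, 26, 27, 28, 29, 30, 31, 39, 40,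
  32, 33, 35, 36, 41, 42, 43, 44]

theorem gl_sub {ev : ℕ → G} {ls ls' : List ℕ} (h : sub ls ls' = true) : gl ev ls ≤ gl ev ls' :=
  gl_le fun l hl => gl_mem ev (List.mem_of_elem_eq_true (List.all_eq_true.mp h l hl))

theorem Ch.gl_le (h : Ch e) {ls : List ℕ} (k : inR 39 ls = true) : gl (pr e) ls ≤ GC e :=
  Sz.gl_le fun l hl => h.mem l (inR_spec k l hl).1 (inR_spec k l hl).2

theorem Ch.mem_gl (h : Ch e) {ls : List ℕ} (k : inR 39 ls = true) {a : X} {g : G}
    (hp : (a, g) ∈ GC e) (h1 : a ∈ gl evX ls) : (a, g) ∈ gl (pr e) ls :=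
  h.fn.mem_gl (fun l hl => h.mem l (inR_spec k l hl).1 (inR_spec k l hl).2) hp h1

theorem normO {Γ : Subgroup (X × G)} [Finite G] (h : Fn Γ) (hO : ∀ l ∈ OL, pr e l ∈ Γ) {a : ℕ}
    (ha : pr e a ∈ Γ) {T : List ℕ} (k : (List.range 10).all (fun i =>
      eqB [a, OL.getD i 0] (pwW OL (T.getD i 0) ++ [a])) = true) :
    pr e a ∈ normalizer (gl (pr e) OL : Set (X × G)) :=
  H8.mem_normalizer_of_forall (gl_conj fun m hm => by
    refine h.mem_gl hO (mul_mem (mul_mem ha (hO m hm)) (inv_mem ha)) ?_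
    obtain ⟨i, hi, rfl⟩ := List.getElem_of_mem hm
    have := List.all_eq_true.mp k i (List.mem_range.mpr hi)
    rw [List.getD_eq_getElem _ _ hi] at this
    have e := eqB_spec _ _ this
    simp only [vX, evL_append, evL_cons, evL_nil, mul_one] at e
    show evX a * evX _ * (evX a)⁻¹ ∈ _
    rw [e, mul_inv_cancel_right]
    exact gl_pw evX OL _)

theorem Ch.five (h : Ch e) {w : List ℕ}
    (hp : (vX w, evL e w) ∈ normalizer (gl (pr e) OL : Set (X × G)))
    (h5 : eqB (rp 5 w) [] = true)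
    (hv : ∀ v < 16, v = 0 ∨ neB (w ++ pwW VL v) (pwW VL v ++ w) = true) :
    evL e (rp 5 w) = 1 := by
  have x5 : vX w ^ 5 = 1 := by simpa only [vX, evL_rp, evL_nil] using eqB_spec _ _ h5
  have le := h.gl_le (ls := OL) (by decide)
  have p5 := ppow hp 5
  rw [x5] at p5
  rw [evL_rp]
  have c : ∀ m ∈ OL, evL e w ^ 5 * e m = e m * evL e w ^ 5 := fun m hm => by
    have := le (H8.conj_mem_of_mem_normalizer p5 (gl_mem (pr e) hm))
    exact mul_inv_eq_iff_eq_mul.mp (h.val this (le (gl_mem (pr e) hm)) (by simp [pr]))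
  obtain ⟨a, ha, ha'⟩ := h.toK (mem_Kg.mpr ⟨c 9 (by decide), c 1 (by decide)⟩)
  obtain ⟨v, hv', rfl⟩ := cen_O ha (by
    simp only [List.forall_mem_cons, List.not_mem_nil, false_imp_iff, implies_true, and_true, vX,
      evL_singleton]
    exact ⟨h.comm' ha' (h.ml 5) (c 5 (by decide)), h.comm' ha' (h.ml 24) (c 24 (by decide)),
      h.comm' ha' (h.ml 28) (c 28 (by decide))⟩)
  rcases hv v hv' with rfl | k
  · exact h.val ha' pone rfl
  have m := h.mem_gl (ls := OL) (by decide) ha' (gl_sub (by decide) (gl_pw evX VL v))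
  have := h.arg (le (H8.conj_mem_of_mem_normalizer hp m)) ha' (by
    show evL e w * evL e w ^ 5 * (evL e w)⁻¹ = _
    group)
  refine absurd ?_ (neB_spec _ _ k)
  simp only [vX, evL_append]
  exact mul_inv_eq_iff_eq_mul.mp this

namespace Al

variable (h : Al e)
include h

theorem gp : Good (pr e) invX :=
  ⟨Prod.ext goodX.zero h.good.zero, fun l => Prod.ext (goodX.inv l) (h.good.inv l)⟩

theorem pdef {l : ℕ} {w : List ℕ} (k : e l = evL e w) (k' : eqB [l] w = true) :
    pr e l = evL (pr e) w := by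
  rw [pr_evL]; exact Prod.ext ((evL_singleton evX l).symm.trans (eqB_spec _ _ k')) k

theorem fn2 : Fn (G2 e) :=
  fn_cover h.ch (n := 2) (C2N.cover h.gp (rels_pr h.r2 (by decide +kernel)))
    (h.ch.gl_le (ls := N2L) (by decide)) (mem_gl_inv h.gp (ls' := [39, 40]) (by decide))
    (by decide) (Ws := [[], [40], [39]]) (by decide) (by decide +kernel)

theorem mem2 {a : X} {g : G} (hp : (a, g) ∈ GC e)
    (k : a * evX 1 = evX 1 * a ∨ a * evX 1 = evX 1 * evX 9 * a) : (a, g) ∈ G2 e := by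
  refine gl_sub (ls := N2L) (by decide) (h.ch.mem_gl (by decide) hp ?_)
  have le : KX ≤ gl evX N2L := gl_sub (by decide)
  have c := h.ch.memC' hp
  rcases k with k | k
  · exact le (memK c k)
  · refine (mul_mem_cancel_left (gl_mem evX (l := 2) (by decide))).mp (le (memK
      (mul_mem (memC (by decide) (by decide)) c) ?_))
    rw [mul_assoc, k, ← mul_assoc, ← mul_assoc (evX 1)]
    congr 1
    exact weq [2, 1, 9], [1, 2]

theorem l2 : ∀ l ∈ L2, pr e l ∈ G2 e := by
  have a : ∀ l ∈ [39, 40, 18], pr e l ∈ G2 e := mem_gl_inv h.gp (by decide)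
  have b : pr e 41 ∈ G2 e := h.pdef h.d41 (by decide +kernel) ▸ mem_of_sub a (by decide)
  intro l hl
  rcases (by decide +kernel : ∀ l ∈ L2, l ∈ [39, 40, 18] ∨ l = 41 ∨ l = 42 ∨ (1 ≤ l ∧ l < 39 ∧
    (eqB [l, 1] [1, l] = true ∨ eqB [l, 1] [1, 9, l] = true))) l hl with k | rfl | rfl | k
  · exact a l k
  · exact b
  · exact (show pr e 42 = (pr e 41)⁻¹ from h.gp.inv 41) ▸ inv_mem b
  · refine h.mem2 (h.ch.ml l k.1 k.2.1) (k.2.2.imp (fun k => ?_) fun k => ?_) <;>
      simpa only [vX, evL_cons, evL_nil, mul_one, mul_assoc] using eqB_spec _ _ k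

theorem relsC {R : List (List ℕ)} (k : R.all (fun r => eqC r []) = true) : Rels e R :=
  fun r hr => h.ch.eqv r [] (List.all_eq_true.mp k r hr)

variable [Finite G]

theorem r4 : Rels e R4 := by
  refine rels_app (rels_app (h.relsC (by decide +kernel)) (h.fn2.rels h.l2 (by decide +kernel))) ?_
  have oc : ∀ l ∈ OL, pr e l ∈ GC e := fun l hl => h.ch.gl_le (by decide) (gl_mem _ hl)
  have n30 := normO h.ch.fn oc (h.ch.mem 30 (by decide) (by decide))
    (T := [981, 1002, 545, 562, 16, 32, 448, 384, 128, 512]) (by decide +kernel)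
  have n18 := normO h.ch.fn oc (h.ch.mem 18 (by decide) (by decide))
    (T := [2, 3, 8, 12, 32, 48, 64, 128, 256, 512]) (by decide +kernel)
  have n39 := normO h.fn2 (fun l hl => h.l2 l ((by decide : ∀ l ∈ OL, l ∈ L2) l hl))
    (h.l2 39 (by decide)) (T := [1, 2, 788, 808, 4, 8, 192, 64, 768, 256]) (by decide +kernel)
  have n : ∀ l ∈ [30, 31, 39, 40, 19], pr e l ∈ normalizer (gl (pr e) OL : Set (X × G)) :=
    fun l hl => gl_le (ls := [30, 18, 39]) (by simp [n30, n18, n39])
      (mem_gl_inv h.gp (by decide) l hl)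
  unfold Rels
  simp only [List.forall_mem_cons]
  exact ⟨h.ch.five (w := [30, 40]) (memL n rfl) (by decide +kernel) (by decide +kernel),
    h.ch.five (w := [30, 40, 31, 39, 19]) (memL n rfl) (by decide +kernel) (by decide +kernel),
    by simp⟩

theorem fn4 : Fn (G4 e) :=
  fn_cover h.ch (n := 14) (C4N.cover h.gp (rels_pr h.r4 (by decide +kernel)))
    (h.ch.gl_le (ls := N4L) (by decide)) (mem_gl_inv h.gp (ls' := [30, 31, 39, 40]) (by decide))
    (by decide) (Ws := [[], [40, 30], [39, 30], [40, 31], [39, 31], [40, 30, 40], [39, 31, 40],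
      [39, 31, 39], [39, 30, 39], [40, 31, 40], [40, 30, 39], [40, 31, 39], [39, 30, 40], [40],
      [39]]) (by decide) (by decide +kernel)

theorem l4 : ∀ l ∈ L4, pr e l ∈ G4 e := by
  have a : ∀ l ∈ L4.take 23, pr e l ∈ G4 e := mem_gl_inv h.gp (by decide)
  have b : pr e 41 ∈ G4 e := h.pdef h.d41 (by decide +kernel) ▸ mem_of_sub a (by decide)
  have c : pr e 43 ∈ G4 e := h.pdef h.d43 (by decide +kernel) ▸ mem_of_sub a (by decide)
  have d : ∀ l n, eqC [l] (pwW SL n) = true → eqB [l] (pwW SL n) = true → pr e l ∈ G4 e :=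
    fun l n k k' => h.pdef ((evL_singleton e l).symm.trans (h.ch.eqv _ _ k)) k' ▸
      gl_sub (ls := SL) (by decide) (gl_pw _ _ _)
  intro l hl
  rw [← List.take_append_drop 23 L4, List.mem_append] at hl
  rcases hl with hl | hl
  · exact a l hl
  revert l
  show ∀ l ∈ [32, 33, 35, 36, 41, 42, 43, 44], _
  simp only [List.forall_mem_cons]
  exact ⟨d 32 2056 (by decide +kernel) (by decide +kernel),
    d 33 3088 (by decide +kernel) (by decide +kernel),
    d 35 512 (by decide +kernel) (by decide +kernel),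
    d 36 516 (by decide +kernel) (by decide +kernel), b,
    (show pr e 42 = (pr e 41)⁻¹ from h.gp.inv 41) ▸ inv_mem b, c,
    (show pr e 44 = (pr e 43)⁻¹ from h.gp.inv 43) ▸ inv_mem c, by simp⟩

end Al

end Cfsg.H5.Sz
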