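import Cfsg.Agent.H5.Suz.S5
import Cfsg.Agent.H5.Suz.RE
import Cfsg.Agent.H5.Suz.RS
import Cfsg.Agent.H5.Suz.XC
import Cfsg.Agent.H5.J3O

/-!
The subgroup of index two in the centraliser of a non-central involution.
-/

set_option autoImplicit false
set_option maxRecDepth 100000
set_option linter.unusedVariables false
set_option linter.unusedSectionVars false

namespace Cfsg.H5.Sz

open Cfsg.H6 Subgroup

variable {G : Type*} [Group G] {e : ℕ → G}

theorem rels_conj {ev ev' : ℕ → G} {c : G} {ls : List ℕ} (h : ∀ l ∈ ls, ev l = c * ev' l * c⁻¹)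
    {R : List (List ℕ)} (hR : Rels ev' R) (k : R.all (fun r => sub r ls) = true) : Rels ev R := by
  intro r hr
  have := map_evL (MulAut.conj c).toMonoidHom ev' r
  rw [hR r hr, map_one] at this
  rw [this]
  exact evL_congr fun x hx =>
    h x (List.mem_of_elem_eq_true (List.all_eq_true.mp (List.all_eq_true.mp k r hr) x hx))

theorem Fn.relsS {Γ : Subgroup (X × G)} (h : Fn Γ) {L : List ℕ} (hL : ∀ l ∈ L, pr e l ∈ Γ)
    {σ R : List (List ℕ)} (k : R.all (fun r => eqL L (subst σ r) []) = true) :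
    Rels (evS e σ) R := fun r hr => by
  rw [evL_subst]; exact h.eqv hL _ [] (List.all_eq_true.mp k r hr)

theorem Ch.relsS (h : Ch e) {σ R : List (List ℕ)}
    (k : R.all (fun r => eqC (subst σ r) []) = true) : Rels (evS e σ) R := fun r hr => by
  rw [evL_subst]; exact h.eqv _ [] (List.all_eq_true.mp k r hr)

theorem cj_comm {a b : G} (c : G) (h : a * b = b * a) :
    c * a * c⁻¹ * (c * b * c⁻¹) = c * b * c⁻¹ * (c * a * c⁻¹) := by rw [conj_mul, conj_mul, h]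

open DihedralGroup in
theorem d8_orders [Finite G] {f : DihedralGroup 4 →* G} (h : H4.D8 f)
    (hb : IsConj (f (r 2)) (f (sr 0))) (hc : IsConj (f (r 2)) (f (sr 1))) :
    (∀ y : G, y ^ 3 = 1 ∨ y ^ 4 = 1 ∨ y ^ 7 = 1) ∨ ∀ y : G, y ^ 3 = 1 ∨ y ^ 4 = 1 ∨ y ^ 5 = 1 := by
  rcases h.case_one_class hb hc with ⟨⟨ψ⟩⟩ | ⟨⟨ψ⟩⟩
  · refine Or.inl fun y => ?_
    have q : ∀ n, (ψ y).1 ^ n = 1 → y ^ n = 1 := fun n e =>
      ψ.injective (by rw [map_pow, map_one]; exact Subtype.ext (by simpa using e))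
    exact (l32_orders _ (ψ y).2).imp (q _) (Or.imp (q _) (q _))
  · refine Or.inr fun y => ?_
    have q : ∀ n, (ψ y).1 ^ n = 1 → y ^ n = 1 := fun n e =>
      ψ.injective (by rw [map_pow, map_one]; exact Subtype.ext (by simpa using e))
    exact (a6_orders _ (Equiv.Perm.mem_alternatingGroup.mp (ψ y).2)).imp (q _) (Or.imp (q _) (q _))

def AW : List ℕ := [43, 36, 1, 43, 41]
def BV : List ℕ := [43, 41, 35, 22, 9]
def BW : List ℕ := [34, 43, 41, 35, 22, 9, 34]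
def EV : List ℕ := [12, 14, 1, 38, 1, 13, 11]
def EW : List ℕ := [34, 12, 14, 1, 38, 1, 13, 11, 34]

/-- Words for the dihedral group of order eight. -/
def dw : DihedralGroup 4 → List ℕ
  | .r i => rp i.val [3, 9, 35, 1]
  | .sr i => [3, 9] ++ rp i.val [3, 9, 35, 1]

def sA6 : List (List ℕ) := [[], [3, 9], [35, 1], AW, invW invX AW, BW, invW invX BW, [9]]
def sB6 : List (List ℕ) := [[], [35, 9], [3, 1, 9], [], [], BV, invW invX BV, [9]]

theorem cen8 {g : X} (hg : g ∈ gl evX DL) (k : ∀ c ∈ [[33], EW], g * vX c = vX c * g) :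
    ∃ y, g = vX (dw y) := by
  obtain ⟨w, hw, rfl, k'⟩ := brute pcD (by decide) (f := cenB [[33], EW]
    (fun v => rp (v / 4) [3, 9] ++ rp (v % 4) [3, 9, 35, 1]) 8) (by decide +kernel) hg
  obtain ⟨v, hv, E⟩ := cenB_spec (by decide)
    (fun v => inR_append (inR_rp (by decide) _) (inR_rp (by decide) _)) hw k' k
  obtain ⟨y, hy⟩ := (by decide : ∀ v < 8, ∃ y, dw y = rp (v / 4) [3, 9] ++ rp (v % 4) [3, 9, 35, 1])
    v hv
  exact ⟨y, hy ▸ E⟩

/-- The common centraliser of an alternating group of degree five. -/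
def HA (e : ℕ → G) : Subgroup G := centralizer {e 32} ⊓ centralizer {e 33} ⊓ centralizer {evL e EW}

theorem mem_HA {g : G} : g ∈ HA e ↔ (g * e 32 = e 32 * g ∧ g * e 33 = e 33 * g) ∧
    g * evL e EW = evL e EW * g := by
  simp only [HA, mem_inf, mem_centralizer_singleton_iff]

def LD : List ℕ := [34, 32, 33, 35, 36, 3, 22, 1, 9, 41, 42, 43, 44]

noncomputable def GD (e : ℕ → G) : Subgroup (X × G) := gl (pr e) (DL ++ [41, 43])

def dWs : List (List ℕ) := [[nat_lit 43, nat_lit 34, nat_lit 43, nat_lit 34, nat_lit 35, nat_lit 43, nat_lit 35], [nat_lit 41, nat_lit 43, nat_lit 34, nat_lit 43, nat_lit 34, nat_lit 35, nat_lit 43, nat_lit 35], [nat_lit 42, nat_lit 43, nat_lit 34, nat_lit 43, nat_lit 34, nat_lit 35, nat_lit 43, nat_lit 35], [nat_lit 43, nat_lit 34, nat_lit 22, nat_lit 43, nat_lit 36], [], [nat_lit 43, nat_lit 34, nat_lit 43, nat_lit 34, nat_lit 35, nat_lit 43, nat_lit 36, nat_lit 41], [nat_lit 43, nat_lit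 34, nat_lit 22, nat_lit 43, nat_lit 34, nat_lit 43, nat_lit 36], [nat_lit 41, nat_lit 43, nat_lit 34, nat_lit 22, nat_lit 43, nat_lit 34, nat_lit 43, nat_lit 36], [nat_lit 42, nat_lit 43, nat_lit 34, nat_lit 43, nat_lit 34, nat_lit 43], [nat_lit 41, nat_lit 43, nat_lit 34, nat_lit 43, nat_lit 34, nat_lit 35], [nat_lit 43, nat_lit 34, nat_lit 3, nat_lit 43, nat_lit 34, nat_lit 43, nat_lit 36, nat_lit 41], [nat_lit 43, nat_lit 34, nat_lit 43, nat_lit 34, nat_lit 22, nat_lit 43], [nat_lit 43, nat_lit 34, nat_lit 22, nat_lit 43, nat_lit 34, nat_lit 43], [nat_lit 43, nat_lit 34, nat_lit 22, nat_lit 43, nat_lit 34, nat_lit 43, nat_lit 35, nat_lit 43], [nat_lit 43, nat_lit 34, nat_lit 43, nat_lit 3, nat_lit 36], [nat_lit 43, nat_lit 34, nat_lit 22, nat_lit 43, nat_lit 35, nat_lit 42], [nat_lit 42, nat_lit 43, nat_lit 34, nat_lit 43, nat_lit 34, nat_lit 43, nat_lit 9], [nat_lit 43, nat_lit 34, nat_lit 43, nat_lit 34, nat_lit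 22, nat_lit 43, nat_lit 35, nat_lit 42], [nat_lit 41, nat_lit 43, nat_lit 34, nat_lit 3, nat_lit 43, nat_lit 34, nat_lit 43, nat_lit 3, nat_lit 35], [nat_lit 41, nat_lit 43, nat_lit 34, nat_lit 22, nat_lit 43, nat_lit 34, nat_lit 22], [nat_lit 43, nat_lit 34, nat_lit 3, nat_lit 43, nat_lit 34, nat_lit 43, nat_lit 34, nat_lit 9], [nat_lit 41, nat_lit 43, nat_lit 34, nat_lit 22, nat_lit 43, nat_lit 34, nat_lit 3], [nat_lit 43, nat_lit 34, nat_lit 43, nat_lit 34, nat_lit 35, nat_lit 43, nat_lit 3], [nat_lit 43, nat_lit 34, nat_lit 43, nat_lit 34, nat_lit 43, nat_lit 1], [nat_lit 42, nat_lit 43, nat_lit 34, nat_lit 43, nat_lit 36], [nat_lit 43, nat_lit 34, nat_lit 22, nat_lit 43, nat_lit 34, nat_lit 3, nat_lit 43], [nat_lit 43, nat_lit 34, nat_lit 3, nat_lit 43, nat_lit 34, nat_lit 43, nat_lit 34], [nat_lit 43, nat_lit 34, nat_lit 43, nat_lit 34, nat_lit 43, nat_lit 36, nat_lit 41, nat_lit 22], [nat_lit 43, nat_lit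 34, nat_lit 43, nat_lit 34, nat_lit 3, nat_lit 43, nat_lit 35, nat_lit 36], [nat_lit 41, nat_lit 43, nat_lit 34, nat_lit 43, nat_lit 34, nat_lit 3], [nat_lit 43, nat_lit 34, nat_lit 43, nat_lit 34, nat_lit 43, nat_lit 35], [nat_lit 43, nat_lit 34, nat_lit 43, nat_lit 34, nat_lit 43, nat_lit 3], [nat_lit 41, nat_lit 43, nat_lit 34, nat_lit 43, nat_lit 35], [nat_lit 42, nat_lit 43, nat_lit 34, nat_lit 3, nat_lit 43, nat_lit 34, nat_lit 43, nat_lit 35], [nat_lit 43, nat_lit 34, nat_lit 43, nat_lit 34, nat_lit 3, nat_lit 43, nat_lit 35, nat_lit 42], [nat_lit 42, nat_lit 43, nat_lit 34, nat_lit 43, nat_lit 34, nat_lit 35, nat_lit 43, nat_lit 36], [nat_lit 41, nat_lit 43, nat_lit 34, nat_lit 22, nat_lit 43, nat_lit 34, nat_lit 43, nat_lit 35], [nat_lit 43, nat_lit 34, nat_lit 43, nat_lit 34, nat_lit 43, nat_lit 3, nat_lit 35, nat_lit 42], [nat_lit 41, nat_lit 43, nat_lit 34, nat_lit 22, nat_lit 43, nat_lit 34, nat_lit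 43, nat_lit 34], [nat_lit 41, nat_lit 43, nat_lit 34, nat_lit 3, nat_lit 43, nat_lit 34], [nat_lit 41, nat_lit 43, nat_lit 34, nat_lit 22, nat_lit 43, nat_lit 35], [nat_lit 43, nat_lit 34, nat_lit 43, nat_lit 34, nat_lit 43, nat_lit 35, nat_lit 43], [nat_lit 42, nat_lit 43, nat_lit 34, nat_lit 22, nat_lit 43, nat_lit 34, nat_lit 43, nat_lit 36, nat_lit 1], [nat_lit 41, nat_lit 43, nat_lit 34, nat_lit 43, nat_lit 36], [nat_lit 42, nat_lit 43, nat_lit 34, nat_lit 3, nat_lit 43, nat_lit 34, nat_lit 43, nat_lit 3, nat_lit 36], [nat_lit 42, nat_lit 43, nat_lit 34, nat_lit 3, nat_lit 43, nat_lit 34, nat_lit 43, nat_lit 9], [nat_lit 41, nat_lit 43, nat_lit 34, nat_lit 43, nat_lit 34, nat_lit 43, nat_lit 35, nat_lit 3], [nat_lit 42, nat_lit 43, nat_lit 34, nat_lit 22, nat_lit 43, nat_lit 34, nat_lit 43, nat_lit 3, nat_lit 35], [nat_lit 41, nat_lit 43, nat_lit 34, nat_lit 3, nat_lit 43], [nat_lit 41, nat_lit 43, nat_lit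 34, nat_lit 43, nat_lit 3], [nat_lit 43, nat_lit 34, nat_lit 43, nat_lit 35, nat_lit 36], [nat_lit 43, nat_lit 34, nat_lit 43, nat_lit 34, nat_lit 43, nat_lit 35, nat_lit 9], [nat_lit 42, nat_lit 43, nat_lit 34, nat_lit 3, nat_lit 43, nat_lit 34, nat_lit 43, nat_lit 34], [nat_lit 43, nat_lit 34, nat_lit 43, nat_lit 34, nat_lit 43, nat_lit 35, nat_lit 3, nat_lit 42], [nat_lit 43, nat_lit 34, nat_lit 43, nat_lit 34, nat_lit 43, nat_lit 36, nat_lit 3, nat_lit 35], [nat_lit 42, nat_lit 43, nat_lit 35], [nat_lit 42, nat_lit 43, nat_lit 34], [nat_lit 41, nat_lit 43, nat_lit 34, nat_lit 43, nat_lit 34, nat_lit 35, nat_lit 43, nat_lit 34], [nat_lit 43, nat_lit 34, nat_lit 3, nat_lit 43, nat_lit 36], [nat_lit 42, nat_lit 43, nat_lit 34, nat_lit 3, nat_lit 43, nat_lit 34, nat_lit 22, nat_lit 43], [nat_lit 41, nat_lit 43, nat_lit 34, nat_lit 43, nat_lit 34, nat_lit 22, nat_lit 43], [nat_lit 43, nat_lit 34, nat_lit 3, nat_lit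 43, nat_lit 34, nat_lit 22, nat_lit 42], [nat_lit 43, nat_lit 34, nat_lit 43, nat_lit 34, nat_lit 35, nat_lit 3, nat_lit 22], [nat_lit 41, nat_lit 43, nat_lit 34, nat_lit 43, nat_lit 34, nat_lit 43, nat_lit 35, nat_lit 22, nat_lit 36], [nat_lit 43, nat_lit 34, nat_lit 43, nat_lit 34, nat_lit 22, nat_lit 42], [nat_lit 42, nat_lit 43, nat_lit 34, nat_lit 3, nat_lit 43, nat_lit 34, nat_lit 22], [nat_lit 42, nat_lit 43, nat_lit 34, nat_lit 43, nat_lit 34, nat_lit 43, nat_lit 3, nat_lit 36], [nat_lit 42, nat_lit 43], [nat_lit 42, nat_lit 43, nat_lit 34, nat_lit 3], [nat_lit 43, nat_lit 34, nat_lit 3, nat_lit 43, nat_lit 34, nat_lit 3, nat_lit 41], [nat_lit 43, nat_lit 34, nat_lit 3, nat_lit 43, nat_lit 34, nat_lit 22, nat_lit 43, nat_lit 35], [nat_lit 43, nat_lit 34, nat_lit 43, nat_lit 34, nat_lit 43, nat_lit 3, nat_lit 35], [nat_lit 43, nat_lit 34, nat_lit 22, nat_lit 43, nat_lit 34, nat_lit 3, nat_lit 43, nat_lit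 36, nat_lit 41], [nat_lit 43, nat_lit 34, nat_lit 43, nat_lit 34, nat_lit 35, nat_lit 22, nat_lit 42], [nat_lit 43, nat_lit 34, nat_lit 43, nat_lit 34, nat_lit 43, nat_lit 35, nat_lit 22], [nat_lit 41, nat_lit 43, nat_lit 34, nat_lit 43, nat_lit 3, nat_lit 35], [nat_lit 42, nat_lit 43, nat_lit 34, nat_lit 43, nat_lit 34, nat_lit 35], [nat_lit 41, nat_lit 43, nat_lit 34, nat_lit 43, nat_lit 34, nat_lit 35, nat_lit 22], [nat_lit 43, nat_lit 34, nat_lit 43, nat_lit 34, nat_lit 35], [nat_lit 42, nat_lit 43, nat_lit 34, nat_lit 43, nat_lit 34, nat_lit 43, nat_lit 3, nat_lit 35], [nat_lit 42, nat_lit 43, nat_lit 34, nat_lit 22, nat_lit 43, nat_lit 34, nat_lit 3, nat_lit 43], [nat_lit 43, nat_lit 34, nat_lit 43, nat_lit 34, nat_lit 22, nat_lit 43, nat_lit 35], [nat_lit 41, nat_lit 43, nat_lit 34, nat_lit 3, nat_lit 43, nat_lit 34, nat_lit 22], [nat_lit 42, nat_lit 43, nat_lit 34, nat_lit 22, nat_lit 43, nat_lit 34, nat_lit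 43, nat_lit 36], [nat_lit 43, nat_lit 34, nat_lit 43, nat_lit 34, nat_lit 43, nat_lit 9, nat_lit 41, nat_lit 35], [nat_lit 41, nat_lit 43, nat_lit 34, nat_lit 43, nat_lit 34, nat_lit 35, nat_lit 43], [nat_lit 43, nat_lit 34, nat_lit 43, nat_lit 34, nat_lit 35, nat_lit 3], [nat_lit 42, nat_lit 43, nat_lit 34, nat_lit 3, nat_lit 43, nat_lit 34, nat_lit 43, nat_lit 36], [nat_lit 43, nat_lit 34, nat_lit 22, nat_lit 43, nat_lit 34, nat_lit 43, nat_lit 3], [nat_lit 41, nat_lit 43, nat_lit 34, nat_lit 22, nat_lit 43, nat_lit 34, nat_lit 43, nat_lit 36, nat_lit 1], [nat_lit 43, nat_lit 34, nat_lit 43, nat_lit 34, nat_lit 43, nat_lit 35, nat_lit 43, nat_lit 9], [nat_lit 41, nat_lit 43, nat_lit 34, nat_lit 43, nat_lit 34, nat_lit 3, nat_lit 43, nat_lit 35], [nat_lit 43, nat_lit 34, nat_lit 43, nat_lit 34, nat_lit 35, nat_lit 3, nat_lit 41], [nat_lit 43, nat_lit 34, nat_lit 22, nat_lit 43, nat_lit 34, nat_lit 3, nat_lit 22],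 [nat_lit 41, nat_lit 43, nat_lit 34, nat_lit 3, nat_lit 43, nat_lit 34, nat_lit 43, nat_lit 36, nat_lit 9], [nat_lit 42, nat_lit 43, nat_lit 34, nat_lit 22], [nat_lit 43, nat_lit 34, nat_lit 3, nat_lit 43, nat_lit 34, nat_lit 43, nat_lit 35, nat_lit 9], [nat_lit 41, nat_lit 43, nat_lit 34, nat_lit 43, nat_lit 34, nat_lit 43, nat_lit 35, nat_lit 1], [nat_lit 42, nat_lit 43, nat_lit 34, nat_lit 43, nat_lit 34, nat_lit 43, nat_lit 35, nat_lit 22], [nat_lit 43, nat_lit 34, nat_lit 3], [nat_lit 41, nat_lit 43, nat_lit 34], [nat_lit 42, nat_lit 43, nat_lit 34, nat_lit 43, nat_lit 34, nat_lit 3, nat_lit 43, nat_lit 35], [nat_lit 43, nat_lit 34, nat_lit 43, nat_lit 34, nat_lit 3, nat_lit 43, nat_lit 36], [nat_lit 41, nat_lit 43, nat_lit 34, nat_lit 22, nat_lit 43, nat_lit 34, nat_lit 3, nat_lit 43], [nat_lit 43, nat_lit 34, nat_lit 3, nat_lit 22], [nat_lit 43, nat_lit 34, nat_lit 3, nat_lit 41], [nat_lit 43, nat_lit 36,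 nat_lit 41], [nat_lit 43, nat_lit 34, nat_lit 22, nat_lit 42], [nat_lit 43, nat_lit 34, nat_lit 43, nat_lit 34, nat_lit 43, nat_lit 35, nat_lit 22, nat_lit 42], [nat_lit 43, nat_lit 34, nat_lit 43, nat_lit 34, nat_lit 43, nat_lit 36, nat_lit 41], [nat_lit 42, nat_lit 43, nat_lit 34, nat_lit 22, nat_lit 43], [nat_lit 43, nat_lit 34, nat_lit 22, nat_lit 43, nat_lit 34, nat_lit 43, nat_lit 35, nat_lit 42], [nat_lit 43, nat_lit 34, nat_lit 43], [nat_lit 42, nat_lit 43, nat_lit 34, nat_lit 43, nat_lit 34, nat_lit 3, nat_lit 43, nat_lit 36], [nat_lit 43, nat_lit 34, nat_lit 43, nat_lit 34, nat_lit 3, nat_lit 41], [nat_lit 43, nat_lit 34, nat_lit 43, nat_lit 34, nat_lit 22, nat_lit 43, nat_lit 35, nat_lit 43], [nat_lit 43, nat_lit 34, nat_lit 43, nat_lit 34, nat_lit 22], [nat_lit 42, nat_lit 43, nat_lit 34, nat_lit 22, nat_lit 43, nat_lit 34, nat_lit 3, nat_lit 43, nat_lit 36], [nat_lit 43, nat_lit 34, nat_lit 43, nat_lit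 34, nat_lit 3], [nat_lit 42, nat_lit 43, nat_lit 34, nat_lit 43, nat_lit 34, nat_lit 43, nat_lit 35], [nat_lit 41, nat_lit 43, nat_lit 34, nat_lit 3, nat_lit 43, nat_lit 34, nat_lit 43, nat_lit 35], [nat_lit 41, nat_lit 43, nat_lit 34, nat_lit 43, nat_lit 34, nat_lit 35, nat_lit 43, nat_lit 36], [nat_lit 43, nat_lit 34, nat_lit 22, nat_lit 43, nat_lit 34, nat_lit 43, nat_lit 35], [nat_lit 42, nat_lit 43, nat_lit 34, nat_lit 43, nat_lit 34, nat_lit 43, nat_lit 3], [nat_lit 43, nat_lit 34, nat_lit 3, nat_lit 43, nat_lit 34, nat_lit 43, nat_lit 34, nat_lit 3], [nat_lit 42, nat_lit 43, nat_lit 34, nat_lit 43, nat_lit 35], [nat_lit 42, nat_lit 43, nat_lit 36], [nat_lit 42, nat_lit 43, nat_lit 34, nat_lit 3, nat_lit 43, nat_lit 34, nat_lit 3], [nat_lit 43, nat_lit 34, nat_lit 3, nat_lit 43, nat_lit 35, nat_lit 42], [nat_lit 43, nat_lit 34, nat_lit 43, nat_lit 34, nat_lit 43, nat_lit 36, nat_lit 1], [nat_lit 41, nat_lit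 43, nat_lit 34, nat_lit 3, nat_lit 43, nat_lit 34, nat_lit 43, nat_lit 36], [nat_lit 42, nat_lit 43, nat_lit 34, nat_lit 43, nat_lit 34, nat_lit 43, nat_lit 35, nat_lit 22, nat_lit 36], [nat_lit 43, nat_lit 34, nat_lit 43, nat_lit 34, nat_lit 43, nat_lit 1, nat_lit 42], [nat_lit 42, nat_lit 43, nat_lit 34, nat_lit 22, nat_lit 43, nat_lit 34], [nat_lit 43, nat_lit 34, nat_lit 3, nat_lit 43, nat_lit 34, nat_lit 22, nat_lit 43, nat_lit 34], [nat_lit 41, nat_lit 43, nat_lit 34, nat_lit 22, nat_lit 43, nat_lit 34, nat_lit 43, nat_lit 3, nat_lit 35], [nat_lit 42, nat_lit 43, nat_lit 34, nat_lit 3, nat_lit 43, nat_lit 34, nat_lit 43, nat_lit 3, nat_lit 35], [nat_lit 43, nat_lit 34, nat_lit 3, nat_lit 43, nat_lit 34, nat_lit 43, nat_lit 3], [nat_lit 43, nat_lit 34, nat_lit 22, nat_lit 43, nat_lit 34, nat_lit 3, nat_lit 43, nat_lit 36], [nat_lit 43, nat_lit 34, nat_lit 3, nat_lit 43, nat_lit 34, nat_lit 43, nat_lit 34, nat_lit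 22], [nat_lit 43, nat_lit 34, nat_lit 43, nat_lit 34], [nat_lit 43, nat_lit 34, nat_lit 43, nat_lit 36, nat_lit 41, nat_lit 1], [nat_lit 43, nat_lit 34, nat_lit 3, nat_lit 43, nat_lit 34, nat_lit 22], [nat_lit 43, nat_lit 35, nat_lit 36], [nat_lit 42, nat_lit 43, nat_lit 34, nat_lit 3, nat_lit 43, nat_lit 34], [nat_lit 43, nat_lit 34, nat_lit 3, nat_lit 43, nat_lit 36, nat_lit 41], [nat_lit 43, nat_lit 34, nat_lit 43, nat_lit 34, nat_lit 3, nat_lit 43], [nat_lit 43, nat_lit 34, nat_lit 43, nat_lit 34, nat_lit 43, nat_lit 3, nat_lit 36], [nat_lit 42, nat_lit 43, nat_lit 34, nat_lit 43, nat_lit 34, nat_lit 43, nat_lit 36], [nat_lit 42, nat_lit 43, nat_lit 34, nat_lit 3, nat_lit 43, nat_lit 34, nat_lit 43], [nat_lit 41, nat_lit 43, nat_lit 34, nat_lit 3, nat_lit 43, nat_lit 34, nat_lit 43, nat_lit 3, nat_lit 36], [nat_lit 43, nat_lit 34, nat_lit 3, nat_lit 43, nat_lit 34, nat_lit 43, nat_lit 35, nat_lit 36, nat_lit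 9], [nat_lit 43, nat_lit 34, nat_lit 22, nat_lit 43, nat_lit 34, nat_lit 43, nat_lit 3, nat_lit 36], [nat_lit 42, nat_lit 43, nat_lit 34, nat_lit 43, nat_lit 34, nat_lit 35, nat_lit 22], [nat_lit 42, nat_lit 43, nat_lit 34, nat_lit 3, nat_lit 43, nat_lit 34, nat_lit 43, nat_lit 3], [nat_lit 42, nat_lit 43, nat_lit 34, nat_lit 22, nat_lit 43, nat_lit 34, nat_lit 3], [nat_lit 43, nat_lit 34, nat_lit 43, nat_lit 34, nat_lit 43, nat_lit 35, nat_lit 3, nat_lit 41], [nat_lit 41, nat_lit 43, nat_lit 34, nat_lit 3, nat_lit 43, nat_lit 34, nat_lit 43], [nat_lit 42, nat_lit 43, nat_lit 34, nat_lit 43, nat_lit 3, nat_lit 36], [nat_lit 43, nat_lit 34, nat_lit 43, nat_lit 34, nat_lit 3, nat_lit 43, nat_lit 36, nat_lit 41], [nat_lit 41, nat_lit 43, nat_lit 34, nat_lit 43, nat_lit 34, nat_lit 43, nat_lit 35, nat_lit 22], [nat_lit 43, nat_lit 34, nat_lit 22, nat_lit 43, nat_lit 35], [nat_lit 41, nat_lit 43, nat_lit 34, nat_lit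 3, nat_lit 43, nat_lit 34, nat_lit 22, nat_lit 43, nat_lit 35], [nat_lit 41, nat_lit 43, nat_lit 34, nat_lit 43], [nat_lit 43, nat_lit 34, nat_lit 3, nat_lit 43, nat_lit 34, nat_lit 43, nat_lit 36, nat_lit 9], [nat_lit 43, nat_lit 34, nat_lit 43, nat_lit 34, nat_lit 43, nat_lit 1, nat_lit 42, nat_lit 36], [nat_lit 41, nat_lit 43, nat_lit 34, nat_lit 22, nat_lit 43, nat_lit 34, nat_lit 43, nat_lit 3], [nat_lit 41, nat_lit 43, nat_lit 34, nat_lit 22, nat_lit 43, nat_lit 34, nat_lit 43, nat_lit 3, nat_lit 36], [nat_lit 41, nat_lit 43, nat_lit 34, nat_lit 43, nat_lit 34, nat_lit 43, nat_lit 9], [nat_lit 43, nat_lit 35], [nat_lit 42, nat_lit 43, nat_lit 34, nat_lit 43, nat_lit 34, nat_lit 43, nat_lit 35, nat_lit 3], [nat_lit 42, nat_lit 43, nat_lit 34, nat_lit 43, nat_lit 34], [nat_lit 42, nat_lit 43, nat_lit 34, nat_lit 43, nat_lit 34, nat_lit 43, nat_lit 35, nat_lit 43], [nat_lit 42, nat_lit 43, nat_lit 34, nat_lit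 3, nat_lit 43, nat_lit 34, nat_lit 22, nat_lit 43, nat_lit 35], [nat_lit 43, nat_lit 34, nat_lit 22, nat_lit 43, nat_lit 34], [nat_lit 42, nat_lit 43, nat_lit 34, nat_lit 22, nat_lit 43, nat_lit 34, nat_lit 43, nat_lit 35], [nat_lit 43, nat_lit 34, nat_lit 43, nat_lit 35], [nat_lit 42, nat_lit 43, nat_lit 34, nat_lit 43, nat_lit 34, nat_lit 3], [nat_lit 41, nat_lit 43, nat_lit 34, nat_lit 43, nat_lit 34, nat_lit 43, nat_lit 3], [nat_lit 43, nat_lit 34, nat_lit 43, nat_lit 34, nat_lit 35, nat_lit 43, nat_lit 36], [nat_lit 41, nat_lit 43, nat_lit 34, nat_lit 43, nat_lit 34, nat_lit 43, nat_lit 35], [nat_lit 43, nat_lit 34, nat_lit 3, nat_lit 43, nat_lit 34, nat_lit 43, nat_lit 35], [nat_lit 43, nat_lit 34, nat_lit 43, nat_lit 34, nat_lit 22, nat_lit 43, nat_lit 36, nat_lit 41], [nat_lit 43, nat_lit 34, nat_lit 43, nat_lit 34, nat_lit 43, nat_lit 9], [nat_lit 42, nat_lit 43, nat_lit 34, nat_lit 43, nat_lit 34, nat_lit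 43, nat_lit 1], [nat_lit 43, nat_lit 34, nat_lit 43, nat_lit 34, nat_lit 22, nat_lit 43, nat_lit 36], [nat_lit 41, nat_lit 43, nat_lit 34, nat_lit 22, nat_lit 43, nat_lit 34, nat_lit 43], [nat_lit 41, nat_lit 43, nat_lit 34, nat_lit 43, nat_lit 34, nat_lit 43, nat_lit 3, nat_lit 36], [nat_lit 43, nat_lit 34, nat_lit 43, nat_lit 34, nat_lit 22, nat_lit 43, nat_lit 35, nat_lit 36], [nat_lit 42, nat_lit 43, nat_lit 34, nat_lit 22, nat_lit 43, nat_lit 35], [nat_lit 43, nat_lit 34, nat_lit 43, nat_lit 34, nat_lit 43], [nat_lit 43, nat_lit 34, nat_lit 3, nat_lit 43], [nat_lit 43, nat_lit 34, nat_lit 43, nat_lit 36], [nat_lit 43, nat_lit 34, nat_lit 3, nat_lit 43, nat_lit 34, nat_lit 43, nat_lit 9], [nat_lit 42, nat_lit 43, nat_lit 34, nat_lit 22, nat_lit 43, nat_lit 36], [nat_lit 43, nat_lit 34, nat_lit 22, nat_lit 43, nat_lit 34, nat_lit 22], [nat_lit 43, nat_lit 34, nat_lit 43, nat_lit 35, nat_lit 36, nat_lit 22], [nat_lit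 41, nat_lit 43, nat_lit 34, nat_lit 43, nat_lit 34, nat_lit 43, nat_lit 36, nat_lit 3, nat_lit 41], [nat_lit 43, nat_lit 35, nat_lit 42], [nat_lit 42, nat_lit 43, nat_lit 34, nat_lit 43], [nat_lit 43, nat_lit 34, nat_lit 43, nat_lit 3], [nat_lit 41, nat_lit 43, nat_lit 34, nat_lit 3], [nat_lit 43, nat_lit 34], [nat_lit 43, nat_lit 34, nat_lit 43, nat_lit 34, nat_lit 43, nat_lit 36], [nat_lit 41, nat_lit 43], [nat_lit 43, nat_lit 34, nat_lit 3, nat_lit 43, nat_lit 34, nat_lit 43, nat_lit 3, nat_lit 36], [nat_lit 41, nat_lit 43, nat_lit 34, nat_lit 43, nat_lit 34, nat_lit 43, nat_lit 36, nat_lit 9], [nat_lit 42, nat_lit 43, nat_lit 34, nat_lit 43, nat_lit 34, nat_lit 22], [nat_lit 43, nat_lit 34, nat_lit 43, nat_lit 34, nat_lit 43, nat_lit 35, nat_lit 42], [nat_lit 43, nat_lit 34, nat_lit 43, nat_lit 34, nat_lit 35, nat_lit 43, nat_lit 34], [nat_lit 43, nat_lit 34, nat_lit 3, nat_lit 43, nat_lit 34, nat_lit 43, nat_lit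 3, nat_lit 35, nat_lit 42], [nat_lit 41, nat_lit 43, nat_lit 34, nat_lit 22], [nat_lit 41, nat_lit 43, nat_lit 34, nat_lit 43, nat_lit 34, nat_lit 22], [nat_lit 43, nat_lit 34, nat_lit 22, nat_lit 43, nat_lit 34, nat_lit 3], [nat_lit 43, nat_lit 34, nat_lit 43, nat_lit 34, nat_lit 43, nat_lit 36, nat_lit 41, nat_lit 1], [nat_lit 42, nat_lit 43, nat_lit 34, nat_lit 22, nat_lit 43, nat_lit 34, nat_lit 43, nat_lit 3], [nat_lit 41, nat_lit 43, nat_lit 34, nat_lit 43, nat_lit 34, nat_lit 43, nat_lit 35, nat_lit 43], [nat_lit 43, nat_lit 34, nat_lit 43, nat_lit 36, nat_lit 41], [nat_lit 41, nat_lit 43, nat_lit 34, nat_lit 43, nat_lit 34, nat_lit 43, nat_lit 35, nat_lit 43, nat_lit 9], [nat_lit 43, nat_lit 34, nat_lit 3, nat_lit 43, nat_lit 34, nat_lit 43], [nat_lit 43, nat_lit 34, nat_lit 43, nat_lit 34, nat_lit 43, nat_lit 36, nat_lit 3, nat_lit 41], [nat_lit 43, nat_lit 34, nat_lit 22, nat_lit 43, nat_lit 34, nat_lit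 43, nat_lit 3, nat_lit 35], [nat_lit 43, nat_lit 34, nat_lit 22, nat_lit 43, nat_lit 35, nat_lit 36], [nat_lit 43, nat_lit 34, nat_lit 43, nat_lit 34, nat_lit 43, nat_lit 9, nat_lit 41], [nat_lit 41, nat_lit 43, nat_lit 34, nat_lit 43, nat_lit 34, nat_lit 43, nat_lit 3, nat_lit 35], [nat_lit 41, nat_lit 43, nat_lit 34, nat_lit 43, nat_lit 34, nat_lit 43, nat_lit 36], [nat_lit 43, nat_lit 34, nat_lit 3, nat_lit 43, nat_lit 34, nat_lit 43, nat_lit 3, nat_lit 35], [nat_lit 42, nat_lit 43, nat_lit 34, nat_lit 3, nat_lit 43, nat_lit 34, nat_lit 43, nat_lit 35, nat_lit 9], [nat_lit 43, nat_lit 34, nat_lit 22, nat_lit 43, nat_lit 36, nat_lit 41], [nat_lit 41, nat_lit 43, nat_lit 34, nat_lit 43, nat_lit 34, nat_lit 22, nat_lit 43, nat_lit 36], [nat_lit 42, nat_lit 43, nat_lit 34, nat_lit 22, nat_lit 43, nat_lit 34, nat_lit 43], [nat_lit 43, nat_lit 34, nat_lit 43, nat_lit 34, nat_lit 43, nat_lit 35, nat_lit 9, nat_lit 41],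 [nat_lit 41, nat_lit 43, nat_lit 34, nat_lit 22, nat_lit 43, nat_lit 34], [nat_lit 43, nat_lit 34, nat_lit 3, nat_lit 43, nat_lit 34], [nat_lit 41, nat_lit 43, nat_lit 34, nat_lit 3, nat_lit 43, nat_lit 34, nat_lit 43, nat_lit 34], [nat_lit 43, nat_lit 34, nat_lit 43, nat_lit 34, nat_lit 43, nat_lit 36, nat_lit 1, nat_lit 41], [nat_lit 42, nat_lit 43, nat_lit 34, nat_lit 43, nat_lit 3], [nat_lit 43, nat_lit 34, nat_lit 43, nat_lit 35, nat_lit 42], [nat_lit 43, nat_lit 34, nat_lit 43, nat_lit 34, nat_lit 35, nat_lit 43], [nat_lit 43, nat_lit 34, nat_lit 22], [nat_lit 43, nat_lit 34, nat_lit 43, nat_lit 34, nat_lit 3, nat_lit 43, nat_lit 34, nat_lit 22], [nat_lit 43, nat_lit 34, nat_lit 22, nat_lit 43, nat_lit 34, nat_lit 43, nat_lit 34], [nat_lit 42, nat_lit 43, nat_lit 34, nat_lit 43, nat_lit 34, nat_lit 22, nat_lit 43, nat_lit 36], [nat_lit 41, nat_lit 43, nat_lit 34, nat_lit 22, nat_lit 43], [nat_lit 43, nat_lit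 34, nat_lit 43, nat_lit 34, nat_lit 43, nat_lit 35, nat_lit 3, nat_lit 36], [nat_lit 42, nat_lit 43, nat_lit 34, nat_lit 43, nat_lit 34, nat_lit 22, nat_lit 43], [nat_lit 41, nat_lit 43, nat_lit 34, nat_lit 43, nat_lit 34, nat_lit 22, nat_lit 43, nat_lit 35], [nat_lit 42, nat_lit 43, nat_lit 34, nat_lit 3, nat_lit 43], [nat_lit 42, nat_lit 43, nat_lit 34, nat_lit 22, nat_lit 43, nat_lit 34, nat_lit 43, nat_lit 3, nat_lit 36], [nat_lit 43, nat_lit 34, nat_lit 22, nat_lit 43, nat_lit 34, nat_lit 22, nat_lit 42], [nat_lit 43, nat_lit 34, nat_lit 43, nat_lit 3, nat_lit 35], [nat_lit 41, nat_lit 43, nat_lit 34, nat_lit 43, nat_lit 34, nat_lit 43, nat_lit 36, nat_lit 3], [nat_lit 43, nat_lit 34, nat_lit 43, nat_lit 34, nat_lit 43, nat_lit 35, nat_lit 42, nat_lit 9], [nat_lit 41, nat_lit 43, nat_lit 34, nat_lit 43, nat_lit 34, nat_lit 43, nat_lit 35, nat_lit 9], [nat_lit 42, nat_lit 43, nat_lit 34, nat_lit 3, nat_lit 43,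 nat_lit 35], [nat_lit 42, nat_lit 43, nat_lit 34, nat_lit 43, nat_lit 34, nat_lit 43, nat_lit 36, nat_lit 1], [nat_lit 41, nat_lit 43, nat_lit 34, nat_lit 3, nat_lit 43, nat_lit 34, nat_lit 43, nat_lit 3], [nat_lit 43, nat_lit 34, nat_lit 43, nat_lit 34, nat_lit 43, nat_lit 35, nat_lit 43, nat_lit 1], [nat_lit 43, nat_lit 34, nat_lit 43, nat_lit 34, nat_lit 43, nat_lit 36, nat_lit 1, nat_lit 42], [nat_lit 43, nat_lit 34, nat_lit 3, nat_lit 43, nat_lit 34, nat_lit 43, nat_lit 34, nat_lit 1], [nat_lit 43, nat_lit 34, nat_lit 3, nat_lit 43, nat_lit 34, nat_lit 43, nat_lit 36], [nat_lit 42, nat_lit 43, nat_lit 34, nat_lit 43, nat_lit 34, nat_lit 3, nat_lit 43], [nat_lit 42, nat_lit 43, nat_lit 34, nat_lit 43, nat_lit 34, nat_lit 35, nat_lit 3], [nat_lit 41, nat_lit 43, nat_lit 34, nat_lit 43, nat_lit 34, nat_lit 3, nat_lit 43], [nat_lit 41, nat_lit 43, nat_lit 34, nat_lit 3, nat_lit 43, nat_lit 35], [nat_lit 42, nat_lit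 43, nat_lit 34, nat_lit 3, nat_lit 43, nat_lit 36], [nat_lit 41, nat_lit 43, nat_lit 34, nat_lit 43, nat_lit 34], [nat_lit 43, nat_lit 34, nat_lit 22, nat_lit 43, nat_lit 34, nat_lit 43, nat_lit 1], [nat_lit 43, nat_lit 34, nat_lit 43, nat_lit 34, nat_lit 35, nat_lit 22], [nat_lit 41, nat_lit 43, nat_lit 34, nat_lit 43, nat_lit 34, nat_lit 43, nat_lit 35, nat_lit 43, nat_lit 1], [nat_lit 43, nat_lit 34, nat_lit 3, nat_lit 43, nat_lit 34, nat_lit 22, nat_lit 43], [nat_lit 43, nat_lit 36], [nat_lit 43, nat_lit 34, nat_lit 22, nat_lit 43], [nat_lit 41, nat_lit 43, nat_lit 34, nat_lit 3, nat_lit 43, nat_lit 36], [nat_lit 41, nat_lit 43, nat_lit 36], [nat_lit 43, nat_lit 34, nat_lit 43, nat_lit 35, nat_lit 42, nat_lit 9], [nat_lit 42, nat_lit 43, nat_lit 34, nat_lit 43, nat_lit 34, nat_lit 22, nat_lit 43, nat_lit 35], [nat_lit 43, nat_lit 34, nat_lit 3, nat_lit 43, nat_lit 34, nat_lit 3, nat_lit 22], [nat_lit 43, nat_lit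 34, nat_lit 3, nat_lit 43, nat_lit 35], [nat_lit 41, nat_lit 43, nat_lit 35], [nat_lit 41, nat_lit 43, nat_lit 34, nat_lit 43, nat_lit 3, nat_lit 36], [nat_lit 43], [nat_lit 43, nat_lit 34, nat_lit 43, nat_lit 34, nat_lit 3, nat_lit 22], [nat_lit 43, nat_lit 34, nat_lit 43, nat_lit 34, nat_lit 43, nat_lit 35, nat_lit 22, nat_lit 36], [nat_lit 42, nat_lit 43, nat_lit 34, nat_lit 22, nat_lit 43, nat_lit 34, nat_lit 22], [nat_lit 41, nat_lit 43, nat_lit 34, nat_lit 43, nat_lit 34, nat_lit 43], [nat_lit 41, nat_lit 43, nat_lit 34, nat_lit 3, nat_lit 43, nat_lit 34, nat_lit 3], [nat_lit 43, nat_lit 34, nat_lit 43, nat_lit 34, nat_lit 43, nat_lit 36, nat_lit 3], [nat_lit 43, nat_lit 34, nat_lit 43, nat_lit 34, nat_lit 43, nat_lit 3, nat_lit 36, nat_lit 41], [nat_lit 43, nat_lit 34, nat_lit 43, nat_lit 34, nat_lit 3, nat_lit 43, nat_lit 34], [nat_lit 43, nat_lit 34, nat_lit 43, nat_lit 34, nat_lit 43, nat_lit 35, nat_lit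 3], [nat_lit 41, nat_lit 43, nat_lit 34, nat_lit 3, nat_lit 43, nat_lit 34, nat_lit 22, nat_lit 43], [nat_lit 41, nat_lit 43, nat_lit 34, nat_lit 22, nat_lit 43, nat_lit 34, nat_lit 3, nat_lit 43, nat_lit 36], [nat_lit 43, nat_lit 34, nat_lit 3, nat_lit 43, nat_lit 34, nat_lit 43, nat_lit 34, nat_lit 35], [nat_lit 41, nat_lit 43, nat_lit 34, nat_lit 22, nat_lit 43, nat_lit 34, nat_lit 43, nat_lit 1], [nat_lit 41, nat_lit 43, nat_lit 34, nat_lit 3, nat_lit 43, nat_lit 34, nat_lit 43, nat_lit 35, nat_lit 9], [nat_lit 42, nat_lit 43, nat_lit 34, nat_lit 43, nat_lit 34, nat_lit 43, nat_lit 36, nat_lit 3], [nat_lit 42, nat_lit 43, nat_lit 34, nat_lit 43, nat_lit 34, nat_lit 43, nat_lit 35, nat_lit 9], [nat_lit 41, nat_lit 43, nat_lit 34, nat_lit 3, nat_lit 43, nat_lit 34, nat_lit 43, nat_lit 9], [nat_lit 42, nat_lit 43, nat_lit 34, nat_lit 43, nat_lit 34, nat_lit 35, nat_lit 43], [nat_lit 43, nat_lit 34, nat_lit 22,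 nat_lit 43, nat_lit 34, nat_lit 43, nat_lit 36, nat_lit 1], [nat_lit 42, nat_lit 43, nat_lit 34, nat_lit 43, nat_lit 3, nat_lit 35], [nat_lit 41, nat_lit 43, nat_lit 34, nat_lit 43, nat_lit 34, nat_lit 35, nat_lit 3], [nat_lit 41, nat_lit 43, nat_lit 34, nat_lit 43, nat_lit 34, nat_lit 3, nat_lit 43, nat_lit 36], [nat_lit 43, nat_lit 34, nat_lit 43, nat_lit 34, nat_lit 3, nat_lit 43, nat_lit 35], [nat_lit 43, nat_lit 34, nat_lit 22, nat_lit 43, nat_lit 34, nat_lit 3, nat_lit 41], [nat_lit 42], [nat_lit 41, nat_lit 43, nat_lit 34, nat_lit 43, nat_lit 34, nat_lit 43, nat_lit 36, nat_lit 1], [nat_lit 43, nat_lit 34, nat_lit 3, nat_lit 43, nat_lit 35, nat_lit 36], [nat_lit 43, nat_lit 34, nat_lit 3, nat_lit 43, nat_lit 34, nat_lit 43, nat_lit 35, nat_lit 36], [nat_lit 43, nat_lit 34, nat_lit 3, nat_lit 43, nat_lit 34, nat_lit 3], [nat_lit 42, nat_lit 43, nat_lit 34, nat_lit 22, nat_lit 43, nat_lit 34, nat_lit 43, nat_lit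 1], [nat_lit 41, nat_lit 43, nat_lit 34, nat_lit 43, nat_lit 34, nat_lit 43, nat_lit 1], [nat_lit 41], [nat_lit 41, nat_lit 43, nat_lit 34, nat_lit 22, nat_lit 43, nat_lit 36]]

namespace Al

variable (h : Al e) [Finite G]
include h

theorem via {A k p E E2 : List ℕ} (k1 : eqL L4 (A ++ k) (k ++ p) = true)
    (k2 : eqC (E ++ k) (k ++ E2) = true) (k3 : eqL L2 (p ++ E2) (E2 ++ p) = true) :
    evL e A * evL e E = evL e E * evL e A := by
  have k1 := h.fn4.eqv h.l4 _ _ k1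
  have k2 := h.ch.eqv _ _ k2
  have k3 := h.fn2.eqv h.l2 _ _ k3
  simp only [evL_append] at k1 k2 k3
  rw [eq_mul_inv_of_mul_eq k1, eq_mul_inv_of_mul_eq k2]
  exact cj_comm _ k3

theorem i34 : (e 34)⁻¹ = e 34 := (h.good.inv 34).symm

theorem cr {w v : List ℕ} (k : eqC w (34 :: v ++ [34]) = true) :
    evL e w = e 34 * evL e v * (e 34)⁻¹ := by
  rw [h.ch.eqv _ _ k, evL_append, evL_cons, evL_singleton, h.i34]

theorem eB : evL e BW = e 34 * evL e BV * (e 34)⁻¹ := by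
  rw [h.i34, ← evL_cons, ← evL_singleton e 34, ← evL_append]; rfl

theorem comm4 (w v : List ℕ) (k : eqL L4 (w ++ v) (v ++ w) = true) :
    evL e w * evL e v = evL e v * evL e w := by
  simpa only [evL_append] using h.fn4.eqv h.l4 _ _ k

theorem AH : evL e AW ∈ HA e :=
  mem_HA.mpr ⟨⟨by simpa only [evL_singleton] using h.comm4 AW [32] (by decide +kernel),
    by simpa only [evL_singleton] using h.comm4 AW [33] (by decide +kernel)⟩,
    h.via (k := [30]) (p := [1, 3, 4, 39, 39]) (E2 := [23, 24, 26, 22, 3, 4, 5, 7, 9, 19, 21])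
      (by decide +kernel) (by decide +kernel) (by decide +kernel)⟩

theorem BH : evL e BW ∈ HA e := by
  rw [mem_HA, h.eB, ← evL_singleton e 32, ← evL_singleton e 33,
    h.cr (w := [32]) (v := [32]) (by decide +kernel),
    h.cr (w := [33]) (v := [32, 33]) (by decide +kernel),
    h.cr (w := EW) (v := EV) (by decide +kernel)]
  exact ⟨⟨cj_comm _ (h.comm4 _ _ (by decide +kernel)), cj_comm _ (h.comm4 _ _ (by decide +kernel))⟩,
    cj_comm _ (h.via (k := [31]) (p := [1, 39, 39]) (E2 := [20, 20, 19, 20, 20])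
      (by decide +kernel) (by decide +kernel) (by decide +kernel))⟩

theorem good6 : Good (evS e sA6) 505817143170957568 := by
  have : evS e sA6 = fun l => (sA6.map (evL e)).getD l 1 := funext fun l => by
    unfold evS
    rw [← evL_nil e, List.getD_map]
  rw [this]
  refine good_list (n := 8) rfl (by decide) rfl fun l hl => ?_
  have q : ∀ w, eqC (w ++ w) [] = true → evL e w = (evL e w)⁻¹ := fun w k =>
    eq_inv_of_mul_eq_one_left ((evL_append _ _ _).symm.trans (h.ch.eqv _ _ k))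
  interval_cases l
  exacts [inv_one.symm, q _ (by decide +kernel), q _ (by decide +kernel), evL_invW h.good AW,
    (inv_inv _).symm.trans (congrArg _ (evL_invW h.good AW).symm), evL_invW h.good BW,
    (inv_inv _).symm.trans (congrArg _ (evL_invW h.good BW).symm), q _ (by decide +kernel)]

theorem rels6 : Rels (evS e sA6) RS := by
  have a : Rels (evS e sA6) (RS.filter fun r => !r.elem 5) :=
    h.fn4.relsS h.l4 (by decide +kernel)
  have b : Rels (evS e sA6) (RS.filter fun r => r.elem 5) := by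
    refine rels_conj (ev' := evS e sB6) (c := e 34) (ls := [1, 2, 5, 6, 7]) ?_
      (h.fn4.relsS h.l4 (by decide +kernel)) (by decide)
    simp only [List.forall_mem_cons]
    refine ⟨h.cr (by decide +kernel), h.cr (by decide +kernel), h.eB, ?_, h.cr (by decide +kernel),
      by simp⟩
    show evL e (invW invX BW) = e 34 * evL e (invW invX BV) * (e 34)⁻¹
    rw [evL_invW h.good, evL_invW h.good, h.eB, conj_inv]
  intro r hr
  cases k : r.elem 5
  · exact a r (List.mem_filter.mpr ⟨hr, by simp only [k]; rfl⟩)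
  · exact b r (List.mem_filter.mpr ⟨hr, k⟩)

theorem ord6 : (∀ y ∈ HA e, y ^ 3 = 1 ∨ y ^ 4 = 1 ∨ y ^ 7 = 1) ∨
    ∀ y ∈ HA e, y ^ 3 = 1 ∨ y ^ 4 = 1 ∨ y ^ 5 = 1 := by
  have di : ∀ y, inR 39 (dw y) = true := by decide
  let f0 : DihedralGroup 4 →* G := MonoidHom.mk' (fun y => evL e (dw y)) fun a b =>
    (h.ch.eqv _ _ ((by decide +kernel : ∀ a b, eqC (dw (a * b)) (dw a ++ dw b) = true) a b)).trans
      (evL_append _ _ _)
  have c : ∀ w v, eqC (w ++ v) (v ++ w) = true → evL e w * evL e v = evL e v * evL e w :=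
    fun w v k => by simpa only [evL_append] using h.ch.eqv _ _ k
  have m : ∀ y, f0 y ∈ HA e := fun y => by
    have := (by decide +kernel : ∀ y, ∀ v ∈ [[32], [33], EW], eqC (dw y ++ v) (v ++ dw y) = true) y
    rw [mem_HA, ← evL_singleton e 32, ← evL_singleton e 33]
    exact ⟨⟨c _ _ (this _ (by simp)), c _ _ (this _ (by simp))⟩, c _ _ (this _ (by simp))⟩
  have z : evL e (dw (.r 2)) = e 9 :=
    (h.ch.eqv _ [9] (by decide +kernel)).trans (evL_singleton e 9)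
  have d : H4.D8 (f0.codRestrict _ m) := by
    refine ⟨(injective_iff_map_eq_one _).mpr fun y hy => ?_, fun x => ⟨fun k => ?_, ?_⟩⟩
    · exact ((by decide +kernel : ∀ y, y = 1 ∨ neB (dw y) [] = true) y).resolve_right fun k =>
        neB_spec _ _ k (h.ch.eqx (di y) rfl (congrArg Subtype.val hy))
    · have k' : x.1 * e 9 = e 9 * x.1 := z ▸ congrArg Subtype.val k
      obtain ⟨a, ha⟩ := h.ch.sur _ k'
      have x2 := mem_HA.mp x.2
      obtain ⟨y, rfl⟩ := cen8 (cen_ct (h.ch.memC' ha) (h.ch.comm' ha (h.ch.ml 32) x2.1.1)) (by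
        simp only [List.forall_mem_cons, List.not_mem_nil, false_imp_iff, implies_true, and_true]
        exact ⟨by simpa only [vX, evL_singleton] using h.ch.comm' ha (h.ch.ml 33) x2.1.2,
          h.ch.comm' ha (h.ch.memw (by decide)) x2.2⟩)
      exact ⟨y, Subtype.ext (h.ch.val (h.ch.memw (di y)) ha rfl)⟩
    · rintro ⟨y, rfl⟩
      rw [← map_mul, ← map_mul, (by decide : ∀ d : DihedralGroup 4, d * .r 2 = .r 2 * d)]
  have cj : ∀ (i l j : ℕ) (hl : evS e sA6 l ∈ HA e) (y : DihedralGroup 4), [l, 7, i, j] ∈ RS →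
      invL 505817143170957568 l = i → invL 505817143170957568 j = j → evS e sA6 j = f0 y →
      IsConj (f0.codRestrict _ m (.r 2)) (f0.codRestrict _ m y) := by
    rintro _ l j hl y k rfl k1 k2
    refine isConj_iff.mpr ⟨⟨_, hl⟩, Subtype.ext ?_⟩
    have := h.rels6 _ k
    simp only [evL_cons, evL_nil, mul_one, h.good6.inv, ← mul_assoc] at this
    rw [mul_eq_one_iff_eq_inv, ← h.good6.inv j, k1, k2] at this
    exact (show _ * evL e (dw (.r 2)) * _ = _ by rw [z, ← evL_singleton e 9]; rfl).trans this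
  refine (d8_orders d (cj 4 3 1 h.AH _ (by decide) rfl rfl rfl)
    (cj 6 5 2 h.BH _ (by decide) rfl rfl (h.ch.eqv _ _ (by decide +kernel)))).imp
    (fun k y hy => ?_) fun k y hy => ?_ <;>
  simpa only [Subtype.ext_iff, SubmonoidClass.coe_pow, OneMemClass.coe_one] using k ⟨y, hy⟩

theorem rD : Rels e (RDc ++ RD2 ++ RD4) :=
  rels_app (rels_app (h.relsC (by decide +kernel)) (h.fn2.rels h.l2 (by decide +kernel)))
    (h.fn4.rels h.l4 (by decide +kernel))

theorem rEa : Rels e REa := by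
  have one : ∀ {ev : ℕ → G} {w : List ℕ} {n : ℕ}, evL ev w ^ n = 1 → Rels ev [rp n w] :=
    fun k r hr => by rw [List.mem_singleton.mp hr, evL_rp, k]
  have no6 : ¬ ∀ w ∈ [[2]], evL (evS e sA6) w ∈ gen (evS e sA6) [[1], [7]] := fun k => by
    have := gl_comm (ev := evS e sA6) (ls := [1, 7]) (a := evL e [3, 9]) (by
      simp only [List.forall_mem_cons]
      exact ⟨rfl, (evL_append _ _ _).symm.trans ((h.ch.eqv _ _ (by decide +kernel)).trans
        (evL_append e [3, 9] [9])), by simp⟩) _ (k _ (List.mem_singleton_self _))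
    rw [evL_singleton] at this
    exact neB_spec ([35, 1] ++ [3, 9]) ([3, 9] ++ [35, 1]) (by decide +kernel)
      (h.ch.eqx rfl rfl (by rw [evL_append, evL_append]; exact this))
  have noD : ¬ ∀ w ∈ [[41]], evL e w ∈ gen e (DL.map fun l => [l]) := fun k => by
    have := gl_comm (ev := e) (ls := DL) (a := e 9) (fun l hl => by
      simpa only [evL_cons, evL_nil, mul_one] using h.ch.eqv _ _
        ((by decide +kernel : ∀ l ∈ DL, eqC [l, 9] [9, l] = true) l hl)) _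
      (k _ (List.mem_singleton_self _))
    have k2 := h.fn2.eqv h.l2 [41, 9] [1, 41] (by decide +kernel)
    simp only [evL_cons, evL_nil, mul_one] at this k2
    rw [this, mul_left_inj, ← evL_singleton e 9, ← evL_singleton e 1] at k2
    exact neB_spec [9] [1] (by decide +kernel) (h.ch.eqx rfl rfl k2)
  have m : ∀ l ∈ [1, 3, 5, 6], evS e sA6 l ∈ HA e := by
    simp only [List.forall_mem_cons]
    refine ⟨?_, h.AH, h.BH, (h.good6.inv 5).symm ▸ inv_mem h.BH, by simp⟩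
    have c : ∀ w v, eqC (w ++ v) (v ++ w) = true → evL e w * evL e v = evL e v * evL e w :=
      fun w v k => by simpa only [evL_append] using h.ch.eqv _ _ k
    rw [mem_HA, ← evL_singleton e 32, ← evL_singleton e 33]
    exact ⟨⟨c [3, 9] _ (by decide +kernel), c [3, 9] _ (by decide +kernel)⟩,
      c [3, 9] _ (by decide +kernel)⟩
  have m1 := mem_of_sub m (w := [3, 5]) rfl
  have m2 := mem_of_sub m (w := [3, 1, 5]) rfl
  have m3 := mem_of_sub m (w := [3, 6]) rfl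
  rcases h.ord6 with k | k
  · rcases k _ m1 with a | a | a
    · rw [evL_subst] at a
      exact absurd (CEb.mem h.good (rels_app h.rD (one a))) noD
    · rw [evL_subst] at a
      exact absurd (CEc.mem h.good (rels_app h.rD (one a))) noD
    rcases k _ m2 with b | b | b
    · exact absurd (CSc.mem h.good6 (rels_app h.rels6 (rels_app (one a) (one b)))) no6
    · exact absurd (CSd.mem h.good6 (rels_app h.rels6 (rels_app (one a) (one b)))) no6
    · exact absurd (CSe.mem h.good6 (rels_app h.rels6 (rels_app (one a) (one b)))) no6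
  · rcases k _ m3 with a | a | a
    · exact absurd (CSa.mem h.good6 (rels_app h.rels6 (one a))) no6
    · rw [evL_subst] at a
      exact rels_app h.rD (one a)
    · exact absurd (CSb.mem h.good6 (rels_app h.rels6 (one a))) no6

theorem lD : ∀ l ∈ LD, pr e l ∈ GD e := mem_gl_inv h.gp (by decide)

theorem fnD : Fn (GD e) :=
  fn_cover h.ch (n := 314) (CEa.cover h.gp (rels_pr h.rEa (by decide +kernel)))
    (h.ch.gl_le (ls := DL) (by decide)) h.lD (by decide) (Ws := dWs) (by decide +kernel)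
    (by decide +kernel)

end Al

end Cfsg.H5.Sz
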