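import Cfsg.Agent.H5.Suz.S6
import Cfsg.Agent.H5.Suz.RP

/-!
The defining relations of the sporadic Suzuki group hold in the group.
-/

set_option autoImplicit false
set_option maxRecDepth 100000
set_option linter.unusedVariables false
set_option linter.unusedSectionVars false

namespace Cfsg.H5.Sz

open Cfsg.H6 Subgroup

variable {G : Type*} [Group G] {e : ℕ → G}

def hD : List ℕ := [1, 13, 11, 34]
def hE : List ℕ := [20, 30, 20, 5, 34]
def A2 : List ℕ := [35, 43, 41, 22, 1]
def B2V : List ℕ := [36, 3, 43, 36, 41]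
def B2 : List ℕ := [34, 36, 3, 43, 36, 41, 34]
def bD : List ℕ := invW invX AW ++ invW invX BW ++ [9] ++ AW ++ BW
def bE : List ℕ := invW invX A2 ++ invW invX B2 ++ [9] ++ A2 ++ B2
def sO : List (List ℕ) := [[], [9], hD ++ bD ++ invW invX hD, [3, 4, 7, 9], [37], [38],
  [1, 2, 3, 4, 9], [1, 2, 3, 5]]
def sOd : List (List ℕ) := [[], [9], bD, [], [32], [], [3, 9], [35, 1]]
def sOe : List (List ℕ) := [[], [9], bE, [1], [], [32], [3, 1]]

namespace Al

variable (h : Al e) [Finite G]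
include h

theorem via2 {h1 A1 k1 p1 h2 A2 k2 p2 m : List ℕ} (a1 : eqL L4 (A1 ++ k1) (k1 ++ p1) = true)
    (a2 : eqL L4 (A2 ++ k2) (k2 ++ p2) = true) (a3 : eqC (h1 ++ k1 ++ m) (h2 ++ k2) = true)
    (a4 : eqL L2 (p1 ++ m) (m ++ p2) = true) :
    evL e h1 * evL e A1 * (evL e h1)⁻¹ = evL e h2 * evL e A2 * (evL e h2)⁻¹ := by
  have a1 := h.fn4.eqv h.l4 _ _ a1
  have a2 := h.fn4.eqv h.l4 _ _ a2
  have a3 := h.ch.eqv _ _ a3
  have a4 := h.fn2.eqv h.l2 _ _ a4
  simp only [evL_append] at a1 a2 a3 a4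
  rw [eq_mul_inv_of_mul_eq a1, eq_mul_inv_of_mul_eq a2, eq_mul_inv_of_mul_eq a4,
    ← mul_inv_eq_iff_eq_mul.mpr a3]
  group

theorem cjw {w k v : List ℕ} (a : eqC (w ++ k) (k ++ v) = true) :
    evL e w = evL e k * evL e v * (evL e k)⁻¹ := by
  have a := h.ch.eqv _ _ a
  simp only [evL_append] at a
  exact eq_mul_inv_of_mul_eq a

theorem ob1 : evS e sO 2 = evL e hD * evL e bD * (evL e hD)⁻¹ := by
  show evL e (hD ++ bD ++ invW invX hD) = _
  rw [evL_append, evL_append, evL_invW h.good]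

theorem ob2 : evS e sO 2 = evL e hE * evL e bE * (evL e hE)⁻¹ := by
  have a := h.via2 (h1 := hD) (A1 := AW) (k1 := [30]) (p1 := [1, 3, 4, 39, 39]) (h2 := hE)
    (A2 := A2) (k2 := [31]) (p2 := [1, 9, 39]) (m := [23, 22, 1, 3, 4, 9, 20, 20, 19, 20, 20, 2])
    (by decide +kernel) (by decide +kernel) (by decide +kernel) (by decide +kernel)
  have b := h.via2 (h1 := hD ++ [34]) (A1 := BV) (k1 := [31]) (p1 := [1, 39, 39])
    (h2 := hE ++ [34]) (A2 := B2V) (k2 := [30]) (p2 := [1, 3, 4, 9, 39, 39])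
    (m := [24, 26, 5, 7, 9, 19, 21])
    (by decide +kernel) (by decide +kernel) (by decide +kernel) (by decide +kernel)
  have b2 : evL e B2 = e 34 * evL e B2V * (e 34)⁻¹ := by
    rw [h.i34, ← evL_cons, ← evL_singleton e 34, ← evL_append]; rfl
  have b' : evL e hD * evL e BW * (evL e hD)⁻¹ = evL e hE * evL e B2 * (evL e hE)⁻¹ := by
    rw [h.eB, b2]
    simpa only [evL_append, evL_singleton, mul_inv_rev, mul_assoc] using b
  have z := (h.cjw (w := [9]) (k := hD) (v := [9]) (by decide +kernel)).symm.trans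
    (h.cjw (w := [9]) (k := hE) (v := [9]) (by decide +kernel))
  rw [h.ob1, bD, bE]
  simp only [evL_append, evL_invW h.good]
  have c : ∀ k x y u : G, k * (x⁻¹ * y⁻¹ * u * x * y) * k⁻¹ = (k * x * k⁻¹)⁻¹ * (k * y * k⁻¹)⁻¹ *
    (k * u * k⁻¹) * (k * x * k⁻¹) * (k * y * k⁻¹) := fun k x y u => by group
  rw [c, c, a, b', z]

theorem goodO : Good (evS e sO) 506097522914230528 := by
  have : evS e sO = fun l => (sO.map (evL e)).getD l 1 := funext fun l => by
    unfold evS
    rw [← evL_nil e, List.getD_map]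
  have b := h.ob1
  rw [this] at b ⊢
  refine good_list (n := 8) rfl (by decide) rfl fun l hl => ?_
  have q : ∀ w, eqC (w ++ w) [] = true → evL e w = (evL e w)⁻¹ := fun w k =>
    eq_inv_of_mul_eq_one_left ((evL_append _ _ _).symm.trans (h.ch.eqv _ _ k))
  interval_cases l
  exacts [inv_one.symm, q _ (by decide +kernel), by
    refine eq_inv_of_mul_eq_one_left ?_
    have := h.fnD.eqv h.lD (bD ++ bD) [] (by decide +kernel)
    rw [evL_append] at this
    simp only at b
    rw [show invL 506097522914230528 2 = 2 from rfl, b, conj_mul, this]; simp [evL_nil],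
    q _ (by decide +kernel), q _ (by decide +kernel), q _ (by decide +kernel),
    q _ (by decide +kernel), q _ (by decide +kernel)]

theorem relsO : Rels (evS e sO) Suz.R := by
  have a : Rels (evS e sO) (Suz.R.filter fun r => !r.elem 2) := h.ch.relsS (by decide +kernel)
  have b : Rels (evS e sO) (Suz.R.filter fun r => sub r [1, 2, 4, 6, 7]) := by
    refine rels_conj (ev' := evS e sOd) (c := evL e hD) (ls := [1, 2, 4, 6, 7]) ?_
      (h.fnD.relsS h.lD (by decide +kernel)) (by decide)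
    simp only [List.forall_mem_cons]
    exact ⟨h.cjw (by decide +kernel), h.ob1, h.cjw (by decide +kernel), h.cjw (by decide +kernel),
      h.cjw (by decide +kernel), by simp⟩
  have ce : ∀ l ∈ [1, 2, 3, 5, 6], evS e sO l = evL e hE * evS e sOe l * (evL e hE)⁻¹ := by
    simp only [List.forall_mem_cons]
    exact ⟨h.cjw (by decide +kernel), h.ob2, h.cjw (by decide +kernel), h.cjw (by decide +kernel),
      h.cjw (by decide +kernel), by simp⟩
  have c : Rels (evS e sO) (Suz.R.filter fun r => sub r [1, 2, 3, 5, 6]) :=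
    rels_conj ce (h.fnD.relsS h.lD (by decide +kernel)) (by decide)
  have abc := rels_app (rels_app a b) c
  have p := CP.mem h.goodO (abc.mono (by decide))
    (rp 5 [2, 3, 4, 3, 4] ++ invW 506097522914230528 (rp 2 ([1, 2, 1, 3, 2, 1, 2] ++ [4, 3, 4])))
    (by decide)
  rw [show CP.Sub = [] from rfl, gen_nil, mem_bot, evL_append, evL_invW h.goodO, mul_inv_eq_one,
    evL_rp _ 2, evL_append] at p
  have s3 : evL (evS e sO) [1, 2, 1, 3, 2, 1, 2] =
      evL e hE * evL e [35, 3, 22, 1, 41] * (evL e hE)⁻¹ := by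
    rw [← h.fnD.eqv h.lD (subst sOe [1, 2, 1, 3, 2, 1, 2]) [35, 3, 22, 1, 41] (by decide +kernel), ← evL_subst]
    exact (evL_congr fun x hx => ce x ((by decide : ∀ x ∈ [1, 2, 1, 3, 2, 1, 2],
      x ∈ [1, 2, 3, 5, 6]) x hx)).trans (map_evL (MulAut.conj (evL e hE)).toMonoidHom _ _).symm
  have s4 : evL (evS e sO) [4, 3, 4] = evL e hE * evL e [1, 2, 4, 7, 9] * (evL e hE)⁻¹ := by
    rw [evL_subst]; exact h.cjw (by decide +kernel)
  have d : Rels (evS e sO) [rp 3 (rp 5 [2, 3, 4, 3, 4] ++ [5])] := fun r hr => by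
    have := h.fn2.eqv h.l2 (rp 3 (rp 2 ([35, 3, 22, 1, 41] ++ [1, 2, 4, 7, 9]) ++ [32])) []
      (by decide +kernel)
    rw [evL_rp, evL_append, evL_rp, evL_append] at this
    rw [List.mem_singleton.mp hr, evL_rp, evL_append, p, s3, s4, evL_singleton, ce 5 (by decide),
      conj_mul, conj_pow, conj_mul, conj_pow, show evS e sOe 5 = evL e [32] from rfl, this]
    simp [evL_nil]
  exact (rels_app abc d).mono (by decide)

theorem exists_hom : ∃ Φ : X →* G, Function.Injective Φ ∧ Φ (evX 9) = e 9 ∧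
    ∀ g, g * Φ (evX 9) = Φ (evX 9) * g → ∃ a ∈ CX, Φ a = g := by
  obtain ⟨Φ, hΦ⟩ := Suz.lift h.goodO h.relsO
  have e9 : evX 9 = Suz.ev 1 := by
    rw [evX, evS_nth, show nthW s2 9 = [9] from rfl, evL_singleton, ev1, evS_nth,
      show nthW (sE ++ [sR]) 9 = [9] from rfl, evL_singleton, evP, evS_nth,
      show nthW sP 9 = [7] from rfl, evL_singleton, evB, evS_nth, show nthW sB 7 = [1] from rfl,
      evL_singleton, evA, evS_nth, show nthW sA 1 = [1] from rfl, evL_singleton]
  have z : Φ (evX 9) = e 9 := by rw [e9, hΦ]; exact evL_singleton e 9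
  have := Suz.simple
  have inj : Function.Injective Φ := by
    rw [← MonoidHom.ker_eq_bot_iff]
    refine (Φ.normal_ker.eq_bot_or_eq_top).resolve_right fun k => z_ne ?_
    exact h.ch.arg (h.ch.ml 9) pone (z ▸ (k ▸ mem_top _ : evX 9 ∈ Φ.ker))
  refine ⟨Φ, inj, z, fun g hg => ?_⟩
  have le : CX.map Φ ≤ centralizer {e 9} := by
    rintro _ ⟨a, ha, rfl⟩
    rw [mem_centralizer_singleton_iff, ← z, ← map_mul, ← map_mul, zcomm a ha]
  have := eq_of_le_of_card_ge le (by rw [h.ch.card, card_map_of_injective inj, cardC.1])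
  rw [z, ← mem_centralizer_singleton_iff, ← this] at hg
  exact hg

end Al

end Cfsg.H5.Sz
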