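import Cfsg.Agent.H5.Suz.S7
import Cfsg.Agent.H5.Suz.XF
import Cfsg.Agent.H5.Thompson

/-!
The embedded Suzuki group is the whole group.
-/

set_option autoImplicit false
set_option maxRecDepth 100000
set_option linter.unusedVariables false
set_option linter.unusedSectionVars false

namespace Cfsg.H5.Sz

open Cfsg.H6 Subgroup

variable {G : Type*} [Group G]

theorem refl_conj {p q : G} (hp : p * p = 1) (hq : q * q = 1) (m : ℕ) :
    IsConj p ((p * q) ^ m * q) ∨ IsConj q ((p * q) ^ m * q) := by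
  obtain ⟨j, rfl | rfl⟩ := Nat.even_or_odd' m
  · refine Or.inr (isConj_iff.mpr ⟨(p * q) ^ j, ?_⟩)
    have := L0.inverts_pow (L0.inverts_mul_right hp hq) j
    rw [two_mul, pow_add, mul_assoc, mul_assoc, ← this, ← mul_assoc q, ← mul_assoc q, hq, one_mul,
      inv_eq_of_mul_eq_one_right hq]
  · refine Or.inl (isConj_iff.mpr ⟨(p * q) ^ j, ?_⟩)
    have := L0.inverts_pow (L0.inverts_mul_left hp hq) j
    rw [pow_succ, mul_assoc _ (p * q), mul_assoc p, hq, mul_one, two_mul, pow_add, mul_assoc,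
      mul_assoc, ← this, ← mul_assoc p, ← mul_assoc p, hp, one_mul, inv_eq_of_mul_eq_one_right hp]

/-- An embedding of the model containing the centraliser of the involution. -/
structure Em (Φ : X →* G) : Prop where
  inj : Function.Injective Φ
  cen : ∀ g, g * Φ (evX 9) = Φ (evX 9) * g → ∃ a ∈ CX, Φ a = g

namespace Em

variable {Φ : X →* G} (h : Em Φ) [Finite G]
include h

theorem zz : Φ (evX 9) * Φ (evX 9) = 1 := by
  rw [← map_mul, show evX 9 * evX 9 = 1 from weq [9, 9], [], map_one]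

theorem z1 : Φ (evX 9) ≠ 1 := fun e => z_ne (h.inj (e.trans (map_one Φ).symm))

theorem cm {a b : X} (k : Φ a * Φ b = Φ b * Φ a) : a * b = b * a :=
  h.inj (by rwa [map_mul, map_mul])

theorem nfus : ¬ IsConj (Φ (evX 9)) (Φ (evX 32)) := by
  intro k
  obtain ⟨g, hg⟩ := isConj_iff.mp k
  have le : (gl evX DL).map Φ ≤ centralizer {Φ (evX 32)} := by
    rintro _ ⟨a, ha, rfl⟩
    rw [mem_centralizer_singleton_iff, ← map_mul, ← map_mul, tD ha]
  have sy : H8.IsSyl 2 ((gl evX DL).map Φ) (centralizer {Φ (evX 32)}) := by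
    refine H8.IsSyl.of_normalizer ?_
    have : centralizer {Φ (evX 32)} ⊓ normalizer ((gl evX DL).map Φ : Set G) = (gl evX DL).map Φ := by
      refine le_antisymm (fun n hn => ?_) (le_inf le le_normalizer)
      obtain ⟨a, ha, e⟩ := H8.conj_mem_of_mem_normalizer hn.2 (mem_map_of_mem Φ
        (mem_of_sub (ls := DL) (w := [34, 35]) (fun l hl => gl_mem evX hl) (by decide)))
      have e4 : n * Φ (evX 9) * n⁻¹ = Φ (a ^ 4) := by
        rw [map_pow, e, conj_pow, ← map_pow, ← evL_rp, ← evL_singleton evX 9]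
        exact congrArg (fun x => n * Φ x * n⁻¹) (eqB_spec _ _ (by decide +kernel))
      rcases pow4 ha with k | k <;> rw [k] at e4
      · exact absurd (by simpa using e4) h.z1
      obtain ⟨c, hc, rfl⟩ := h.cen n (mul_inv_eq_iff_eq_mul.mp e4)
      exact mem_map_of_mem Φ (cen_ct hc (h.cm (mem_centralizer_singleton_iff.mp hn.1)))
    rw [this]
    exact H8.IsSyl.self (pcD.isPGroup.map Φ)
  have := sy.card_le (H8.isPGroup_cj (pcS.isPGroup.map Φ) g) (by
    rintro _ ⟨_, ⟨a, ha, rfl⟩, rfl⟩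
    rw [mem_centralizer_singleton_iff, ← hg]
    exact cj_comm g (by rw [← map_mul, ← map_mul, zcomm a (S_le ha)]))
  rw [L0.card_cj, card_map_of_injective h.inj, card_map_of_injective h.inj, cardS] at this
  exact absurd (this.trans pcD.ub.2) (by decide)

theorem back {g y x : G} (hg : g ∈ Φ.range) (c : ∀ k, k * x = x * k → k ∈ Φ.range) {k : G}
    (e : g * x * g⁻¹ = y) (hk : k * y = y * k) : k ∈ Φ.range := by
  have := c (g⁻¹ * k * g) (by
    rw [← e] at hk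
    calc _ = g⁻¹ * (k * (g * x * g⁻¹)) * g := by group
      _ = _ := by rw [hk]; group)
  exact (mul_mem_cancel_left (inv_mem hg)).mp ((mul_mem_cancel_right hg).mp this)

theorem cz (k : G) (hk : k * Φ (evX 9) = Φ (evX 9) * k) : k ∈ Φ.range := by
  obtain ⟨a, -, e⟩ := h.cen k hk
  exact ⟨a, e⟩

theorem inv {y : G} (hy : y ∈ Φ.range) (h2 : y * y = 1) (h1 : y ≠ 1) : ∃ g ∈ Φ.range,
    g * Φ (evX 9) * g⁻¹ = y ∨ g * Φ (evX 32) * g⁻¹ = y := by
  obtain ⟨a, rfl⟩ := hy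
  rcases invX2 (a := a) (h.inj (by rwa [map_mul, map_one])) (fun e => h1 (e ▸ map_one Φ)) with k | k <;>
    obtain ⟨c, rfl⟩ := isConj_iff.mp k
  · exact ⟨Φ c, ⟨c, rfl⟩, Or.inl (by simp)⟩
  · exact ⟨Φ c, ⟨c, rfl⟩, Or.inr (by simp)⟩

theorem invI {y : G} (hy : y ∈ Φ.range) (k : IsConj (Φ (evX 9)) y) :
    ∃ g ∈ Φ.range, g * Φ (evX 9) * g⁻¹ = y := by
  obtain ⟨g, hg, e | e⟩ := h.inv hy (sq_of_isConj h.zz k) (ne_one_of_isConj h.z1 k)
  · exact ⟨g, hg, e⟩
  · exact absurd (k.trans (isConj_iff.mpr ⟨g, e⟩).symm) h.nfus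

theorem cI {y : G} (hy : y ∈ Φ.range) (k : IsConj (Φ (evX 9)) y) {g : G} (e : g * y = y * g) :
    g ∈ Φ.range := by
  obtain ⟨c, hc, e'⟩ := h.invI hy k
  exact h.back hc h.cz e' e

theorem prod {p q : G} (hp : IsConj (Φ (evX 9)) p) (hq : IsConj (Φ (evX 9)) q)
    (e : p * q = q * p) : p * q = 1 ∨ IsConj (Φ (evX 9)) (p * q) := by
  obtain ⟨g, rfl⟩ := isConj_iff.mp hp
  obtain ⟨a, ha, e'⟩ := h.cen (g⁻¹ * q * g) (by
    calc _ = g⁻¹ * (q * (g * Φ (evX 9) * g⁻¹)) * g := by group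
      _ = _ := by rw [← e]; group)
  have ca : IsConj (Φ (evX 9)) (Φ a) := hq.trans (isConj_iff.mpr ⟨g⁻¹, by rw [e', inv_inv]⟩)
  obtain ⟨c, hc, k⟩ := invCls le_rfl ha (h.inj (by
    rw [map_mul, map_one]; exact sq_of_isConj h.zz ca))
    (fun k => ne_one_of_isConj h.z1 ca (k ▸ map_one Φ))
  have E : ∀ {b}, c * a * c⁻¹ = b → g * (Φ c)⁻¹ * Φ (evX 9 * b) * (g * (Φ c)⁻¹)⁻¹ =
      g * Φ (evX 9) * g⁻¹ * q := fun k => by
    rw [← k, ← mul_assoc (evX 9), ← mul_assoc (evX 9), ← zcomm c hc]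
    simp only [map_mul, map_inv, e']
    group
  rcases k with k | k | k | k
  · left
    rw [← E k, map_mul, h.zz]; simp
  · exact Or.inr ((Φ.map_isConj cj91).trans (isConj_iff.mpr ⟨_, E k⟩))
  · exact Or.inr ((Φ.map_isConj cj922).trans (isConj_iff.mpr ⟨_, E k⟩))
  · exact absurd (ca.trans (Φ.map_isConj (isConj_iff.mpr ⟨c, k⟩))) h.nfus

theorem odd1 {p q : G} (hp : IsConj (Φ (evX 9)) p) (hq : IsConj (Φ (evX 9)) q)
    (k : p * q ∈ Φ.range ∨ p ∈ Φ.range) (n : q ∉ Φ.range) : Odd (orderOf (p * q)) := by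
  by_contra ho
  obtain ⟨m, hm⟩ := Nat.not_odd_iff_even.mp ho
  have p2 := sq_of_isConj h.zz hp
  have q2 := sq_of_isConj h.zz hq
  have hpos := orderOf_pos (p * q)
  have y1 : (p * q) ^ m ≠ 1 := pow_ne_one_of_lt_orderOf (by omega) (by omega)
  have y2 : (p * q) ^ m * (p * q) ^ m = 1 := by rw [← pow_add, ← hm, pow_orderOf_eq_one]
  have yi : ((p * q) ^ m)⁻¹ = (p * q) ^ m := inv_eq_of_mul_eq_one_right y2
  have c1 := L0.inverts_pow (L0.inverts_mul_left p2 q2) m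
  have c2 := L0.inverts_pow (L0.inverts_mul_right p2 q2) m
  rw [yi, mul_inv_eq_iff_eq_mul] at c1 c2
  have yK : (p * q) ^ m ∈ Φ.range := k.elim (fun k => pow_mem k m) fun k => h.cI k hp c1.symm
  have := h.prod ((refl_conj p2 q2 m).elim hp.trans hq.trans) hq (by rw [← mul_assoc, c2])
  rw [mul_assoc, q2, mul_one] at this
  exact n (h.cI yK (this.resolve_left y1) c2)

theorem kx {s : G} (hs : IsConj (Φ (evX 9)) s) (n : s ∉ Φ.range)
    (st : s * Φ (evX 32) = Φ (evX 32) * s) {m : List ℕ} (hm : sub m LN = true)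
    (m1 : eqB (m ++ [32]) (32 :: m) = true) (m2 : eqB (m ++ [33]) (33 :: m) = true) :
    ∃ κ r, IsConj (Φ (evX 9)) r ∧ Φ κ = s * r ∧ ∃ i < 4, Same κ (nthW qW i ++ m) := by
  have m1 : vX m * evX 32 = evX 32 * vX m := by
    simpa only [vX, evL_append, evL_cons, evL_nil, mul_one] using eqB_spec _ _ m1
  have m2 : vX m * evX 33 = evX 33 * vX m := by
    simpa only [vX, evL_append, evL_cons, evL_nil, mul_one] using eqB_spec _ _ m2
  have s2 := sq_of_isConj h.zz hs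
  have si : s⁻¹ = s := inv_eq_of_mul_eq_one_right s2
  have zt : Commute (Φ (evX 9)) (Φ (evX 32)) :=
    Commute.map (show evX 9 * evX 32 = evX 32 * evX 9 from weq [9, 32], [32, 9]) Φ
  have mt : Commute (Φ (vX m)) (Φ (evX 32)) := (show Commute _ _ from m1).map Φ
  have st' : Commute s (Φ (evX 32)) := st
  obtain ⟨a, ea⟩ : ∃ a, a = (Φ (vX m))⁻¹ * Φ (evX 9) * Φ (vX m) := ⟨_, rfl⟩
  obtain ⟨b, eb⟩ : ∃ b, b = s * Φ (evX 9) * s⁻¹ := ⟨_, rfl⟩
  have ha : IsConj (Φ (evX 9)) a := isConj_iff.mpr ⟨(Φ (vX m))⁻¹, by rw [ea, inv_inv]⟩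
  have hb : IsConj (Φ (evX 9)) b := isConj_iff.mpr ⟨s, eb.symm⟩
  have aK : a ∈ Φ.range := ⟨(vX m)⁻¹ * evX 9 * vX m, by simp [ea]⟩
  have bK : b ∉ Φ.range := fun k => by
    obtain ⟨g, hg, e⟩ := h.invI k hb
    refine n ((mul_mem_cancel_left (inv_mem hg)).mp (h.cz _ ?_))
    calc _ = g⁻¹ * b * s := by rw [eb]; group
      _ = _ := by rw [← e]; group
  have a2 := sq_of_isConj h.zz ha
  have b2 := sq_of_isConj h.zz hb
  obtain ⟨j, hj⟩ := h.odd1 ha hb (Or.inr aK) bK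
  have hr : IsConj (Φ (evX 9)) ((a * b) ^ (j + 1) * b) :=
    (refl_conj a2 b2 _).elim ha.trans hb.trans
  have rt : Commute ((a * b) ^ (j + 1) * b) (Φ (evX 32)) := by
    have at' : Commute a (Φ (evX 32)) := ea ▸ (mt.inv_left.mul_left zt).mul_left mt
    have bt : Commute b (Φ (evX 32)) := eb ▸ (st'.mul_left zt).mul_left st'.inv_left
    exact ((at'.mul_left bt).pow_left _).mul_left bt
  have ra : (a * b) ^ (j + 1) * b * a = b * ((a * b) ^ (j + 1) * b) := by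
    have c := L0.inverts_pow (L0.inverts_mul_right a2 b2) (j + 1)
    have o : ((a * b) ^ (j + 1))⁻¹ = (a * b) ^ j := by
      rw [inv_eq_iff_mul_eq_one, ← pow_add, show j + 1 + j = 2 * j + 1 by ring, ← hj,
        pow_orderOf_eq_one]
    rw [inv_eq_of_mul_eq_one_right b2, o] at c
    rw [← mul_assoc, c, pow_succ, mul_assoc _ (a * b), mul_assoc a, b2, mul_one, mul_assoc, a2,
      mul_one]
  generalize (a * b) ^ (j + 1) * b = r at hr rt ra
  obtain ⟨c, hc, e⟩ := h.cen (s * r * (Φ (vX m))⁻¹) (by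
    calc _ = s * (r * a) * (Φ (vX m))⁻¹ := by rw [ea]; group
      _ = s * s * Φ (evX 9) * s⁻¹ * r * (Φ (vX m))⁻¹ := by rw [ra, eb]; group
      _ = _ := by rw [s2, si]; group)
  have ct := cen_ct hc (h.cm (e ▸ ((st'.mul_left rt).mul_left mt.inv_left)))
  have ek : Φ (c * vX m) = s * r := by rw [map_mul, e, inv_mul_cancel_right]
  have rK : r ∉ Φ.range := fun k => n ((mul_mem_cancel_right k).mp ⟨_, ek⟩)
  have o := h.odd1 hs hr (Or.inl ⟨_, ek⟩) rK
  rw [← ek, orderOf_injective Φ h.inj] at o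
  refine ⟨_, r, hr, ek, ?_⟩
  rcases decD ct with k | ⟨i, hi, k⟩
  · have k1 : c * vX m * evX 33 = evX 32 * evX 33 * (c * vX m) := by
      rw [mul_assoc, m2, ← mul_assoc, k, mul_assoc]
    have k2 : c * vX m * evX 32 = evX 32 * (c * vX m) := by
      rw [mul_assoc, m1, ← mul_assoc, tD ct, mul_assoc]
    generalize c * vX m = κ at o k1 k2
    have := mem_pow_odd (K := centralizer {evX 33}) o (pow_orderOf_eq_one κ) (by
      rw [mem_centralizer_singleton_iff, mul_assoc, k1, ← mul_assoc, ← mul_assoc, k2,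
        mul_assoc (evX 32), k1, ← mul_assoc, ← mul_assoc,
        show evX 32 * evX 32 = 1 from weq [32, 32], [], one_mul, mul_assoc])
    rw [mem_centralizer_singleton_iff, k1, mul_left_inj, mul_eq_right] at this
    exact absurd this (wne [32], [])
  · refine ⟨i, hi, sub_app ((by decide : ∀ i < 4, sub (nthW qW i) LN = true) i hi) hm, ?_⟩
    simpa only [vX, evL_append, mul_inv_rev, ← mul_assoc, mul_inv_cancel_right] using k

theorem cI' {s : G} (hs : IsConj (Φ (evX 9)) s) (st : s * Φ (evX 32) = Φ (evX 32) * s) :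
    s ∈ Φ.range := by
  by_contra n
  obtain ⟨b, rb, hb, eb, j, hj, kb⟩ := h.kx hs n st (m := [41]) rfl (by decide +kernel)
    (by decide +kernel)
  have := (by decide +kernel : ∀ j < 4, sub (nthW mW j) LN = true ∧
    eqB (nthW mW j ++ [32]) (32 :: nthW mW j) = true ∧
    eqB (nthW mW j ++ [33]) (33 :: nthW mW j) = true) j hj
  obtain ⟨a, ra, ha, ea, i, hi, ka⟩ := h.kx hs n st this.1 this.2.1 this.2.2
  have s2 := sq_of_isConj h.zz hs
  have a2 := sq_of_isConj h.zz ha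
  have nK : ∀ {κ r}, Φ κ = s * r → r ∉ Φ.range := fun e k =>
    n ((mul_mem_cancel_right k).mp ⟨_, e⟩)
  rcases oddChk j hj i hi with k | ⟨m, -, k1, k⟩
  · have := h.odd1 hs ha (Or.inl ⟨_, ea⟩) (nK ea)
    rw [← ea, orderOf_injective Φ h.inj] at this
    exact ka.even k this
  · have e : Φ ((a ^ m)⁻¹ * b) = (ra * s) ^ m * s * rb := by
      rw [map_mul, map_inv, map_pow, ea, eb, ← inv_pow, mul_inv_rev, inv_eq_of_mul_eq_one_right s2,
        inv_eq_of_mul_eq_one_right a2, mul_assoc]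
    have := h.odd1 ((refl_conj a2 s2 m).elim ha.trans hs.trans) hb (Or.inl ⟨_, e⟩) (nK eb)
    rw [← e, orderOf_injective Φ h.inj] at this
    exact (((ka.pow m).inv k1).mul kb).even k this

theorem ct (g : G) (hg : g * Φ (evX 32) = Φ (evX 32) * g) : g ∈ Φ.range := by
  have c : IsConj (Φ (evX 9)) (g * Φ (evX 9) * g⁻¹) := isConj_iff.mpr ⟨g, rfl⟩
  have zt : Commute (Φ (evX 9)) (Φ (evX 32)) :=
    Commute.map (show evX 9 * evX 32 = evX 32 * evX 9 from weq [9, 32], [32, 9]) Φ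
  have g' : Commute g (Φ (evX 32)) := hg
  obtain ⟨k, hk, e⟩ := h.invI (h.cI' c ((g'.mul_left zt).mul_left g'.inv_left)) c
  refine (mul_mem_cancel_left (inv_mem hk)).mp (h.cz _ ?_)
  calc _ = k⁻¹ * (g * Φ (evX 9) * g⁻¹) * g := by group
    _ = _ := by rw [← e]; group

theorem surj : Function.Surjective Φ := by
  have cen : ∀ s ∈ Φ.range, s * s = 1 → s ≠ 1 → ∀ y, y * s = s * y → y ∈ Φ.range := by
    intro s hs h2 h1 y hy
    obtain ⟨g, hg, e | e⟩ := h.inv hs h2 h1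
    exacts [h.back hg h.cz e hy, h.back hg h.ct e hy]
  have t2 : Φ (evX 32) * Φ (evX 32) = 1 := by
    rw [← map_mul, show evX 32 * evX 32 = 1 from weq [32, 32], [], map_one]
  have t1 : Φ (evX 32) ≠ 1 := fun e => (wne [32], [] : evX 32 ≠ 1) (h.inj (e.trans (map_one Φ).symm))
  intro g
  have c : IsConj (Φ (evX 9)) (g * Φ (evX 9) * g⁻¹) := isConj_iff.mpr ⟨g, rfl⟩
  have m : g * Φ (evX 9) * g⁻¹ ∈ Φ.range := by
    have h2 := sq_of_isConj h.zz c
    generalize g * Φ (evX 9) * g⁻¹ = s at c h2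
    by_cases ho : Odd (orderOf (Φ (evX 32) * s))
    · obtain ⟨g, -, e⟩ := L0.exists_conj_of_odd_orderOf_mul t2 h2 ho
      exact absurd (c.trans (isConj_iff.mpr ⟨g, e⟩).symm) h.nfus
    · obtain ⟨m, hm⟩ := Nat.not_odd_iff_even.mp ho
      have hpos := orderOf_pos (Φ (evX 32) * s)
      have y1 : (Φ (evX 32) * s) ^ m ≠ 1 := pow_ne_one_of_lt_orderOf (by omega) (by omega)
      have y2 : (Φ (evX 32) * s) ^ m * (Φ (evX 32) * s) ^ m = 1 := by
        rw [← pow_add, ← hm, pow_orderOf_eq_one]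
      have c1 := L0.inverts_pow (L0.inverts_mul_left t2 h2) m
      have c2 := L0.inverts_pow (L0.inverts_mul_right t2 h2) m
      rw [inv_eq_of_mul_eq_one_right y2, mul_inv_eq_iff_eq_mul] at c1 c2
      exact cen _ (h.ct _ c1.symm) y2 y1 s c2
  obtain ⟨k, hk, e⟩ := h.invI m c
  refine (mul_mem_cancel_left (inv_mem hk)).mp (h.cz _ ?_)
  calc _ = k⁻¹ * (g * Φ (evX 9) * g⁻¹) * g := by group
    _ = _ := by rw [← e]; group

end Em

/-- The recognition theorem. -/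
theorem exists_iso [Finite G] (z : G) (hz : orderOf z = 2)
    (Q : Subgroup (centralizer ({z} : Set G))) [Q.Normal]
    (hF : generalizedFittingSubgroup (centralizer ({z} : Set G)) = Q)
    (hQ : IsExtraspecial 2 Q) (hcard : Nat.card Q = 2 ^ 7)
    (e : centralizer ({z} : Set G) ⧸ Q ≃* Omega (ZMod 2) (quadFormMinus 2 (ZMod 2) 1 1))
    (hnwc : ∃ g : G, (∃ hq : g * z * g⁻¹ ∈ centralizer ({z} : Set G),
      (⟨g * z * g⁻¹, hq⟩ : centralizer ({z} : Set G)) ∈ Q) ∧ g * z * g⁻¹ ≠ z) :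
    ∃ Φ : X ≃* G, Φ (evX 9) = z ∧ CX.map Φ.toMonoidHom = centralizer {z} := by
  obtain ⟨ι, S, h1, -⟩ := exists_st0 z hz Q hF hQ hcard e hnwc
  obtain ⟨e0, c, h2⟩ := S.exists_ch
  obtain ⟨e1, a, h3⟩ := c.exists_al
  obtain ⟨Φ, h4, h5, h6⟩ := a.exists_hom
  have E : Em Φ := ⟨h4, h6⟩
  have h7 : Φ (evX 9) = z := by
    rw [h5, h3 9 (by decide), ← h1, h2, ← evL_singleton e0 9]; rfl
  refine ⟨MulEquiv.ofBijective Φ ⟨h4, E.surj⟩, h7, le_antisymm ?_ fun g hg => ?_⟩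
  · rintro _ ⟨a, ha, rfl⟩
    rw [mem_centralizer_singleton_iff, ← h7]
    exact Commute.map (zcomm a ha) Φ
  · exact h6 g (h7 ▸ mem_centralizer_singleton_iff.mp hg)

end Cfsg.H5.Sz
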