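import Cfsg.Agent.H5.Suz.Tab
import Cfsg.Agent.H6.Suz.Main

/-!
The letters as elements of the presented sporadic Suzuki group and the word problem for them.
-/

set_option autoImplicit false
set_option maxRecDepth 100000

namespace Cfsg.H5.Sz

open Cfsg.H6

theorem nthW_eq (Ws : List (List ℕ)) (i : ℕ) : nthW Ws i = Ws.getD i [] := by
  induction Ws generalizing i with
  | nil => rfl
  | cons w Ws ih =>
    cases i with
    | zero => rfl
    | succ j => exact ih j

/-- The table of a letter is the table of a word. -/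
noncomputable def ext1 (img img' : ℕ → ℕ → ℕ) (n m : ℕ) (w : List ℕ) (l : ℕ) : Bool :=
  andB (inR m w) (allR (fun p => Nat.beq (trF img w p) (img' l p)) 0 n)

theorem act_ext {G : Type*} [Group G] {φ : G →* Equiv.Perm ℕ} {ev ev' : ℕ → G}
    {img img' : ℕ → ℕ → ℕ} {n m m' : ℕ} (h : IsAct φ ev img n m) (f : ℕ → List ℕ)
    (he : ∀ l, ev' l = evL ev (f l))
    (hc : ∀ l, 1 ≤ l → l < m' → ext1 img img' n m (f l) l = true) : IsAct φ ev' img' n m' := by
  intro l h1 h2 p hp
  have := hc l h1 h2
  unfold ext1 at this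
  rw [andB_eq_true] at this
  have h3 := Nat.eq_of_beq_eq_true (allR_spec this.2 p (Nat.zero_le _) (by omega))
  rw [he, ← h3]
  exact h.trF this.1 hp

theorem evS_nth {G : Type*} [Group G] (ev : ℕ → G) (σ : List (List ℕ)) (l : ℕ) :
    evS ev σ l = evL ev (nthW σ l) := by rw [nthW_eq]; rfl

/-- The model. -/
abbrev X : Type := Spor.Suz

instance instFiniteX : Finite X := Suz.finite

noncomputable def evA : ℕ → X := evS Suz.ev sA
noncomputable def evB : ℕ → X := evS evA sB
noncomputable def evP : ℕ → X := evS evB sP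
noncomputable def ev1 : ℕ → X := evS evP (sE ++ [sR])
noncomputable def evX : ℕ → X := evS ev1 s2

theorem cA : allR (fun l => ext1 Suz.img imgA 1782 8 (nthW sA l) l) 1 11 = true := by
  decide +kernel

theorem cB : allR (fun l => ext1 imgA imgB 1782 12 (nthW sB l) l) 1 13 = true := by
  decide +kernel

theorem c1a : allR (fun l => ext1 imgB imgX 1782 14 (subst sP (nthW (sE ++ [sR]) l)) l) 1 24 =
    true := by decide +kernel

theorem c1b : allR (fun l => ext1 imgB imgX 1782 14 (subst sP (nthW (sE ++ [sR]) l)) l) 25 15 =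
    true := by decide +kernel

theorem c2 : allR (fun l => ext1 imgX imgX 1782 40 (nthW s2 l) l) 1 44 = true := by
  decide +kernel

theorem actA : IsAct Suz.φ evA imgA 1782 12 :=
  act_ext Suz.hφ _ (evS_nth _ _) (allR_range cA rfl)

theorem actB : IsAct Suz.φ evB imgB 1782 14 :=
  act_ext actA _ (evS_nth _ _) (allR_range cB rfl)

theorem act1 : IsAct Suz.φ ev1 imgX 1782 40 :=
  act_ext actB _ (fun l => by rw [← evL_subst]; exact evS_nth _ _ l)
    (range_join (allR_range c1a rfl) (allR_range c1b rfl))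

theorem actX : IsAct Suz.φ evX imgX 1782 45 :=
  act_ext act1 _ (evS_nth _ _) (allR_range c2 rfl)

theorem b0 : lvlChk Suz.img 1782 8 [417, 0] (418, bW0, unp 1023 bU0) = true := by decide +kernel

theorem b1 : lvlChk Suz.img 1782 8 [418, 417, 0] (554, bW1, unp 179 bU1) = true := by
  decide +kernel

theorem lb4 : LBn Suz.φ ⊤ 1782 bs 448345497600 :=
  LBn.cast (((Suz.prim.lb2 (e := Suz.I[1]) (List.getElem_mem _)).stepT Suz.hφ b0).stepT Suz.hφ b1)
    (by decide +kernel)

theorem orX : Oracle evX imgX 45 bs := (lb4.oracle actX Suz.ub.top.2).2.2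

end Cfsg.H5.Sz
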