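import Cfsg.Agent.H5.Suz.XD
import Cfsg.Agent.H5.Suz.RC
import Cfsg.Agent.H5.Suz.Q

/-!
The centraliser of the central involution in the model.
-/

set_option autoImplicit false
set_option maxRecDepth 100000
set_option linter.unusedVariables false

namespace Cfsg.H5.Sz

open Cfsg.H6 Subgroup

noncomputable def anyL (f : ℕ → Bool) (l : List ℕ) : Bool :=
  @List.rec _ (fun _ => Bool) false (fun x _ ih => @Bool.rec (fun _ => Bool) ih true (f x)) l

theorem anyL_spec {f : ℕ → Bool} {l : List ℕ} (h : anyL f l = true) : ∃ x ∈ l, f x = true := by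
  induction l with
  | nil => exact absurd h (by simp [anyL])
  | cons x l ih =>
    have e : anyL f (x :: l) = @Bool.rec (fun _ => Bool) (anyL f l) true (f x) := rfl
    cases hx : f x with
    | true => exact ⟨x, List.mem_cons_self, hx⟩
    | false =>
      rw [e, hx] at h
      obtain ⟨y, hy, k⟩ := ih h
      exact ⟨y, List.mem_cons_of_mem _ hy, k⟩

/-- Disjunction, evaluated from the left. -/
noncomputable def orB (a b : Bool) : Bool := @Bool.rec (fun _ => Bool) b true a

theorem orB_iff {a b : Bool} : orB a b = true ↔ a = true ∨ b = true := by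
  cases a <;> cases b <;> simp [orB]

/-- The value of a word in the model. -/
noncomputable abbrev vX (w : List ℕ) : X := evL evX w

theorem fix_bot : fixS Suz.φ bs = ⊥ := (lb4.oracle actX Suz.ub.top.2).2.1

theorem bs_lt : ∀ b ∈ bs, b < 1782 := by decide

theorem inR_append {m : ℕ} {u v : List ℕ} (hu : inR m u = true) (hv : inR m v = true) :
    inR m (u ++ v) = true := by
  unfold inR at *
  rw [List.all_append, hu, hv]; rfl

theorem inR_pw {m : ℕ} {ls : List ℕ} (h : inR m ls = true) (n : ℕ) : inR m (pwW ls n) = true := by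
  unfold inR at *
  rw [List.all_eq_true] at *
  exact fun x hx => h x (pwW_sub n x hx)

theorem inR_nth {m : ℕ} {Ws : List (List ℕ)} (h : Ws.all (inR m) = true) (i : ℕ) :
    inR m (nthW Ws i) = true := by
  rcases nthW_mem Ws i with e | e
  · rw [e]; rfl
  · exact List.all_eq_true.mp h _ e

/-- The words differ at a base point. -/
noncomputable def ne0 (w v : List ℕ) : Bool :=
  anyL (fun b => @Bool.rec (fun _ => Bool) true false (Nat.beq (trF imgX w b) (trF imgX v b))) bs

theorem ne0_spec {w v : List ℕ} (hw : inR 45 w = true) (hv : inR 45 v = true)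
    (h : ne0 w v = true) : vX w ≠ vX v := by
  obtain ⟨b, hb, k⟩ := anyL_spec h
  intro e
  rw [← (actX.trF hw (bs_lt b hb)).1, ← (actX.trF hv (bs_lt b hb)).1,
    show evL evX w = evL evX v from e, Nat.beq_refl] at k
  exact absurd k (by decide)

theorem ne0_false {w v : List ℕ} (hw : inR 45 w = true) (hv : inR 45 v = true)
    (h : ne0 w v = false) : vX w = vX v := by
  have : vX w * (vX v)⁻¹ ∈ fixS Suz.φ bs := by
    rw [mem_fixS']
    intro b hb
    have key : ∀ l : List ℕ, anyL (fun b => @Bool.rec (fun _ => Bool) true false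
        (Nat.beq (trF imgX w b) (trF imgX v b))) l = false → ∀ b ∈ l, trF imgX w b = trF imgX v b := by
      intro l
      induction l with
      | nil => intro _ b hb; exact absurd hb List.not_mem_nil
      | cons x l ih =>
        intro h b hb
        have h' : @Bool.rec (fun _ => Bool) (anyL (fun b => @Bool.rec (fun _ => Bool) true false
          (Nat.beq (trF imgX w b) (trF imgX v b))) l) true (@Bool.rec (fun _ => Bool) true false
          (Nat.beq (trF imgX w x) (trF imgX v x))) = false := h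
        cases hx : Nat.beq (trF imgX w x) (trF imgX v x) with
        | false => rw [hx] at h'; exact absurd h' (by simp)
        | true =>
          rw [hx] at h'
          rcases List.mem_cons.mp hb with rfl | hb
          · exact Nat.eq_of_beq_eq_true hx
          · exact ih h' b hb
    rw [map_mul, map_inv, mul_inv_rev, inv_inv, Equiv.Perm.mul_apply,
      (actX.trF hw (bs_lt b hb)).1, key bs h b hb, ← (actX.trF hv (bs_lt b hb)).1]
    simp
  rwa [fix_bot, mem_bot, mul_inv_eq_one] at this

/-- The words agree at the base points. -/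
noncomputable def eq0 (w v : List ℕ) : Bool := @Bool.rec (fun _ => Bool) true false (ne0 w v)

theorem eq0_spec {w v : List ℕ} (hw : inR 45 w = true) (hv : inR 45 v = true)
    (h : eq0 w v = true) : vX w = vX v := by
  refine ne0_false hw hv ?_
  unfold eq0 at h
  cases e : ne0 w v with
  | false => rfl
  | true => rw [e] at h; exact absurd h (by simp)

noncomputable def eqB (w v : List ℕ) : Bool := andB (inR 45 w) (andB (inR 45 v) (eq0 w v))

noncomputable def neB (w v : List ℕ) : Bool := andB (inR 45 w) (andB (inR 45 v) (ne0 w v))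

theorem eqB_spec (w v : List ℕ) (h : eqB w v = true) : vX w = vX v := by
  simp only [eqB, andB_eq_true] at h
  exact eq0_spec h.1 h.2.1 h.2.2

theorem neB_spec (w v : List ℕ) (h : neB w v = true) : vX w ≠ vX v := by
  simp only [neB, andB_eq_true] at h
  exact ne0_spec h.1 h.2.1 h.2.2

theorem evS_big {G : Type*} [Group G] (ev : ℕ → G) {σ : List (List ℕ)} {l : ℕ} (h : σ.length ≤ l) :
    evS ev σ l = 1 := by
  unfold evS
  rw [List.getD_eq_default _ _ h]; rfl

theorem goodX : Good evX invX := by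
  refine ⟨rfl, fun l => ?_⟩
  by_cases hl : l < 45
  · by_cases h0 : l = 0
    · subst h0; exact inv_one.symm
    · have : allR (fun l => eqB [invL invX l, l] []) 1 44 = true := by decide +kernel
      have := eqB_spec _ _ (allR_spec this l (by omega) (by omega))
      simp only [evL_cons, evL_nil, mul_one] at this
      exact eq_inv_of_mul_eq_one_left this
  · rw [invL_eq_zero (n := 45) (by decide) (by omega)]
    exact (show evX 0 = 1 from rfl).trans (by rw [evX, evS_big _ (show s2.length ≤ l from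
      le_of_eq_of_le (by decide) (not_lt.mp hl)), inv_one])

theorem relsX {R : List (List ℕ)} (h : R.all (fun r => eqB r []) = true) : Rels evX R :=
  fun r hr => eqB_spec _ _ (List.all_eq_true.mp h r hr)

/-- The letters below `n`. -/
def cut {G : Type*} [Group G] (n : ℕ) (ev : ℕ → G) (l : ℕ) : G := if l < n then ev l else 1

theorem evL_cut {G : Type*} [Group G] {n : ℕ} (ev : ℕ → G) {w : List ℕ} (h : inR n w = true) :
    evL (cut n ev) w = evL ev w :=
  evL_congr fun x hx => if_pos (inR_spec h x hx).2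

theorem good_cut {G : Type*} [Group G] {ev : ℕ → G} {inv inv' n : ℕ} (h : Good ev inv)
    (h1 : inv' < 256 ^ n) (h2 : ∀ l < n, invL inv' l = invL inv l ∧ invL inv l < n) :
    Good (cut n ev) inv' := by
  have h0 : cut n ev 0 = 1 := by unfold cut; rw [h.zero]; simp
  refine ⟨h0, fun l => ?_⟩
  by_cases hl : l < n
  · unfold cut
    rw [(h2 l hl).1, if_pos (h2 l hl).2, if_pos hl, h.inv]
  · rw [invL_eq_zero h1 (by omega), h0]
    unfold cut
    rw [if_neg hl, inv_one]

theorem gl_cut {G : Type*} [Group G] {n : ℕ} (ev : ℕ → G) {ls : List ℕ} (h : ∀ l ∈ ls, l < n) :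
    gl (cut n ev) ls = gl ev ls :=
  le_antisymm (gl_le fun l hl => by
      rw [show cut n ev l = ev l from if_pos (h l hl)]; exact gl_mem ev hl)
    (gl_le fun l hl => by
      rw [← show cut n ev l = ev l from if_pos (h l hl)]; exact gl_mem (cut n ev) hl)

/-- The generators of the centraliser. -/
def CL : List ℕ := [1, 2, 3, 4, 5, 7, 9, 13, 10, 15, 11, 17]

theorem ubC {G : Type*} [Group G] {ev : ℕ → G} (hev : Good ev invB) (hR : Rels ev RC) :
    UB (gl ev CL) 3317760 := by
  have h1 : UB (gen (cut 10 ev) C0.Sub) 128 :=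
    PQ.ub (good_cut hev (by decide) (by decide)) fun r hr => by
      rw [evL_cut ev (List.all_eq_true.mp (by decide : PQ.R.all (inR 10) = true) r hr)]
      exact hR.mono (by decide) r hr
  rw [show gen (cut 10 ev) C0.Sub = gen ev C0.Sub from gl_cut ev (ls := QL) (by decide)] at h1
  exact ((((h1.cover (C0.cover hev hR)).cover (C1.cover hev hR)).cover (C2.cover hev hR)).cover
    (C3.cover hev hR)).cover (C4.cover hev hR)

theorem relsC : Rels evX RC := relsX (by decide +kernel)

/-- The first seventeen letters. -/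
noncomputable def evC : ℕ → X := cut 18 evX

theorem goodC : Good evC invB := good_cut goodX (by decide) (by decide)

theorem relsC' : Rels evC RC := fun r hr => by
  rw [evC, evL_cut evX (List.all_eq_true.mp (by decide : RC.all (inR 18) = true) r hr)]
  exact relsC r hr

/-- The centraliser of the central involution. -/
noncomputable def CX : Subgroup X := gl evX CL

theorem CX_eq : gl evC CL = CX := gl_cut evX (by decide)

theorem ubCX : Nat.card CX ≤ 3317760 := CX_eq ▸ (ubC goodC relsC').2

theorem mem_gl_inv {G : Type*} [Group G] {ev : ℕ → G} {inv : ℕ} (hev : Good ev inv) {ls ls' : List ℕ}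
    (h : ls'.all (fun l => ls.elem l || ls.elem (invL inv l)) = true) : ∀ l ∈ ls', ev l ∈ gl ev ls := by
  intro l hl
  have := List.all_eq_true.mp h l hl
  rw [Bool.or_eq_true] at this
  rcases this with e | e
  · exact gl_mem ev (List.mem_of_elem_eq_true e)
  · rw [← inv_mem_iff, ← hev.inv]
    exact gl_mem ev (List.mem_of_elem_eq_true e)

theorem sE_spec {l : ℕ} (h1 : 1 ≤ l) (h2 : l < 39) : evX l = vX (nthW sE l) := by
  have : allR (fun l => eqB [l] (nthW sE l)) 1 38 = true := by decide +kernel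
  exact (evL_singleton evX l).symm.trans (eqB_spec _ _ (allR_spec this l h1 (by omega)))

theorem sE_in (l : ℕ) : inR 18 (nthW sE l) = true := inR_nth (by decide) l

theorem mem_of_inR {G : Type*} [Group G] {ev : ℕ → G} {K : Subgroup G} {n : ℕ}
    (h : ∀ l, 1 ≤ l → l < n → ev l ∈ K) {w : List ℕ} (hw : inR n w = true) : evL ev w ∈ K :=
  evL_mem_of_letters fun x hx => h x (inR_spec hw x hx).1 (inR_spec hw x hx).2

theorem memC {l : ℕ} (h1 : 1 ≤ l) (h2 : l < 39) : evX l ∈ CX := by
  rw [sE_spec h1 h2]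
  refine mem_of_inR (fun l h1 h2 => ?_) (sE_in l)
  exact mem_gl_inv goodX (ls' := List.range' 1 17) (by decide) l (List.mem_range'_1.mpr ⟨h1, h2⟩)

theorem memCw {w : List ℕ} (h : inR 39 w = true) : vX w ∈ CX := mem_of_inR (fun _ => memC) h

theorem exists_i0 : ∃ ι : Qm →* X, ∀ l ∈ QL, ι (Qm.ev l) = evX l := by
  have h1 : Good (cut 10 evX) 42631003429084260860160 := good_cut goodX (by decide) (by decide)
  obtain ⟨ι, h⟩ := Qm.exists_hom (PQ.rel_of h1 fun r hr => by
      rw [evL_cut evX (List.all_eq_true.mp (by decide : PQ.R.all (inR 10) = true) r hr)]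
      exact relsC.mono (by decide) r hr)
  refine ⟨ι, ?_⟩
  unfold QL
  simp only [List.forall_mem_cons]
  exact ⟨h 1, h 2, h 3, h 4, h 5, h 7, h 9, by simp⟩

/-- The extraspecial group in the model. -/
noncomputable def i0 : Qm →* X := exists_i0.choose

theorem i0_eq (q : Qm) : i0 q = vX (pwW QL q.val) := Qm.map_eq exists_i0.choose_spec q

theorem i0_z : i0 Qm.z = evX 9 := exists_i0.choose_spec 9 (by decide)

theorem z_ne : evX 9 ≠ 1 := by
  have := neB_spec [9] [] (by decide +kernel)
  rwa [vX, evL_singleton] at this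

theorem i0_inj : Function.Injective i0 := Qm.inj (i0_z ▸ z_ne)

theorem i0_mem (q : Qm) : i0 q ∈ CX := i0_eq q ▸ memCw (inR_pw (by decide) _)

theorem chkQ : allR (fun l => allR (fun p => andB (Nat.blt (imgQ l p) 128)
    (eq0 (pwW QL p ++ [l]) (l :: pwW QL (imgQ l p)))) 0 128) 1 38 = true := by decide +kernel

theorem actQ1 {l : ℕ} (h1 : 1 ≤ l) (h2 : l < 39) {p : ℕ} (hp : p < 128) :
    (evX l)⁻¹ * i0 (Qm.dec p) * evX l = i0 (Qm.dec (imgQ l p)) ∧ imgQ l p < 128 := by
  have := allR_spec (allR_spec chkQ l h1 (by omega)) p (Nat.zero_le _) (by omega)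
  rw [andB_eq_true, Nat.blt_eq] at this
  have hl : inR 45 [l] = true := by simp [inR]; omega
  have e := eq0_spec (inR_append (inR_pw (by decide) _) hl)
    (inR_append hl (inR_pw (ls := QL) (by decide) _)) this.2
  refine ⟨?_, this.1⟩
  rw [i0_eq, i0_eq, Qm.val_dec hp, Qm.val_dec this.1, mul_assoc, inv_mul_eq_iff_eq_mul]
  simpa only [vX, evL_append, evL_singleton] using e

/-- The action of a word on the extraspecial group. -/
noncomputable def apQ (w : List ℕ) (q : Qm) : Qm := Qm.dec (trF imgQ w q.val)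

theorem actQ {w : List ℕ} (hw : inR 39 w = true) (q : Qm) :
    (vX w)⁻¹ * i0 q * vX w = i0 (apQ w q) := by
  unfold apQ
  rw [trF_eq]
  have hw' := inR_spec hw
  clear hw
  induction w generalizing q with
  | nil => simp [vX, evL_nil, tr_nil, Qm.dec_val]
  | cons l w ih =>
    obtain ⟨h1, h2⟩ := actQ1 (hw' l (by simp)).1 (hw' l (by simp)).2 q.lt
    have := ih (Qm.dec (imgQ l q.val)) fun y hy => hw' y (by simp [hy])
    rw [Qm.val_dec h2, ← h1, Qm.dec_val] at this
    rw [tr_cons, ← this]
    simp only [vX, evL_cons, mul_inv_rev, mul_assoc]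

/-- The normaliser of the extraspecial group. -/
noncomputable abbrev NX : Subgroup X := normalizer (i0.range : Set X)

theorem CX_le : CX ≤ NX := gl_le fun l hl => by
  rw [← inv_mem_iff]
  refine H8.mem_normalizer_of_forall ?_
  rintro _ ⟨q, rfl⟩
  have := (by decide : ∀ l ∈ CL, 1 ≤ l ∧ l < 39) l hl
  exact ⟨_, by rw [inv_inv, ← Qm.dec_val q, (actQ1 this.1 this.2 q.lt).1]⟩

open Classical in
noncomputable def evN (l : ℕ) : NX := if h : evX l ∈ NX then ⟨_, h⟩ else 1

theorem coe_evN {w : List ℕ} (h : inR 39 w = true) : ((evL evN w : NX) : X) = vX w := by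
  rw [← NX.subtype_apply, map_evL]
  refine evL_congr fun l hl => ?_
  unfold evN
  rw [dif_pos (CX_le (memC (inR_spec h l hl).1 (inR_spec h l hl).2))]
  rfl

def eQ : Qm ≃ {n : ℕ // n < 128} where
  toFun q := ⟨q.val, q.lt⟩
  invFun n := ⟨n.1, n.2⟩
  left_inv _ := rfl
  right_inv _ := rfl

noncomputable def psi : NX →* Equiv.Perm ℕ :=
  ((Equiv.Perm.extendDomainHom eQ).comp (MulAut.toPerm Qm)).comp (th i0_inj)

theorem psi_apply (k : NX) (q : Qm) : psi k q.val = (th i0_inj k q).val :=
  Equiv.Perm.extendDomain_apply_image _ eQ q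

theorem actN : IsAct psi evN imgQ 128 39 := by
  intro l h1 h2 p hp
  obtain ⟨e, k⟩ := actQ1 h1 h2 hp
  refine ⟨?_, k⟩
  have e1 := psi_apply (evN l)⁻¹ (Qm.dec p)
  rw [Qm.val_dec hp] at e1
  rw [← map_inv, e1, ← Qm.val_dec k]
  congr 1
  apply i0_inj
  rw [th_spec, ← e, ← evL_singleton evN, coe_inv, coe_evN (by simp [inR]; omega), vX, evL_singleton,
    inv_inv]

theorem lbN : LBn psi (CX.subgroupOf NX) 128 [1] 54 ∧
    LBn psi (CX.subgroupOf NX) 128 [32, 16, 8, 4, 2, 1] 1658880 := by
  have k : ∀ {Ws : List (List ℕ)}, Ws.all (inR 39) = true → ∀ w ∈ Ws,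
      evL evN w ∈ CX.subgroupOf NX := fun h w hw => by
    have := List.all_eq_true.mp h w hw
    rw [mem_subgroupOf, coe_evN this]
    exact memCw this
  have h1 := (LBn.nil psi (CX.subgroupOf NX) 128).stepU actN (k (by decide)) lq0
  exact ⟨h1, (((((h1.stepU actN (k (by decide)) lq1).stepU actN (k (by decide)) lq2).stepU actN
    (k (by decide)) lq3).stepU actN (k (by decide)) lq4).stepU actN (k (by decide)) lq5).cast rfl⟩

theorem zc (q : Qm) : evX 9 * i0 q = i0 q * evX 9 := by
  rw [← i0_z, ← map_mul, ← map_mul, (by decide +kernel : ∀ q, Qm.z * q = q * Qm.z)]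

theorem fix_of {k : NX} {p : ℕ} (hp : p < 128) (h : (k : X) * i0 (Qm.dec p) = i0 (Qm.dec p) * k) :
    psi k p = p := by
  rw [← Qm.val_dec hp, psi_apply]
  congr 1
  apply i0_inj
  rw [th_spec, h, mul_inv_cancel_right]

theorem cardC : Nat.card CX = 3317760 ∧
    ∀ g ∈ CX, (∀ q, g * i0 q = i0 q * g) → g = 1 ∨ g = evX 9 := by
  have h := lbN.2.1
  unfold LB at h
  have e := Nat.card_congr (subgroupOfEquivOfLe CX_le).toEquiv
  have u := ubCX
  have zC : evX 9 ∈ CX := memC (by decide) (by decide)
  have mk : ∀ g (hg : g ∈ CX), (∀ q, g * i0 q = i0 q * g) →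
      (⟨g, CX_le hg⟩ : NX) ∈ CX.subgroupOf NX ⊓ fixS psi [32, 16, 8, 4, 2, 1] := fun g hg k =>
    ⟨hg, fun b hb => fix_of ((by decide : ∀ b ∈ [32, 16, 8, 4, 2, 1], b < 128) b hb) (k _)⟩
  have n1 : (1 : ↥(CX.subgroupOf NX ⊓ fixS psi [32, 16, 8, 4, 2, 1])) ≠ ⟨_, mk _ zC zc⟩ := fun e =>
    z_ne (congrArg Subtype.val (congrArg Subtype.val e)).symm
  have h2 : 2 ≤ Nat.card ↥(CX.subgroupOf NX ⊓ fixS psi [32, 16, 8, 4, 2, 1]) :=
    Finite.one_lt_card_iff_nontrivial.mpr ⟨⟨_, _, n1⟩⟩
  refine ⟨by omega, fun g hg k => ?_⟩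
  obtain ⟨y, -, hy⟩ := (Nat.card_eq_two_iff'
    (1 : ↥(CX.subgroupOf NX ⊓ fixS psi [32, 16, 8, 4, 2, 1]))).mp (by omega)
  by_cases g1 : g = 1
  · exact Or.inl g1
  · right
    have e1 := hy ⟨_, mk g hg k⟩ fun e => g1 (congrArg Subtype.val (congrArg Subtype.val e))
    exact congrArg Subtype.val (congrArg Subtype.val (e1.trans (hy _ n1.symm).symm))

theorem zcomm : ∀ g ∈ CX, g * evX 9 = evX 9 * g := gl_comm fun l hl => by
  have := eqB_spec [l, 9] [9, l] ((by decide +kernel : ∀ l ∈ CL, eqB [l, 9] [9, l] = true) l hl)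
  simpa only [vX, evL_cons, evL_nil, mul_one] using this

/-- The generators of the centraliser of the four-group. -/
def KL : List ℕ := [18, 20, 3, 22, 1, 9]

noncomputable def KX : Subgroup X := gl evX KL

theorem KX_le : KX ≤ CX := gl_le fun l hl =>
  memC ((by decide : ∀ l ∈ KL, 1 ≤ l) l hl) ((by decide : ∀ l ∈ KL, l < 39) l hl)

theorem ecomm : ∀ g ∈ KX, g * evX 1 = evX 1 * g := gl_comm fun l hl => by
  have := eqB_spec [l, 1] [1, l] ((by decide +kernel : ∀ l ∈ KL, eqB [l, 1] [1, l] = true) l hl)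
  simpa only [vX, evL_cons, evL_nil, mul_one] using this

theorem lb_sub {ls ls' : List ℕ} (h : ls'.all (fun l => ls.elem l || ls.elem (invL invX l)) = true)
    {Ws : List (List ℕ)} (k : Ws.all (fun w => sub w ls') = true) : ∀ w ∈ Ws, vX w ∈ gl evX ls :=
  fun w hw => mem_of_sub (mem_gl_inv goodX h) (List.all_eq_true.mp k w hw)

theorem i0_e : i0 (Qm.dec 1) = evX 1 := exists_i0.choose_spec 1 (by decide)

theorem KX_eq : CX ⊓ centralizer {evX 1} = KX ∧ Nat.card KX = 61440 := by
  have l : 61440 ≤ Nat.card KX := (((LBn.nil Suz.φ KX 1782).stepU actX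
    (lb_sub (ls' := [18, 19, 20, 21, 3, 22]) (by decide) (by decide)) lk0).stepU actX
    (lb_sub (ls' := [18, 19, 20, 21, 3, 22]) (by decide) (by decide)) lk1).1.le_card
  have h := lbN.1.1
  unfold LB at h
  have e := Nat.card_congr (subgroupOfEquivOfLe CX_le).toEquiv
  have e' := Nat.card_congr (subgroupOfEquivOfLe
    ((inf_le_left (b := centralizer {evX 1})).trans CX_le)).toEquiv
  have u := ubCX
  have k : Nat.card ((CX ⊓ centralizer {evX 1}).subgroupOf NX) ≤
      Nat.card ↥(CX.subgroupOf NX ⊓ fixS psi [1]) := card_le_of_le fun g hg =>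
    ⟨hg.1, fun b hb => by
      rw [List.mem_singleton.mp hb]
      exact fix_of (by decide) (i0_e ▸ mem_centralizer_singleton_iff.mp hg.2)⟩
  have hle : KX ≤ CX ⊓ centralizer {evX 1} := fun g hg =>
    ⟨KX_le hg, mem_centralizer_singleton_iff.mpr (ecomm g hg)⟩
  have := card_le_of_le hle
  exact ⟨(eq_of_le_of_card_ge hle (by omega)).symm, by omega⟩

theorem memK {g : X} (h : g ∈ CX) (e : g * evX 1 = evX 1 * g) : g ∈ KX :=
  KX_eq.1 ▸ (⟨h, mem_centralizer_singleton_iff.mpr e⟩ : g ∈ CX ⊓ centralizer {evX 1})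

theorem pcR : PcOK evX RL := pcOK_of eqB_spec (c := RC') (by decide +kernel)
theorem pcS : PcOK evX SL := pcOK_of eqB_spec (c := SC) (by decide +kernel)
theorem pcD : PcOK evX DL := pcOK_of eqB_spec (c := DC) (by decide +kernel)
theorem pcO : PcOK evX OL := pcOK_of eqB_spec (c := OC) (by decide +kernel)

theorem cosK : ∀ g ∈ KX, ∃ i < 60, ∃ r ∈ gl evX RL, g = r * vX (nthW aW i) := by
  refine cos_of_table (by decide) rfl fun i hi l hl => ?_
  have : allR (fun i => (List.range 6).all fun k => andB (Nat.blt ((nthW aT i).getD k 0 % 64) 60)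
      (eqB (nthW aW i ++ [KL.getD k 0]) (pwW RL ((nthW aT i).getD k 0 / 64) ++
        nthW aW ((nthW aT i).getD k 0 % 64)))) 0 60 = true := by decide +kernel
  obtain ⟨k, hk, rfl⟩ := List.getElem_of_mem hl
  have := List.all_eq_true.mp (allR_spec this i (Nat.zero_le _) (by omega)) k (List.mem_range.mpr hk)
  rw [andB_eq_true, Nat.blt_eq, List.getD_eq_getElem _ _ hk] at this
  have e := eqB_spec _ _ this.2
  simp only [vX, evL_append, evL_singleton] at e
  exact ⟨_, this.1, _, gl_pw evX RL _, e⟩

/-- The words for the elements of the centraliser of the four-group. -/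
noncomputable def kW (i n : ℕ) : List ℕ := pwW RL n ++ nthW aW i

theorem kW_in (i n : ℕ) : inR 39 (kW i n) = true :=
  inR_append (inR_pw (by decide) _) (inR_nth (by decide) _)

theorem inR_mono {m n : ℕ} (h : m ≤ n) {w : List ℕ} (hw : inR m w = true) : inR n w = true := by
  unfold inR at *
  rw [List.all_eq_true] at *
  intro x hx
  have := hw x hx
  simp only [Bool.and_eq_true, Nat.ble_eq, Nat.blt_eq] at *
  omega

theorem enumK {g : X} (hg : g ∈ KX) : ∃ i < 60, ∃ n < 1024, g = vX (kW i n) := by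
  obtain ⟨i, hi, r, hr, rfl⟩ := cosK g hg
  obtain ⟨n, hn, rfl⟩ := pcR.enum r hr
  exact ⟨i, hi, n, hn, (evL_append _ _ _).symm⟩

theorem cardS : Nat.card (gl evX SL) = 8192 :=
  le_antisymm pcS.ub.2 (((LBn.nil Suz.φ (gl evX SL) 1782).stepU actX
    (lb_sub (ls' := 25 :: SL) (by decide) (by decide)) ls0).stepU actX
    (lb_sub (ls' := 25 :: SL) (by decide) (by decide)) ls1).1.le_card

end Cfsg.H5.Sz
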