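import Cfsg.Agent.H5.Suz.XA

/-!
Facts about the centraliser of the four-group in the model, by enumeration.
-/

set_option autoImplicit false
set_option maxRecDepth 100000
set_option linter.unusedVariables false

namespace Cfsg.H5.Sz

open Cfsg.H6 Subgroup

/-- All products of a sublist of the letters with a word. -/
noncomputable def allPw (ls : List ℕ) : (List ℕ → Bool) → List ℕ → Bool :=
  @List.rec _ (fun _ => (List ℕ → Bool) → List ℕ → Bool) (fun k w => k w)
    (fun l _ ih k w => ih (fun v => andB (k v) (k (l :: v))) w) ls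

theorem allPw_spec {ls : List ℕ} : ∀ {k : List ℕ → Bool} {w : List ℕ}, allPw ls k w = true →
    ∀ n, k (pwW ls n ++ w) = true := by
  induction ls with
  | nil => intro k w h n; exact h
  | cons l ls ih =>
    intro k w h n
    have := ih (k := fun v => andB (k v) (k (l :: v))) h (n / 2)
    rw [andB_eq_true] at this
    rw [pwW_cons]
    split_ifs
    · exact this.1
    · exact this.2

noncomputable def allW (f : List ℕ → Bool) (Ws : List (List ℕ)) : Bool :=
  @List.rec _ (fun _ => Bool) true (fun w _ ih => andB (f w) ih) Ws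

theorem allW_spec {f : List ℕ → Bool} {Ws : List (List ℕ)} (h : allW f Ws = true) :
    ∀ w ∈ Ws, f w = true := by
  induction Ws with
  | nil => intro w hw; exact absurd hw List.not_mem_nil
  | cons v Ws ih =>
    have := andB_eq_true.mp (show andB (f v) (allW f Ws) = true from h)
    exact List.forall_mem_cons.mpr ⟨this.1, ih this.2⟩

theorem nthW_mem' {Ws : List (List ℕ)} {i : ℕ} (h : i < Ws.length) : nthW Ws i ∈ Ws := by
  rw [nthW_eq, List.getD_eq_getElem _ _ h]; exact List.getElem_mem h

theorem bruteK {f : List ℕ → Bool} (h : allW (allPw RL f) aW = true) {g : X} (hg : g ∈ KX) :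
    ∃ w, inR 45 w = true ∧ g = vX w ∧ f w = true := by
  obtain ⟨i, hi, n, hn, e⟩ := enumK hg
  exact ⟨_, inR_mono (by decide) (kW_in i n), e, allPw_spec (allW_spec h _ (nthW_mem' hi)) n⟩

theorem brute {ls : List ℕ} (hp : PcOK evX ls) (hl : inR 45 ls = true) {f : List ℕ → Bool}
    (h : allPw ls f [] = true) {g : X} (hg : g ∈ gl evX ls) :
    ∃ w, inR 45 w = true ∧ g = vX w ∧ f w = true := by
  obtain ⟨n, hn, e⟩ := hp.enum g hg
  have := allPw_spec h n
  rw [List.append_nil] at this
  exact ⟨_, inR_pw hl n, e, this⟩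

noncomputable def neN (a b : ℕ) : Bool := @Bool.rec (fun _ => Bool) true false (Nat.beq a b)

theorem neN_spec {a b : ℕ} (h : neN a b = true) : a ≠ b := by
  rintro rfl
  rw [neN, Nat.beq_refl] at h
  exact absurd h (by decide)

theorem trF_app (u v : List ℕ) (p : ℕ) : trF imgX (u ++ v) p = trF imgX v (trF imgX u p) := by
  simp only [trF_eq, tr_append]

theorem ne_pt {w v : List ℕ} (hw : inR 45 w = true) (hv : inR 45 v = true) {b : ℕ} (hb : b < 1782)
    (h : trF imgX w b ≠ trF imgX v b) : vX w ≠ vX v := fun e => h (by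
  rw [← (actX.trF hw hb).1, ← (actX.trF hv hb).1, show evL evX w = evL evX v from e])

/-- The word fails to commute with one of the listed words. -/
noncomputable def ncm (cs : List (List ℕ)) (w : List ℕ) : Bool :=
  @List.rec _ (fun _ => Bool) false (fun c _ ih =>
    orB (neN (trF imgX c (trF imgX w (nat_lit 11))) (trF imgX w (trF imgX c (nat_lit 11))))
      (orB (neN (trF imgX c (trF imgX w (nat_lit 3))) (trF imgX w (trF imgX c (nat_lit 3)))) ih)) cs

theorem ncm_spec {cs : List (List ℕ)} {w : List ℕ} (hw : inR 45 w = true)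
    (hc : cs.all (inR 45) = true) (h : ncm cs w = true) : ∃ c ∈ cs, vX w * vX c ≠ vX c * vX w := by
  induction cs with
  | nil => exact absurd h (by simp [ncm])
  | cons c cs ih =>
    rw [List.all_cons, Bool.and_eq_true] at hc
    have key : ∀ b < 1782, neN (trF imgX c (trF imgX w b)) (trF imgX w (trF imgX c b)) = true →
        vX w * vX c ≠ vX c * vX w := fun b hb k => by
      have := ne_pt (inR_append hw hc.1) (inR_append hc.1 hw) hb
        (by rw [trF_app, trF_app]; exact neN_spec k)
      simpa only [vX, evL_append] using this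
    rcases orB_iff.mp (show orB _ (orB _ (ncm cs w)) = true from h) with k | k
    · exact ⟨c, List.mem_cons_self, key 11 (by decide) k⟩
    rcases orB_iff.mp k with k | k
    · exact ⟨c, List.mem_cons_self, key 3 (by decide) k⟩
    · obtain ⟨d, hd, e⟩ := ih hc.2 k
      exact ⟨d, List.mem_cons_of_mem _ hd, e⟩

/-- The power of the word moves one of two points. -/
noncomputable def mvP (k : ℕ) (w : List ℕ) : Bool :=
  orB (neN (@Nat.rec (fun _ => ℕ) (nat_lit 11) (fun _ ih => trF imgX w ih) k) (nat_lit 11))
    (neN (@Nat.rec (fun _ => ℕ) (nat_lit 3) (fun _ ih => trF imgX w ih) k) (nat_lit 3))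

theorem inR_rp {m : ℕ} {w : List ℕ} (h : inR m w = true) (k : ℕ) : inR m (rp k w) = true := by
  induction k with
  | zero => rfl
  | succ k ih =>
    have : rp (k + 1) w = w ++ rp k w := by simp [rp, List.replicate_succ]
    rw [this]; exact inR_append h ih

theorem mvP_spec {k : ℕ} {w : List ℕ} (hw : inR 45 w = true) (h : mvP k w = true) :
    vX w ^ k ≠ 1 := by
  have e : ∀ b k, @Nat.rec (fun _ => ℕ) b (fun _ ih => trF imgX w ih) k = trF imgX (rp k w) b := by
    intro b k
    induction k with
    | zero => rfl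
    | succ k ih =>
      have : rp (k + 1) w = rp k w ++ w := by simp [rp, List.replicate_succ']
      rw [this, trF_app, ← ih]
  have key : ∀ b < 1782, neN (@Nat.rec (fun _ => ℕ) b (fun _ ih => trF imgX w ih) k) b = true →
      vX w ^ k ≠ 1 := fun b hb h => by
    have := ne_pt (v := []) (inR_rp hw k) rfl hb (by rw [← e]; exact neN_spec h)
    simpa only [vX, evL_rp, evL_nil] using this
  rcases orB_iff.mp h with h | h
  exacts [key 11 (by decide) h, key 3 (by decide) h]

/-- The centraliser of some words lies in a listed set. -/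
noncomputable def cenB (cs : List (List ℕ)) (f : ℕ → List ℕ) (m : ℕ) (w : List ℕ) : Bool :=
  orB (ncm cs w) (TN.anyB (fun v => eq0 w (f v)) m)

theorem cenB_spec {cs : List (List ℕ)} {f : ℕ → List ℕ} {m : ℕ} (hc : cs.all (inR 45) = true)
    (hf : ∀ v, inR 45 (f v) = true) {w : List ℕ} (hw : inR 45 w = true) (h : cenB cs f m w = true)
    (e : ∀ c ∈ cs, vX w * vX c = vX c * vX w) : ∃ v < m, vX w = vX (f v) := by
  rcases orB_iff.mp h with k | k
  · obtain ⟨c, hc', k⟩ := ncm_spec hw hc k
    exact absurd (e c hc') k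
  · obtain ⟨v, hv, k⟩ := TN.anyB_iff.mp k
    exact ⟨v, hv, eq0_spec hw (hf v) k⟩

theorem cenK {cs : List (List ℕ)} {f : ℕ → List ℕ} {m : ℕ} (hc : cs.all (inR 45) = true)
    (hf : ∀ v, inR 45 (f v) = true)
    (h : allW (allPw RL (cenB cs f m)) aW = true) {g : X}
    (hg : g ∈ KX) (e : ∀ c ∈ cs, g * vX c = vX c * g) : ∃ v < m, g = vX (f v) := by
  obtain ⟨w, hw, rfl, k⟩ := bruteK h hg
  exact cenB_spec hc hf hw k e

def VL : List ℕ := [3, 22, 1, 9]
def V2L : List ℕ := [1, 9]
def R1L : List ℕ := [32, 33, 35, 36, 3, 22, 1, 9]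
def sW : List ℕ := [20, 19, 21, 21]

set_option quotPrecheck false in
/-- An equation between words, unfolded. -/
notation "weq " w ", " v => (by
      have := eqB_spec w v (by decide +kernel)
      simpa only [vX, evL_cons, evL_nil, mul_one, mul_assoc] using this)

set_option quotPrecheck false in
/-- An inequality between words, unfolded. -/
notation "wne " w ", " v => (by
      have := neB_spec w v (by decide +kernel)
      simpa only [vX, evL_cons, evL_nil, mul_one, mul_assoc] using this)

end Cfsg.H5.Sz
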