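import Cfsg.Agent.H5.Suz.XB

/-!
More centralisers by enumeration.
-/

set_option autoImplicit false
set_option maxRecDepth 100000
set_option linter.unusedVariables false

namespace Cfsg.H5.Sz

open Cfsg.H6 Subgroup

theorem cen_t {g : X} (hg : g ∈ KX) (e : ∀ c ∈ [[32]], g * vX c = vX c * g) :
    ∃ v < 256, g = vX (pwW R1L v) :=
  cenK (by decide) (inR_pw (by decide)) (by decide +kernel) hg e

theorem cen_Q1 {g : X} (hg : g ∈ KX) (e : ∀ c ∈ [[3], [4], [5], [7]], g * vX c = vX c * g) :
    ∃ v < 4, g = vX (pwW V2L v) :=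
  cenK (by decide) (inR_pw (by decide)) (by decide +kernel) hg e

end Cfsg.H5.Sz
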