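import Cfsg.Agent.H5.Suz.Y0

/-!
The elementary abelian subgroup of order 243 of the model and its normaliser.
-/

set_option autoImplicit false
set_option maxRecDepth 100000
set_option linter.unusedVariables false
set_option linter.unusedSectionVars false

namespace Cfsg.H5.Sz

open Cfsg.H6 Subgroup Cfsg.H4.Golay

section

variable {G : Type*} [Group G] [Finite G]

theorem card_bound {U V : Subgroup G} (hV : V ≤ U) {n : ℕ} {γ : ℕ → G} (hγ : ∀ i < n, γ i ∈ U)
    (hd : ∀ i < n, ∀ j < n, γ i * (γ j)⁻¹ ∈ V → i = j) : n * Nat.card V ≤ Nat.card U := by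
  let f : Fin n × V → U := fun p => ⟨p.2 * γ p.1, mul_mem (hV p.2.2) (hγ _ p.1.2)⟩
  have : Function.Injective f := by
    rintro ⟨i, v⟩ ⟨j, w⟩ e
    have e' : v.1 * γ i = w.1 * γ j := congrArg Subtype.val e
    obtain rfl : i = j := Fin.ext (hd i i.2 j j.2 (by
      rw [show γ i * (γ j)⁻¹ = v.1⁻¹ * w.1 by rw [← inv_mul_cancel_left v.1 (γ i), e']; group]
      exact mul_mem (inv_mem v.2) w.2))
    rw [Subtype.ext (mul_right_cancel e')]
  simpa [Nat.card_prod] using Nat.card_le_card_of_injective f this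

theorem card_bound' {U V : Subgroup G} (hV : V ≤ U) {n : ℕ} {γ : ℕ → G} (hγ : ∀ i < n, γ i ∈ U)
    (hd : ∀ i < n, ∀ j < i, γ i * (γ j)⁻¹ ∉ V) : n * Nat.card V ≤ Nat.card U :=
  card_bound hV hγ fun i hi j hj k => by
    rcases lt_trichotomy i j with l | l | l
    · exact absurd (by simpa using inv_mem k) (hd j hj i l)
    · exact l
    · exact absurd k (hd i hi j l)

theorem card_gl_le {ev : ℕ → G} : ∀ {ls : List ℕ}, (∀ l ∈ ls, ∀ m ∈ ls, ev l * ev m = ev m * ev l) →
    (∀ l ∈ ls, ev l ^ 3 = 1) → Nat.card (gl ev ls) ≤ 3 ^ ls.length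
  | [], _, _ => by rw [show gl ev [] = ⊥ from gen_nil ev]; simp
  | l :: r, h, k => by
    have ih := card_gl_le (ev := ev) (ls := r) (fun a ha b hb => h a (by simp [ha]) b (by simp [hb]))
      fun a ha => k a (by simp [ha])
    have n : zpowers (ev l) ≤ normalizer (gl ev r : Set G) := zpowers_le.mpr
      (H8.mem_normalizer_of_forall fun x hx => by
        rwa [← gl_comm (fun m hm => h m (by simp [hm]) l (by simp)) x hx, mul_inv_cancel_right])
    have e := H8.card_sup_mul_card_inf n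
    have a : Nat.card (zpowers (ev l)) ≤ 3 := by
      rw [Nat.card_zpowers]; exact orderOf_le_of_pow_eq_one (by decide) (k l (by simp))
    have b : Nat.card (gl ev (l :: r)) ≤ Nat.card ↥(zpowers (ev l) ⊔ gl ev r) :=
      card_le_of_le (gl_le fun m hm => by
        rcases List.mem_cons.mp hm with rfl | hm
        exacts [mem_sup_left (mem_zpowers _), mem_sup_right (gl_mem ev hm)])
    have c : 0 < Nat.card ↥(zpowers (ev l) ⊓ gl ev r) := Nat.card_pos
    rw [List.length_cons, pow_succ']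
    calc _ ≤ _ := b
      _ ≤ _ := Nat.le_mul_of_pos_right _ c
      _ = _ := e
      _ ≤ _ := Nat.mul_le_mul a ih

theorem cj_comm' {a b : G} (c : G) (h : a * b = b * a) :
    c * a * c⁻¹ * (c * b * c⁻¹) = c * b * c⁻¹ * (c * a * c⁻¹) := by rw [conj_mul, conj_mul, h]

theorem mem_norm3 {x g : G} (h : g * x * g⁻¹ = x ∨ g * x * g⁻¹ = x⁻¹) :
    g ∈ normalizer (zpowers x : Set G) :=
  H8.mem_normalizer_of_forall (by
    rintro _ ⟨n, rfl⟩
    rw [← conj_zpow]
    rcases h with h | h <;> rw [h]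
    exacts [zpow_mem (mem_zpowers x) n, zpow_mem (inv_mem (mem_zpowers x)) n])

theorem zp3 {x y : G} (h3 : x ^ 3 = 1) (hy : y ∈ zpowers x) (h1 : y ≠ 1) : y = x ∨ y = x⁻¹ := by
  obtain ⟨i, rfl⟩ := mem_powers_iff_mem_zpowers.mpr hy
  simp only at h1 ⊢
  rw [pow_eq_pow_mod _ h3] at h1 ⊢
  have : i % 3 < 3 := Nat.mod_lt _ (by decide)
  generalize i % 3 = j at *
  interval_cases j
  · exact absurd (pow_zero x) h1
  · exact Or.inl (pow_one x)
  · exact Or.inr (eq_inv_of_mul_eq_one_left (by rw [← pow_succ, h3]))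

theorem pm3 {x g : G} (h3 : x ^ 3 = 1) (h1 : x ≠ 1) (hg : g ∈ normalizer (zpowers x : Set G)) :
    (g⁻¹ * x * g = x ∧ g⁻¹ * x⁻¹ * g = x⁻¹) ∨ (g⁻¹ * x * g = x⁻¹ ∧ g⁻¹ * x⁻¹ * g = x) := by
  have e : g⁻¹ * x⁻¹ * g = (g⁻¹ * x * g)⁻¹ := by group
  rw [e]
  refine (zp3 h3 (H8.conj_mem_of_mem_normalizer' hg (mem_zpowers x)) fun k => h1 ?_).imp
    (fun k => ⟨k, by rw [k]⟩) fun k => ⟨k, by rw [k, inv_inv]⟩
  calc x = g * (g⁻¹ * x * g) * g⁻¹ := by group
    _ = 1 := by rw [k]; simp

end

theorem x3 : evX 18 ^ 3 = 1 := by rw [pow_three]; exact weq [18, 18, 18], []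

theorem x1 : evX 18 ≠ 1 := wne [18], []

theorem x19 : evX 19 = (evX 18)⁻¹ := goodX.inv 18

/-- The normaliser of the group of order three. -/
noncomputable abbrev N3 : Subgroup X := normalizer (zpowers (evX 18) : Set X)

/-- The stabiliser of a point. -/
noncomputable abbrev F0 : Subgroup X := fixS Suz.φ [0]

theorem cardF0 : Nat.card F0 = 251596800 := by
  have := card_mul_index F0
  have i := Suz.prim.index
  rw [Suz.prim.stab] at i
  rw [show F0.index = 1782 from i, Suz.main.1] at this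
  omega

theorem fix_in {w : List ℕ} (h : fixB imgX 45 [0] w = true) : inR 45 w = true := by
  unfold fixB at h
  rw [Bool.and_eq_true] at h
  exact h.1

theorem bound1 : Nat.card ↥(N3 ⊓ F0) ≤ 120960 := by
  have f : ∀ i < 2080, fixB imgX 45 [0] (hW i) = true := fun i hi =>
    allR_spec hChk1 i (Nat.zero_le _) hi
  have := card_bound (inf_le_right : N3 ⊓ F0 ≤ F0) (n := 2080) (γ := fun i => vX (hW i))
    (fun i hi => actX.mem_fixS (by decide) (f i hi)) fun i hi j hj k => by
      refine inj_of_incr hChk2 i hi j hj ?_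
      have r : ∀ i < 2080, ∀ l ∈ [18, 19], inR 45 (invW invX (hW i) ++ l :: hW i) = true :=
        fun i hi l hl => inR_append (inR_invW (fix_in (f i hi))) (inR_append (u := [l])
          ((by decide : ∀ l ∈ [18, 19], inR 45 [l] = true) l hl) (fix_in (f i hi)))
      have t : ∀ l ∈ [18, 19], ∀ m ∈ [18, 19], (vX (hW i) * (vX (hW j))⁻¹)⁻¹ * evX l *
          (vX (hW i) * (vX (hW j))⁻¹) = evX m → ∀ p < 1782,
          trF imgX (invW invX (hW i) ++ l :: hW i) p = trF imgX (invW invX (hW j) ++ m :: hW j) p :=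
        fun l hl m hm e p hp => by
          rw [← (actX.trF (r i hi l hl) hp).1, ← (actX.trF (r j hj m hm) hp).1]
          simp only [evL_append, evL_invW goodX, evL_cons, ← e]
          congr 3
          group
      have s : ∀ p < 1782, key1 (hW i) p = key1 (hW j) p := fun p hp => by
        unfold key1 sym2
        have := pm3 x3 x1 k.1
        rw [← x19] at this
        rcases this with e | e
        · rw [t 18 (by simp) 18 (by simp) e.1 p hp, t 19 (by simp) 19 (by simp) e.2 p hp]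
        · rw [t 18 (by simp) 19 (by simp) e.1 p hp, t 19 (by simp) 18 (by simp) e.2 p hp,
            add_comm (trF _ _ _), mul_comm (trF _ _ _)]
      show key3 _ = key3 _
      unfold key3
      rw [s _ (by decide), s _ (by decide), s _ (by decide)]
  rw [cardF0] at this
  omega

/-- The letters for the normaliser. -/
noncomputable def evY : ℕ → X := evS evX sY

def AL : List ℕ := [1, 2, 3, 4, 5]

/-- The elementary abelian group. -/
noncomputable def AX : Subgroup X := gl evY AL

theorem evY_eq (l : ℕ) : evY l = vX (nthW sY l) := evS_nth _ _ _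

theorem commA : ∀ l ∈ AL, ∀ m ∈ AL, evY l * evY m = evY m * evY l := fun l hl m hm => by
  simpa only [vX, evL_append, evY_eq] using eqB_spec _ _ ((by decide +kernel : ∀ l ∈ AL, ∀ m ∈ AL,
    eqB (nthW sY l ++ nthW sY m) (nthW sY m ++ nthW sY l) = true) l hl m hm)

theorem commA' : ∀ a ∈ AX, ∀ b ∈ AX, a * b = b * a := fun a ha b hb =>
  gl_comm (fun l hl => (gl_comm (fun m hm => commA m hm l hl) b hb).symm) a ha

theorem cubeA : ∀ l ∈ AL, evY l ^ 3 = 1 := fun l hl => by
  simpa only [vX, evL_rp, evL_nil, evY_eq] using eqB_spec _ _ ((by decide +kernel : ∀ l ∈ AL,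
    eqB (rp 3 (nthW sY l)) [] = true) l hl)

theorem cubeA' : ∀ a ∈ AX, a ^ 3 = 1 := fun a ha =>
  (gl_ind (P := fun g => g ∈ AX ∧ g ^ 3 = 1) ⟨one_mem _, one_pow 3⟩ (fun l hl g hg =>
    ⟨mul_mem hg.1 (gl_mem _ hl), by
      rw [Commute.mul_pow (commA' _ hg.1 _ (gl_mem _ hl)), hg.2, cubeA l hl, one_mul]⟩) a ha).2

theorem xA : evX 18 ∈ AX := (evL_singleton evX 18).symm.trans (evY_eq 1).symm ▸ gl_mem evY (by decide)

theorem cardA : Nat.card AX = 243 ∧ AX ⊓ F0 = zpowers (evX 18) := by
  have u : Nat.card AX ≤ 243 := card_gl_le commA cubeA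
  have l0 := (LBn.nil Suz.φ AX 1782).stepU actX (Ws := laW0) (fun w hw => by
    obtain ⟨l, hl, rfl⟩ := (by decide : ∀ w ∈ laW0, ∃ l ∈ AL, sY.getD l [] = w) w hw
    exact gl_mem evY hl) la0
  have l1 := (l0.stepU actX (Ws := laW1) (fun w hw => by
    rw [List.mem_singleton.mp hw, evL_singleton]; exact xA) la1).1.le_card
  have l2 : 81 * Nat.card ↥(AX ⊓ F0) ≤ Nat.card AX := l0.1
  have l3 : evL evX [18] ∈ F0 := actX.mem_fixS (by decide) (by decide +kernel)
  rw [evL_singleton] at l3
  refine ⟨le_antisymm u l1, (eq_of_le_of_card_ge (zpowers_le.mpr (mem_inf.mpr ⟨xA, l3⟩)) ?_).symm⟩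
  rw [Nat.card_zpowers, orderOf_eq_prime x3 x1]
  omega

/-- The normaliser of the elementary abelian group. -/
noncomputable abbrev NA : Subgroup X := normalizer (AX : Set X)

theorem bound2 : Nat.card NA ≤ 1924560 := by
  have le : NA ⊓ F0 ≤ N3 ⊓ F0 := fun g hg => ⟨by
    rw [N3, ← cardA.2]
    exact H8.mem_normalizer_of_forall fun x hx => ⟨H8.conj_mem_of_mem_normalizer hg.1 hx.1,
      F0.mul_mem (F0.mul_mem hg.2 hx.2) (F0.inv_mem hg.2)⟩, hg.2⟩
  have f : ∀ i < 112, fixB imgX 45 [0] (nthW lW i) = true ∧ vX (nthW lW i) ∈ N3 := fun i hi => by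
    have := List.all_eq_true.mp lChk1 _ (nthW_mem' (Ws := lW) hi)
    simp only [Bool.and_eq_true, Bool.or_eq_true] at this
    refine ⟨this.1, mem_norm3 (this.2.imp (fun k => ?_) fun k => ?_)⟩ <;>
      have := eqB_spec _ _ k <;> rw [mul_inv_eq_iff_eq_mul]
    · simpa only [vX, evL_append, evL_cons, evL_nil, mul_one] using this
    · simpa only [vX, evL_append, evL_cons, evL_nil, mul_one, x19] using this
  have h1 := card_bound' le (n := 112) (γ := fun i => vX (nthW lW i))
    (fun i hi => ⟨(f i hi).2, actX.mem_fixS (by decide) (f i hi).1⟩) fun i hi j hj k => by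
      have r : ∀ i < 112, ∀ l, inR 45 (cW (nthW lW i) (nthW sY l)) = true := fun i hi l =>
        inR_append (inR_append (inR_invW (fix_in (f i hi).1)) (inR_nth (by decide) l))
          (fix_in (f i hi).1)
      have c : ∀ l ∈ AL, ∀ m ∈ AL, vX (cW (nthW lW i) (nthW sY l)) * vX (cW (nthW lW j) (nthW sY m)) =
          vX (cW (nthW lW j) (nthW sY m)) * vX (cW (nthW lW i) (nthW sY l)) := fun l hl m hm => by
        have := cj_comm' (vX (nthW lW j))⁻¹ (commA' _ (H8.conj_mem_of_mem_normalizer' k.1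
          (gl_mem evY hl)) _ (gl_mem evY hm))
        simp only [cW, vX, evL_append, evL_invW goodX, evY_eq] at this ⊢
        convert this using 2 <;> group
      have hc : [cW (nthW lW j) (nthW sY 2), cW (nthW lW j) (nthW sY 3)].all (inR 45) = true := by
        simp only [List.all_cons, r j (by omega), List.all_nil, Bool.and_self]
      rcases orB_iff.mp (allR_spec (allR_spec lChk2 i (Nat.zero_le _) hi) j (Nat.zero_le _)
        (by omega)) with a | a <;> obtain ⟨w, hw, a⟩ := ncm_spec (r i hi _) hc a <;>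
        simp only [List.mem_cons, List.not_mem_nil, or_false] at hw <;> rcases hw with rfl | rfl <;>
        exact a (c _ (by decide) _ (by decide))
  have h2 := H8.card_inf_mul_relIndex F0 NA
  have h3 : F0.relIndex NA ≤ 1782 := by
    rw [relIndex_fixS]
    refine (Set.ncard_le_ncard (orb_mono _ le_top 0) (orb_finite _ _ _)).trans ?_
    rw [Suz.prim.orb_top]; simp
  have h4 := bound1
  rw [inf_comm] at h2
  calc _ = _ := h2.symm
    _ ≤ 1080 * 1782 := Nat.mul_le_mul (by omega) h3

end Cfsg.H5.Sz
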