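import Cfsg.Agent.H5.Suz.Y1

/-!
The automiser of the elementary abelian group of order 243 is the Mathieu group of degree eleven.
-/

set_option autoImplicit false
set_option maxRecDepth 100000
set_option linter.unusedVariables false
set_option linter.unusedSectionVars false

namespace Cfsg.H5.Sz

open Cfsg.H6 Subgroup Cfsg.H4.Golay

theorem invM : ∀ l < 10, Inverse (ttM.getD l 0) (ttM.getD (invL invY l) 0) := by decide +kernel

/-- The letters as permutations of the 24 points. -/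
noncomputable def evM (l : ℕ) : Equiv.Perm GolayPt := if h : l < 10 then prm _ _ (invM l h) else 1

theorem evM_mem (l : ℕ) : evM l ∈ Spor.M11 := by
  have : ∀ l < 10, (∀ g ∈ basis, H4.Golay.red basis (pull (ttM.getD l 0) g) = 0 ∧ ∀ i < 24,
      g.testBit (tb (ttM.getD l 0) i) = (pull (ttM.getD l 0) g).testBit i) ∧
      tb (ttM.getD l 0) 0 = 0 ∧
      ∀ i < 24, Nat.testBit 340831 (tb (ttM.getD l 0) i) = Nat.testBit 340831 i := by decide +kernel
  unfold evM
  split_ifs with h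
  · exact ⟨mem_M12.mpr ⟨prm_mem _ (this l h).1, fun p => by
      rw [idx_prm, (this l h).2.2 _ (idx_lt p)]⟩, congrArg pt (this l h).2.1⟩
  · exact one_mem _

def eG : GolayPt ≃ {n : ℕ // n < 24} where
  toFun p := ⟨idx p, idx_lt p⟩
  invFun n := pt n.1
  left_inv := pt_idx
  right_inv n := Subtype.ext (idx_pt _ n.2)

theorem actM : IsAct (Equiv.Perm.extendDomainHom eG) evM imgM 24 10 := by
  intro l h1 h2 p hp
  refine ⟨?_, (invM l h2 p hp).2.1⟩
  have := Equiv.Perm.extendDomain_apply_image (evM l)⁻¹ eG (pt p)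
  rw [show ((eG (pt p) : {n : ℕ // n < 24}) : ℕ) = p from idx_pt p hp] at this
  rw [← map_inv]
  refine this.trans ?_
  rw [evM, dif_pos h2]
  show idx (pt (tb _ (idx (pt p)))) = _
  rw [idx_pt p hp, idx_pt _ (invM l h2 p hp).2.1]
  rfl

def ML : List ℕ := [1, 2, 3, 4, 5, 6, 7, 8, 9]

theorem lbM : 7920 ≤ Nat.card (gl evM ML) := by
  have k : ∀ {Ws : List (List ℕ)}, Ws.all (fun w => sub w ML) = true → ∀ w ∈ Ws,
      evL evM w ∈ gl evM ML := fun h w hw =>
    mem_of_sub (fun l hl => gl_mem evM hl) (List.all_eq_true.mp h w hw)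
  exact (((((LBn.nil _ (gl evM ML) 24).stepU actM (k (by decide)) lm0).stepU actM (k (by decide))
    lm1).stepU actM (k (by decide)) lm2).stepU actM (k (by decide)) lm3).1.le_card

/-- The eleven distinguished elements. -/
noncomputable def xj (j : ℕ) : X := vX (subst sY (nthW labW j))

def pj (j : ℕ) : GolayPt := pt (ptL.getD j 0)

theorem xj_mem (j : ℕ) : xj j ∈ AX := by
  rw [xj, vX, ← evL_subst]
  refine mem_of_sub (fun l hl => gl_mem evY hl) ?_
  rcases nthW_mem labW j with e | e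
  · rw [e]; rfl
  · exact List.all_eq_true.mp (by decide : labW.all (fun w => sub w AL) = true) _ e

noncomputable def evP' (l : ℕ) : X × Equiv.Perm GolayPt := (evY l, evM l)

/-- The graph of the action on the eleven subgroups. -/
noncomputable def GM : Subgroup (X × Equiv.Perm GolayPt) := gl evP' ML

/-- Compatible actions. -/
def Cp (p : X × Equiv.Perm GolayPt) : Prop := ∀ j < 11, ∃ k < 11,
  (p.1 * xj j * p.1⁻¹ = xj k ∨ p.1 * xj j * p.1⁻¹ = (xj k)⁻¹) ∧ p.2 (pj j) = pj k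

theorem cp_l : ∀ l ∈ ML, Cp (evP' l) := fun l hl j hj => by
  have := (by decide +kernel : ∀ l ∈ ML, ∀ j < 11, l < 10 ∧ (nthW actT l).getD j 0 / 2 < 11 ∧
    (eqB (nthW sY l ++ subst sY (nthW labW j))
      (subst sY (nthW labW ((nthW actT l).getD j 0 / 2)) ++ nthW sY l) = true ∨
    eqB (nthW sY l ++ subst sY (nthW labW j))
      (invW invX (subst sY (nthW labW ((nthW actT l).getD j 0 / 2))) ++ nthW sY l) = true) ∧
    ptL.getD j 0 < 24 ∧
    tb (ttM.getD l 0) (ptL.getD j 0) = ptL.getD ((nthW actT l).getD j 0 / 2) 0) l hl j hj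
  refine ⟨_, this.2.1, this.2.2.1.imp (fun k => ?_) fun k => ?_, ?_⟩
  · rw [mul_inv_eq_iff_eq_mul]
    simpa only [vX, evL_append, evP', evY_eq, xj] using eqB_spec _ _ k
  · rw [mul_inv_eq_iff_eq_mul]
    simpa only [vX, evL_append, evL_invW goodX, evP', evY_eq, xj] using eqB_spec _ _ k
  · show evM l _ = _
    rw [evM, dif_pos this.1]
    show pt (tb _ (idx (pt _))) = _
    rw [idx_pt _ this.2.2.2.1, this.2.2.2.2]
    rfl

theorem cp : ∀ p ∈ GM, Cp p := by
  refine gl_ind (fun j hj => ⟨j, hj, Or.inl (by simp), rfl⟩) fun l hl p hp j hj => ?_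
  obtain ⟨k, hk, a, b⟩ := cp_l l hl j hj
  obtain ⟨m, hm, c, d⟩ := hp k hk
  refine ⟨m, hm, ?_, by rw [Prod.snd_mul, Equiv.Perm.mul_apply, b, d]⟩
  rw [show (p * evP' l).1 * xj j * (p * evP' l).1⁻¹ = p.1 * ((evP' l).1 * xj j * (evP' l).1⁻¹) *
    p.1⁻¹ by simp only [Prod.fst_mul]; group]
  rcases a with a | a <;> rw [a]
  · exact c
  · rw [← conj_inv]
    rcases c with c | c <;> rw [c]
    exacts [Or.inr rfl, Or.inl (inv_inv _)]

theorem GM_snd : GM.map (MonoidHom.snd _ _) = gl evM ML := map_gl _ _ _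

theorem gl_M11 : gl evM ML = Spor.M11 :=
  eq_of_le_of_card_ge (gl_le fun l _ => evM_mem l) (card_M11_le.trans lbM)

theorem GM_ker {p : X × Equiv.Perm GolayPt} (hp : p ∈ GM) (h : ∀ a ∈ AX, p.1 * a = a * p.1) :
    p.2 = 1 := by
  have m : p.2 ∈ Spor.M11 := gl_M11 ▸ GM_snd ▸ mem_map_of_mem (MonoidHom.snd _ _) hp
  have f : ∀ j < 11, p.2 (pj j) = pj j := fun j hj => by
    obtain ⟨k, hk, a, b⟩ := cp p hp j hj
    rw [h _ (xj_mem j), mul_inv_cancel_right] at a
    rcases (by decide +kernel : ∀ j < 11, ∀ k < 11, k = j ∨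
      (neB (subst sY (nthW labW j)) (subst sY (nthW labW k)) = true ∧
      neB (subst sY (nthW labW j)) (invW invX (subst sY (nthW labW k))) = true)) j hj k hk with e | e
    · rwa [e] at b
    · rcases a with a | a
      · exact absurd a (neB_spec _ _ e.1)
      · exact absurd (a.trans (evL_invW goodX _).symm) (neB_spec _ _ e.2)
  refine eq_one_of_mem_M12 m.1 fun i hi => ?_
  interval_cases i
  exacts [m.2, f 0 (by decide), f 3 (by decide), f 7 (by decide), f 4 (by decide)]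

/-- The properties of the elementary abelian subgroup. -/
def Pr {G : Type*} [Group G] (A : Subgroup G) : Prop :=
  IsElementaryAbelian 3 A ∧ Nat.card A = 3 ^ 5 ∧ centralizer (A : Set G) = A ∧
    ∃ θ : normalizer (A : Set G) →* Spor.M11, Function.Surjective θ ∧ ∀ n, θ n = 1 ↔ n.1 ∈ A

theorem prA : Pr AX := by
  have le : GM.map (MonoidHom.fst _ _) ≤ NA := by
    rw [GM, map_gl]
    refine gl_le fun l hl => H8.mem_normalizer_of_forall (gl_conj fun m hm => ?_)
    have := (by decide : ∀ m ∈ AL, m - 1 < 11 ∧ subst sY (nthW labW (m - 1)) = nthW sY m) m hm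
    obtain ⟨k, -, a, -⟩ := cp_l l hl (m - 1) this.1
    rw [xj, this.2, ← evY_eq] at a
    rcases a with a | a
    exacts [a ▸ xj_mem k, a ▸ inv_mem (xj_mem k)]
  have fn : (MonoidHom.fst X (Equiv.Perm GolayPt)).ker ⊓ GM = ⊥ := eq_bot_iff.mpr fun p hp =>
    Prod.ext hp.1 (GM_ker hp.2 fun a _ => by rw [show p.1 = 1 from hp.1, one_mul, mul_one])
  have lA : AX.map (MonoidHom.inl X (Equiv.Perm GolayPt)) ≤ (MonoidHom.snd _ _).ker ⊓ GM := by
    rw [AX, map_gl]
    refine gl_le fun l hl => ⟨rfl, ?_⟩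
    have m : evP' l ∈ GM := gl_mem _ ((by decide : ∀ l ∈ AL, l ∈ ML) l hl)
    have := GM_ker m (commA' _ (gl_mem evY hl))
    rwa [show evP' l = (evY l, 1) from Prod.ext rfl this] at m
  have c1 := H8.card_inf_mul_relIndex (MonoidHom.fst X (Equiv.Perm GolayPt)).ker GM
  have c2 := H8.card_inf_mul_relIndex (MonoidHom.snd X (Equiv.Perm GolayPt)).ker GM
  rw [relIndex_ker] at c1 c2
  rw [fn, card_bot, one_mul] at c1
  rw [GM_snd, le_antisymm (gl_M11 ▸ card_M11_le) lbM] at c2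
  have c3 := card_le_of_le lA
  have c4 := card_le_of_le le
  have c5 := bound2
  have c6 : Nat.card (AX.map (MonoidHom.inl X (Equiv.Perm GolayPt))) = 243 := by
    rw [card_map_of_injective fun a b e => congrArg Prod.fst e, cardA.1]
  have e1 := eq_of_le_of_card_ge le (by omega)
  have e2 := eq_of_le_of_card_ge lA (by omega)
  have kA : ∀ p ∈ GM, p.2 = 1 ↔ p.1 ∈ AX := fun p hp => ⟨fun k => by
    obtain ⟨a, ha, rfl⟩ : p ∈ AX.map (MonoidHom.inl X (Equiv.Perm GolayPt)) := e2 ▸ ⟨k, hp⟩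
    exact ha, fun k => GM_ker hp (commA' _ k)⟩
  let e : GM ≃* NA := MulEquiv.ofBijective (((MonoidHom.fst _ _).comp GM.subtype).codRestrict NA
    fun p => le (mem_map_of_mem _ p.2)) ⟨(injective_iff_map_eq_one _).mpr fun p hp =>
      Subtype.ext (mem_bot.mp (fn ▸ ⟨congrArg Subtype.val hp, p.2⟩)), fun n => by
        obtain ⟨p, hp, k⟩ := e1.ge n.2
        exact ⟨⟨p, hp⟩, Subtype.ext k⟩⟩
  let s : GM →* Spor.M11 := ((MonoidHom.snd _ _).comp GM.subtype).codRestrict Spor.M11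
    fun p => gl_M11 ▸ GM_snd ▸ mem_map_of_mem (MonoidHom.snd _ _) p.2
  refine ⟨⟨⟨⟨fun a b => Subtype.ext (commA' _ a.2 _ b.2)⟩⟩, cubeA'⟩, cardA.1,
    le_antisymm (fun g hg => ?_) fun a ha b hb => commA' _ hb _ ha,
    s.comp e.symm.toMonoidHom, fun m => ?_, fun n => ?_⟩
  · obtain ⟨p, hp, rfl⟩ := e1.ge (centralizer_le_normalizer _ hg)
    exact (kA p hp).mp (GM_ker hp fun a ha => (hg a ha).symm)
  · obtain ⟨p, hp, k⟩ := (GM_snd.trans gl_M11).ge m.2
    exact ⟨e ⟨p, hp⟩, (congrArg s (e.symm_apply_apply _)).trans (Subtype.ext k)⟩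
  · obtain ⟨p, rfl⟩ := e.surjective n
    rw [show s.comp e.symm.toMonoidHom (e p) = s p from congrArg s (e.symm_apply_apply _),
      Subtype.ext_iff]
    exact kA p.1 p.2

theorem Pr.map {G G' : Type*} [Group G] [Group G'] {A : Subgroup G} (h : Pr A) (ψ : G ≃* G') :
    Pr (A.map ψ.toMonoidHom) := by
  obtain ⟨⟨h1, h2⟩, h3, h4, θ, h5, h6⟩ := h
  have n : (normalizer (A : Set G)).map ψ.toMonoidHom = normalizer (A.map ψ.toMonoidHom : Set G') :=
    map_equiv_normalizer_eq A ψ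
  let e := (ψ.subgroupMap (normalizer (A : Set G))).trans (MulEquiv.subgroupCongr n)
  refine ⟨⟨inferInstance, ?_⟩, by rw [card_map_of_injective ψ.injective, h3], ?_,
    θ.comp e.symm.toMonoidHom, h5.comp e.symm.surjective, fun m => ?_⟩
  · rintro _ ⟨a, ha, rfl⟩
    rw [← map_pow, h2 a ha, map_one]
  · ext g
    obtain ⟨g, rfl⟩ := ψ.surjective g
    refine Iff.trans ?_ ((SetLike.ext_iff.mp h4 g).trans
      (mem_map_iff_mem (f := ψ.toMonoidHom) ψ.injective).symm)
    refine ⟨fun k a ha => ψ.injective (by simpa using k _ (mem_map_of_mem _ ha)), ?_⟩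
    rintro k _ ⟨a, ha, rfl⟩
    simpa using congrArg ψ (k a ha)
  · obtain ⟨m, rfl⟩ := e.surjective m
    rw [show θ.comp e.symm.toMonoidHom (e m) = θ m from congrArg θ (e.symm_apply_apply _)]
    exact (h6 m).trans (mem_map_iff_mem (f := ψ.toMonoidHom) ψ.injective).symm

theorem Pr.iso {G : Type*} [Group G] {A : Subgroup G} (h : Pr A) :
    ∃ _ : (A.subgroupOf (normalizer (A : Set G))).Normal,
      Spor.IsoM11 (normalizer (A : Set G) ⧸ A.subgroupOf (normalizer (A : Set G))) := by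
  obtain ⟨-, -, -, θ, h5, h6⟩ := h
  exact ⟨inferInstance, ⟨(QuotientGroup.quotientMulEquivOfEq (ext fun n => (h6 n).symm)).trans
    (QuotientGroup.quotientKerEquivOfSurjective θ h5)⟩⟩

end Cfsg.H5.Sz
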