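import Cfsg.Agent.H5.Suz.Y2
import Cfsg.Agent.H5.Suz.S8
import Cfsg.Agent.H6.Suz.K

/-!
The subgroups of order three of the centraliser of the central involution.
-/

set_option autoImplicit false
set_option maxRecDepth 100000
set_option linter.unusedVariables false
set_option linter.unusedSectionVars false

namespace Cfsg.H5.Sz

open Cfsg.H6 Subgroup
open scoped commutatorElement

/-- A Sylow 3-subgroup of the centraliser. -/
noncomputable def T3 : Subgroup X := gl (evS evX sT) [1, 2]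

theorem enumT {g : X} (hg : g ∈ T3) : ∃ i < 81, g = vX (subst sT (nthW tW3 i)) := by
  obtain ⟨i, hi, r, hr, e⟩ := cos_of_table (H := ⊥) (a := fun i => vX (subst sT (nthW tW3 i)))
    (n := 81) (by decide) rfl (fun i hi l hl => by
      have := (by decide +kernel : ∀ i < 81, ∀ l ∈ [1, 2], (nthW tT3 i).getD (l - 1) 0 < 81 ∧
        eqB (subst sT (nthW tW3 i) ++ nthW sT l)
          (subst sT (nthW tW3 ((nthW tT3 i).getD (l - 1) 0))) = true) i hi l hl
      refine ⟨_, this.1, 1, one_mem _, ?_⟩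
      simpa only [vX, evL_append, evS_nth, one_mul] using eqB_spec _ _ this.2) g hg
  exact ⟨i, hi, by rw [e, mem_bot.mp hr, one_mul]⟩

theorem sylT : H8.IsSyl 3 T3 CX := by
  have le : T3 ≤ CX := gl_le fun l hl => by rw [evS_nth]; exact memCw (inR_nth (by decide) l)
  have l := ((LBn.nil Suz.φ T3 1782).stepU actX (Ws := ltW0) (fun w hw => by
    obtain ⟨l, hl, rfl⟩ := (by decide : ∀ w ∈ ltW0, ∃ l ∈ [1, 2], sT.getD l [] = w) w hw
    exact gl_mem (evS evX sT) hl) lt0).1.le_card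
  have p : IsPGroup 3 T3 := H8.isPGroup_iff_forall.mpr fun g hg => by
    obtain ⟨i, hi, rfl⟩ := enumT hg
    exact ⟨2, by simpa only [vX, evL_rp, evL_nil] using eqB_spec _ _ ((by decide +kernel : ∀ i < 81,
      eqB (rp (3 ^ 2) (subst sT (nthW tW3 i))) [] = true) i hi)⟩
  refine ⟨le, p, fun hd => ?_⟩
  obtain ⟨k, hk⟩ := p.exists_card_eq
  obtain ⟨m, hm⟩ := hd
  have := H8.card_mul_relIndex le
  rw [cardC.1, hm, hk] at this
  rw [hk] at l
  have k4 : 4 ≤ k := by
    by_contra h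
    have : k ≤ 3 := by omega
    interval_cases k <;> omega
  obtain ⟨j, rfl⟩ := Nat.exists_eq_add_of_le k4
  have : 243 ∣ 3317760 := ⟨3 ^ j * m, by rw [← this]; ring⟩
  omega

theorem cls3 {a : X} (ha : a ∈ CX) (h3 : a ^ 3 = 1) (h1 : a ≠ 1) :
    (∃ c, c * a * c⁻¹ = evX 18 ∨ c * a * c⁻¹ = (evX 18)⁻¹) ∨ ∃ c ∈ CX, ∃ q : ℕ → Qm,
      ∀ i < 9, ∀ j < 9, (i0 (q i))⁻¹ * (c * a * c⁻¹)⁻¹ * i0 (q i) * (c * a * c⁻¹) =
        (i0 (q j))⁻¹ * (c * a * c⁻¹)⁻¹ * i0 (q j) * (c * a * c⁻¹) → i = j := by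
  obtain ⟨c, hc, k⟩ := sylT.exists_conj_mem ha ⟨1, by rwa [pow_one]⟩
  obtain ⟨n, hn, e⟩ := enumT k
  rcases (by decide +kernel : ∀ n < 81, n = 0 ∨
    eqB (nthW cT3 n ++ subst sT (nthW tW3 n)) (18 :: nthW cT3 n) = true ∨
    eqB (nthW cT3 n ++ subst sT (nthW tW3 n)) (19 :: nthW cT3 n) = true ∨
    (inR 39 (subst sT (nthW tW3 n)) = true ∧ ∀ i < 9, ∀ j < 9,
      (Qm.dec ((nthW qT3 n).getD i 0))⁻¹ *
        apQ (subst sT (nthW tW3 n)) (Qm.dec ((nthW qT3 n).getD i 0)) =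
      (Qm.dec ((nthW qT3 n).getD j 0))⁻¹ *
        apQ (subst sT (nthW tW3 n)) (Qm.dec ((nthW qT3 n).getD j 0)) → i = j)) n hn with
    rfl | k | k | k
  · exact absurd (by simpa using e.trans (rfl : _ = (1 : X))) h1
  · have := eqB_spec _ _ k
    simp only [vX, evL_append, evL_cons] at this e
    rw [← e, ← mul_inv_eq_iff_eq_mul] at this
    exact Or.inl ⟨vX (nthW cT3 n) * c, Or.inl (Eq.trans (by group) this)⟩
  · have := eqB_spec _ _ k
    simp only [vX, evL_append, evL_cons, x19] at this e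
    rw [← e, ← mul_inv_eq_iff_eq_mul] at this
    exact Or.inl ⟨vX (nthW cT3 n) * c, Or.inr (Eq.trans (by group) this)⟩
  · refine Or.inr ⟨c, hc, fun i => Qm.dec ((nthW qT3 n).getD i 0), fun i hi j hj h =>
      k.2 i hi j hj (i0_inj ?_)⟩
    rw [map_mul, map_mul, map_inv, map_inv, ← actQ k.1, ← actQ k.1, ← e]
    simpa only [mul_assoc] using h

theorem ev_eq {l : ℕ} (h1 : 1 ≤ l) (h2 : l < 8) : Suz.ev l = vX (nthW sO l) := by
  have := (by decide +kernel : ∀ l < 8, 1 ≤ l → inR 45 (nthW sO l) = true ∧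
    ∀ b ∈ bs, Suz.img l b = trF imgX (nthW sO l) b) l h2 h1
  rw [← mul_inv_eq_one, ← mem_bot, ← fix_bot, mem_fixS']
  intro b hb
  rw [map_mul, map_inv, mul_inv_rev, inv_inv, Equiv.Perm.mul_apply,
    (Suz.hφ l h1 h2 b (bs_lt b hb)).1, this.2 b hb, ← (actX.trF this.1 (bs_lt b hb)).1]
  simp

theorem idxN3 : N3.index ∣ 22880 := by
  have le : L0.cj (vX [5, 38, 15, 22]) (gen Suz.ev Suz.C6.X) ≤ N3 :=
    H8.cj_le_iff_forall.mpr (gl_conj (ls := [1, 2, 3, 4, 6, 7]) fun l hl => by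
      have := (by decide +kernel : ∀ l ∈ [1, 2, 3, 4, 6, 7], 1 ≤ l ∧ l < 8 ∧
        (eqB (cW (invW invX [5, 38, 15, 22]) (nthW sO l) ++ [18])
          (18 :: cW (invW invX [5, 38, 15, 22]) (nthW sO l)) = true ∨
        eqB (cW (invW invX [5, 38, 15, 22]) (nthW sO l) ++ [18])
          (19 :: cW (invW invX [5, 38, 15, 22]) (nthW sO l)) = true)) l hl
      rw [ev_eq this.1 this.2.1]
      refine mem_norm3 (this.2.2.imp (fun k => ?_) fun k => ?_) <;> rw [mul_inv_eq_iff_eq_mul]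
      · simpa only [vX, cW, evL_append, evL_cons evX 18, evL_nil, mul_one, evL_invW goodX, inv_inv]
          using eqB_spec _ _ k
      · simpa only [vX, cW, evL_append, evL_cons evX 18, evL_cons evX 19, evL_nil, mul_one,
          evL_invW goodX, inv_inv, x19] using eqB_spec _ _ k)
  have := index_dvd_of_le le
  rwa [L0.cj, index_map_of_bijective (MulAut.conj _).bijective, Suz.indexK] at this

theorem three_local {G : Type*} [Group G] [Finite G] (z : G) (hz : orderOf z = 2)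
    (Q : Subgroup (centralizer ({z} : Set G))) [Q.Normal]
    (hF : generalizedFittingSubgroup (centralizer ({z} : Set G)) = Q)
    (hQ : IsExtraspecial 2 Q) (hcard : Nat.card Q = 2 ^ 7)
    (e : centralizer ({z} : Set G) ⧸ Q ≃* Omega (ZMod 2) (quadFormMinus 2 (ZMod 2) 1 1))
    (hnwc : ∃ g : G, (∃ hq : g * z * g⁻¹ ∈ centralizer ({z} : Set G),
      (⟨g * z * g⁻¹, hq⟩ : centralizer ({z} : Set G)) ∈ Q) ∧ g * z * g⁻¹ ≠ z)
    (Y : Subgroup (centralizer ({z} : Set G))) (hX : Nat.card Y = 3) (hQX : Nat.card ↥⁅Q, Y⁆ = 8)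
    {P : Subgroup G} (hP : H8.IsSyl 3 P (normalizer (Y.map (centralizer {z}).subtype : Set G))) :
    ¬ 3 ∣ P.index ∧ ∃ A ≤ P, Pr A := by
  obtain ⟨Φ, h1, h2⟩ := exists_iso z hz Q hF hQ hcard e hnwc
  have mC : ∀ {a}, a ∈ CX → Φ a ∈ centralizer ({z} : Set G) := fun ha =>
    h2 ▸ mem_map_of_mem Φ.toMonoidHom ha
  obtain ⟨x, hx, ox⟩ := H8.exists_orderOf_eq_of_dvd_card (p := 3) (H := Y) (by rw [hX])
  obtain ⟨a, ha, ea⟩ := h2.ge x.2
  have ea : Φ a = x.1 := ea
  have oa : orderOf a = 3 := by rw [← ox, ← orderOf_coe, ← ea, MulEquiv.orderOf_eq]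
  have hs : H8.IsSyl 3 P ⊤ := by
    rcases cls3 ha (oa ▸ pow_orderOf_eq_one a) (fun k => by simp [k] at oa) with
      ⟨c, k⟩ | ⟨c, hc, q, k⟩
    · refine hP.trans le_top fun hd => ?_
      let ψ : X ≃* G := (MulAut.conj c).symm.trans Φ
      have y : (zpowers (evX 18)).map ψ.toMonoidHom = Y.map (centralizer {z}).subtype := by
        rw [← eq_of_le_of_card_ge (zpowers_le.mpr hx) (by rw [hX, Nat.card_zpowers, ox]),
          MonoidHom.map_zpowers, MonoidHom.map_zpowers]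
        rcases k with k | k
        · rw [← k]; congr 1; simpa [ψ, mul_assoc] using ea
        · rw [← inv_inv (evX 18), ← k, map_inv, zpowers_inv]; congr 1; simpa [ψ, mul_assoc] using ea
      rw [relIndex_top_right, ← y, ← map_equiv_normalizer_eq,
        index_map_of_bijective ψ.bijective] at hd
      exact absurd (hd.trans idxN3) (by decide)
    · exfalso
      let Q0 := (i0.range.map Φ.toMonoidHom).subgroupOf (centralizer {z})
      have n : Q0.Normal := ⟨by
        rintro u ⟨v, hv, e⟩ g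
        obtain ⟨b, hb, eb⟩ := h2.ge g.2
        refine ⟨_, H8.conj_mem_of_mem_normalizer (CX_le hb) hv, ?_⟩
        rw [map_mul, map_mul, map_inv, e, eb]; rfl⟩
      have p : IsPGroup 2 Q0 := IsPGroup.comap_subtype (IsPGroup.map
        (H8.isPGroup_iff_forall.mpr (by
          rintro _ ⟨q, rfl⟩
          exact ⟨2, by rw [← map_pow, (by decide +kernel : ∀ q : Qm, q ^ 2 ^ 2 = 1), map_one]⟩)) _)
      have le : Q0 ≤ Q := hF ▸ (L0.le_fitting_of_normal n p.isNilpotent).trans L0.fitting_le_fstar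
      have m : ∀ i, c⁻¹ * (i0 (q i))⁻¹ * c ∈ i0.range := fun i =>
        H8.conj_mem_of_mem_normalizer' (CX_le hc) (inv_mem ⟨_, rfl⟩)
      have m' : ∀ i, c⁻¹ * (i0 (q i))⁻¹ * c ∈ CX := fun i =>
        mul_mem (mul_mem (inv_mem hc) (inv_mem (i0_mem _))) hc
      have := card_bound (bot_le : ⊥ ≤ ⁅Q, Y⁆) (n := 9) (γ := fun i => ⁅⟨_, mC (m' i)⟩, x⁻¹⁆)
        (fun i _ => commutator_mem_commutator (le ⟨_, m i, rfl⟩) (inv_mem hx)) fun i hi j hj h =>
          k i hi j hj (by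
            have := congrArg Subtype.val (mul_inv_eq_one.mp (mem_bot.mp h))
            simp only [commutatorElement_def, coe_mul, coe_inv, ← ea, ← map_inv, ← map_mul] at this
            have := congrArg (fun u => c * u * c⁻¹) (Φ.injective this)
            simpa only [mul_assoc, mul_inv_rev, map_inv, inv_inv, mul_inv_cancel_left] using this)
      rw [card_bot, hQX] at this
      omega
  refine ⟨by simpa using hs.not_dvd, ?_⟩
  have pa := prA.map Φ
  obtain ⟨g, -, hg⟩ := hs.exists_cj_le (Q := AX.map Φ.toMonoidHom)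
    (H8.isPGroup_iff_forall.mpr fun y hy => ⟨1, by rw [pow_one]; exact pa.1.2 y hy⟩) le_top
  exact ⟨_, hg, pa.map (MulAut.conj g)⟩

end Cfsg.H5.Sz
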